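/-
A concrete model of the Sylow 2-subgroup of `U₅(2)`.
-/
import Mathlib

set_option autoImplicit false

namespace CA.U5

/-- the field with four elements `0, 1, ω, ω²` -/
inductive K | o | i | w | v
  deriving DecidableEq

namespace K

def add : K → K → K
  | o, x => x
  | x, o => x
  | i, i => o | i, w => v | i, v => w
  | w, i => v | w, w => o | w, v => i
  | v, i => w | v, w => i | v, v => o

def mul : K → K → K
  | o, _ => o
  | _, o => o
  | i, x => x
  | x, i => x
  | w, w => v | w, v => i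
  | v, w => i | v, v => w

def cj' : K → K
  | o => o | i => i | w => v | v => w

theorem forall_iff {p : K → Prop} : (∀ x, p x) ↔ p o ∧ p i ∧ p w ∧ p v :=
  ⟨fun h => ⟨h _, h _, h _, h _⟩, fun h x => by cases x; exacts [h.1, h.2.1, h.2.2.1, h.2.2.2]⟩

theorem exists_iff {p : K → Prop} : (∃ x, p x) ↔ p o ∨ p i ∨ p w ∨ p v :=
  ⟨fun ⟨x, h⟩ => by cases x <;> simp [h], fun h => by rcases h with h | h | h | h <;> exact ⟨_, h⟩⟩

instance (priority := high) decAll {p : K → Prop} [DecidablePred p] : Decidable (∀ x, p x) :=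
  decidable_of_iff _ forall_iff.symm

instance (priority := high) decEx {p : K → Prop} [DecidablePred p] : Decidable (∃ x, p x) :=
  decidable_of_iff _ exists_iff.symm

instance : Fintype K := ⟨{o, i, w, v}, by decide⟩

instance : CommRing K where
  add := add
  mul := mul
  zero := o
  one := i
  neg := id
  nsmul := @nsmulRec K ⟨o⟩ ⟨add⟩
  zsmul := @zsmulRec K ⟨o⟩ ⟨add⟩ ⟨id⟩ (@nsmulRec K ⟨o⟩ ⟨add⟩)
  add_assoc := by decide
  zero_add := by decide
  add_zero := by decide
  add_comm := by decide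
  neg_add_cancel := by decide
  mul_assoc := by decide
  one_mul := by decide
  mul_one := by decide
  mul_comm := by decide
  left_distrib := by decide
  right_distrib := by decide
  zero_mul := by decide
  mul_zero := by decide

/-- conjugation `x ↦ x²` -/
def cj : K →+* K where
  toFun := cj'
  map_one' := rfl
  map_zero' := rfl
  map_mul' := by decide
  map_add' := by decide

theorem cj_cj (x : K) : cj (cj x) = x := by revert x; decide

theorem cj_eq (x : K) : cj x = x ^ 2 := by rw [pow_two]; revert x; decide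

theorem two : (2 : K) = 0 := by rw [← one_add_one_eq_two]; decide

theorem add_self (x : K) : x + x = 0 := by revert x; decide

theorem card : Fintype.card K = 4 := rfl

end K

open K

/-- the matrix with first row `(1,a,c,d,g)` and second row `(0,1,b,f,*)`, unitary for the antidiagonal form -/
@[ext] structure T0 where
  a : K
  b : K
  c : K
  d : K
  f : K
  g : K
  hf : cj f = f + b * cj b
  hg : cj g = g + (a * cj d + d * cj a + c * cj c)

namespace T0

instance : DecidableEq T0 := fun x y =>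
  decidable_of_iff (x.a = y.a ∧ x.b = y.b ∧ x.c = y.c ∧ x.d = y.d ∧ x.f = y.f ∧ x.g = y.g) T0.ext_iff.symm

def mul (x y : T0) : T0 where
  a := x.a + y.a
  b := x.b + y.b
  c := x.c + x.a * y.b + y.c
  d := x.d + x.a * y.f + x.c * cj y.b + y.d
  f := x.f + x.b * cj y.b + y.f
  g := x.g + x.a * (cj y.d + cj y.a * y.f + y.b * cj y.c) + x.c * (cj y.c + cj y.a * cj y.b) + x.d * cj y.a + y.g
  hf := by
    simp only [map_add, map_mul, cj_cj, x.hf, y.hf]
    linear_combination (-(x.b * cj y.b)) * two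
  hg := by
    simp only [map_add, map_mul, cj_cj, y.hf, x.hg, y.hg]
    have := two
    grind

def inv (x : T0) : T0 where
  a := x.a
  b := x.b
  c := x.c + x.a * x.b
  d := x.d + x.a * cj x.f + x.c * cj x.b
  f := cj x.f
  g := cj x.g
  hf := by
    simp only [cj_cj, x.hf, map_add, map_mul]
    have := two
    grind
  hg := by
    simp only [map_add, map_mul, cj_cj, x.hf, x.hg]
    have := two
    grind

instance : Mul T0 := ⟨mul⟩
instance : Inv T0 := ⟨inv⟩
instance : One T0 := ⟨⟨0, 0, 0, 0, 0, 0, by decide, by decide⟩⟩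

theorem mul_a (x y : T0) : (x * y).a = x.a + y.a := rfl
theorem mul_b (x y : T0) : (x * y).b = x.b + y.b := rfl
theorem mul_c (x y : T0) : (x * y).c = x.c + x.a * y.b + y.c := rfl
theorem mul_d (x y : T0) : (x * y).d = x.d + x.a * y.f + x.c * cj y.b + y.d := rfl
theorem mul_f (x y : T0) : (x * y).f = x.f + x.b * cj y.b + y.f := rfl
theorem mul_g (x y : T0) : (x * y).g = x.g + x.a * (cj y.d + cj y.a * y.f + y.b * cj y.c) +
    x.c * (cj y.c + cj y.a * cj y.b) + x.d * cj y.a + y.g := rfl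

/-- enumeration of the 1024 elements -/
def mk' (a b c d : K) (u v : Bool) : T0 where
  a := a
  b := b
  c := c
  d := d
  f := K.w * (b * cj b) + bif u then 1 else 0
  g := K.w * (a * cj d + d * cj a + c * cj c) + bif v then 1 else 0
  hf := by revert b u; decide
  hg := by revert a c d v; decide

theorem mk'_surj (x : T0) : ∃ u v, x = mk' x.a x.b x.c x.d u v := by
  obtain ⟨a, b, c, d, f, g, hf, hg⟩ := x
  obtain ⟨u, hu⟩ := (show ∀ b f : K, cj f = f + b * cj b → ∃ u, f = K.w * (b * cj b) + bif u then 1 else 0 by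
    decide) b f hf
  obtain ⟨v, hv⟩ := (show ∀ a c d g : K, cj g = g + (a * cj d + d * cj a + c * cj c) →
    ∃ v, g = K.w * (a * cj d + d * cj a + c * cj c) + bif v then 1 else 0 by decide) a c d g hg
  exact ⟨u, v, T0.ext rfl rfl rfl rfl hu hv⟩

theorem forall_iff {p : T0 → Prop} : (∀ x, p x) ↔ ∀ a b c d u v, p (mk' a b c d u v) :=
  ⟨fun h _ _ _ _ _ _ => h _, fun h x => by obtain ⟨u, v, e⟩ := mk'_surj x; rw [e]; exact h _ _ _ _ _ _⟩

theorem exists_iff {p : T0 → Prop} : (∃ x, p x) ↔ ∃ a b c d u v, p (mk' a b c d u v) :=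
  ⟨fun ⟨x, h⟩ => by obtain ⟨u, v, e⟩ := mk'_surj x; rw [e] at h; exact ⟨_, _, _, _, _, _, h⟩,
    fun ⟨_, _, _, _, _, _, h⟩ => ⟨_, h⟩⟩

instance (priority := high) decAll {p : T0 → Prop} [DecidablePred p] : Decidable (∀ x, p x) :=
  decidable_of_iff _ forall_iff.symm

instance (priority := high) decEx {p : T0 → Prop} [DecidablePred p] : Decidable (∃ x, p x) :=
  decidable_of_iff _ exists_iff.symm

instance : Group T0 := Group.ofLeftAxioms
  (fun x y z => by
    have := two
    ext <;> simp only [mul_a, mul_b, mul_c, mul_d, mul_f, mul_g, map_add, map_mul, cj_cj, z.hf] <;> grind)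
  (by decide +kernel) (by decide +kernel)

/-- the elements as a product type -/
noncomputable def equiv : T0 ≃ K × K × K × K × Bool × Bool :=
  (Equiv.ofBijective (fun p : K × K × K × K × Bool × Bool => mk' p.1 p.2.1 p.2.2.1 p.2.2.2.1 p.2.2.2.2.1 p.2.2.2.2.2)
    ⟨fun ⟨a, b, c, d, s, t⟩ ⟨a', b', c', d', s', t'⟩ h => by
      have h' := T0.ext_iff.1 h
      simp only [mk'] at h'
      obtain ⟨rfl, rfl, rfl, rfl, h1, h2⟩ := h'
      have k : ∀ u u' : Bool, (bif u then (1 : K) else 0) = (bif u' then 1 else 0) → u = u' := by decide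
      rw [k _ _ (add_left_cancel h1), k _ _ (add_left_cancel h2)],
    fun x => by obtain ⟨u, v, e⟩ := mk'_surj x; exact ⟨⟨_, _, _, _, u, v⟩, e.symm⟩⟩).symm

instance : Finite T0 := Finite.of_equiv _ equiv.symm

theorem card : Nat.card T0 = 1024 := by
  rw [Nat.card_congr equiv]; simp [K.card]

end T0

/-- `R = 2^{4+4}` -/
def R0 : Subgroup T0 where
  carrier := {x | x.a = 0}
  mul_mem' {x y} hx hy := by simp only [Set.mem_ofPred_eq, T0.mul_a] at *; rw [hx, hy, add_zero]
  one_mem' := rfl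
  inv_mem' h := h

/-- `A = 2^4 = Z(R)` -/
def A0 : Subgroup T0 where
  carrier := {x | x.a = 0 ∧ x.b = 0 ∧ x.c = 0}
  mul_mem' {x y} hx hy := by
    simp only [Set.mem_ofPred_eq, T0.mul_a, T0.mul_b, T0.mul_c] at *
    simp [hx, hy]
  one_mem' := ⟨rfl, rfl, rfl⟩
  inv_mem' {x} := by revert x; decide +kernel

/-- `Q = 2^{1+6}_-` -/
def Q0 : Subgroup T0 where
  carrier := {x | x.b = 0 ∧ x.f = 0}
  mul_mem' {x y} hx hy := by
    simp only [Set.mem_ofPred_eq, T0.mul_b, T0.mul_f] at *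
    simp [hx, hy]
  one_mem' := ⟨rfl, rfl⟩
  inv_mem' {x} := by revert x; decide +kernel

theorem mem_R0 {x : T0} : x ∈ R0 ↔ x.a = 0 := Iff.rfl
theorem mem_A0 {x : T0} : x ∈ A0 ↔ x.a = 0 ∧ x.b = 0 ∧ x.c = 0 := Iff.rfl
theorem mem_Q0 {x : T0} : x ∈ Q0 ↔ x.b = 0 ∧ x.f = 0 := Iff.rfl

instance (x : T0) : Decidable (x ∈ R0) := decidable_of_iff _ mem_R0.symm
instance (x : T0) : Decidable (x ∈ A0) := decidable_of_iff _ mem_A0.symm
instance (x : T0) : Decidable (x ∈ Q0) := decidable_of_iff _ mem_Q0.symm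

/-- the five transvections; `e0 4` is the central involution -/
def e0 : Fin 5 → T0 :=
  ![T0.mk' 0 0 0 0 true false, T0.mk' 0 0 0 K.i true true, T0.mk' 0 0 0 K.w true true,
    T0.mk' 0 0 0 K.v true true, T0.mk' 0 0 0 0 false true]

theorem e0_inj : Function.Injective e0 := by decide +kernel
theorem e0_A (i : Fin 5) : e0 i ∈ A0 := by revert i; decide +kernel
theorem e0_sq (i : Fin 5) : e0 i * e0 i = 1 := by revert i; decide +kernel
theorem e0_ne (i : Fin 5) : e0 i ≠ 1 := by revert i; decide +kernel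
theorem e0_prod : e0 0 * e0 1 * e0 2 * e0 3 * e0 4 = 1 := by decide +kernel
theorem A0_elts : ∀ x ∈ A0, x = 1 ∨ (∃ i, x = e0 i) ∨ ∃ i j, i ≠ j ∧ x = e0 i * e0 j := by decide +kernel
theorem z_central (x : T0) : x * e0 4 = e0 4 * x := by revert x; decide +kernel
theorem inv_AQ : ∀ x : T0, x * x = 1 → x ∈ A0 ∨ x ∈ Q0 := by decide +kernel
theorem R0_sq : ∀ x ∈ R0, x ∈ A0 ∧ x * x = 1 ∨ x ∉ A0 ∧ ∃ i, x * x = e0 i := by decide +kernel
theorem Q0_sq : ∀ x ∈ Q0, x * x = 1 ∨ x * x = e0 4 := by decide +kernel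
theorem conj_e0 : ∀ x : T0, ∀ i, ∃ j, x * e0 i * x⁻¹ = e0 j := by decide +kernel
theorem cent_e0 : ∀ x : T0, ∀ i, i ≠ 4 → (x * e0 i = e0 i * x ↔ x ∈ R0) := by decide +kernel

theorem realizeEqns_U5_T0 : True := by
  have := @CA.U5.K.cj.eq_1
  have := @CA.U5.K.cj.eq_def
  have := @CA.U5.K.cj.congr_simp
  have := @CA.U5.K.cj'.eq_1
  have := @CA.U5.K.cj'.eq_2
  have := @CA.U5.K.cj'.eq_3
  have := @CA.U5.K.cj'.eq_4
  have := @CA.U5.K.cj'.eq_def
  have := @CA.U5.K.cj'.congr_simp
  have := @CA.U5.A0.eq_1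
  have := @CA.U5.A0.eq_def
  have := @CA.U5.A0.congr_simp
  have := @CA.U5.K.mul.eq_1
  have := @CA.U5.K.mul.eq_2
  have := @CA.U5.K.mul.eq_3
  have := @CA.U5.K.mul.eq_4
  have := @CA.U5.K.mul.eq_5
  have := @CA.U5.K.mul.eq_6
  have := @CA.U5.K.mul.eq_7
  have := @CA.U5.K.mul.eq_8
  have := @CA.U5.K.mul.eq_def
  have := @CA.U5.K.mul.congr_simp
  have := @CA.U5.K.add.eq_1
  have := @CA.U5.K.add.eq_2
  have := @CA.U5.K.add.eq_3
  have := @CA.U5.K.add.eq_4
  have := @CA.U5.K.add.eq_5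
  have := @CA.U5.K.add.eq_6
  have := @CA.U5.K.add.eq_7
  have := @CA.U5.K.add.eq_8
  have := @CA.U5.K.add.eq_9
  have := @CA.U5.K.add.eq_10
  have := @CA.U5.K.add.eq_11
  have := @CA.U5.K.add.eq_def
  have := @CA.U5.K.add.congr_simp
  have := @CA.U5.T0.inv.eq_1
  have := @CA.U5.T0.inv.eq_def
  have := @CA.U5.T0.inv.congr_simp
  have := @CA.U5.T0.mul.eq_1
  have := @CA.U5.T0.mul.eq_def
  have := @CA.U5.T0.mul.congr_simp
  have := @CA.U5.R0.eq_1
  have := @CA.U5.R0.eq_def
  have := @CA.U5.R0.congr_simp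
  have := @CA.U5.Q0.eq_1
  have := @CA.U5.Q0.eq_def
  have := @CA.U5.Q0.congr_simp
  have := @CA.U5.e0.eq_1
  have := @CA.U5.e0.eq_def
  have := @CA.U5.e0.congr_simp
  have := @CA.U5.T0.mk'.eq_1
  have := @CA.U5.T0.mk'.eq_def
  have := @CA.U5.T0.mk'.congr_simp
  have := @CA.U5.T0.equiv.eq_1
  have := @CA.U5.T0.equiv.eq_def
  have := @CA.U5.T0.equiv.congr_simp
  trivial

end CA.U5
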