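/-
Interface for the characterisation of `U₅(2)` by its Sylow 2-subgroup.
-/
import Cfsg.Agent.U5.T0
import Cfsg.Agent.Blk.ZCor
import Cfsg.Prelude.Def_SporadicB

set_option autoImplicit false

open Cfsg CA.FG Subgroup

namespace CA.U5

universe u

/-- the solvable 2-signalizer functor theorem -/
def SigTwo : Prop := ∀ (X : Type u) [Group X] [Finite X] (A : Subgroup X) (θ : X → Subgroup X),
  IsElementaryAbelian 2 A → 8 ≤ Nat.card A → (∀ a ∈ A, a ≠ 1 → Odd (Nat.card (θ a))) →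
  (∀ a ∈ A, a ≠ 1 → θ a ≤ 𝒞[a]) → (∀ a ∈ A, a ≠ 1 → A ≤ 𝒩(θ a)) →
  (∀ a ∈ A, a ≠ 1 → ∀ b ∈ A, b ≠ 1 → θ a ⊓ 𝒞[b] ≤ θ b) →
  ∃ W : Subgroup X, Odd (Nat.card W) ∧ ∀ a ∈ A, a ≠ 1 → θ a ≤ W

/-- the odd core of a subgroup -/
abbrev O {X : Type*} [Group X] (H : Subgroup X) : Subgroup X := pPrimeCoreOf 2 H

/-- strongly closed in every 2-subgroup containing it -/
def SC {X : Type*} [Group X] (A : Subgroup X) : Prop :=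
  ∀ P : Subgroup X, IsPGroup 2 P → A ≤ P → ∀ a ∈ A, ∀ g : X, g * a * g⁻¹ ∈ P → g * a * g⁻¹ ∈ A

def Good {X : Type*} [Group X] (A B : Subgroup X) : Prop := 𝒞(B) ≤ O 𝒞(B) ⊔ (𝒩(A) ⊓ 𝒞(B))

/-- a special case of Goldschmidt's theorem on strongly closed abelian subgroups -/
def MG : Prop := ∀ (X : Type u) [Group X] [Finite X] (A : Subgroup X), IsElementaryAbelian 2 A → SC A →
  8 ≤ Nat.card A → (∃ u ∈ A, ∃ v ∈ A, u ≠ 1 ∧ v ≠ 1 ∧ ¬ IsConj u v) →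
  (∀ a ∈ A, a ≠ 1 → 𝒞[a] ≤ O 𝒞[a] ⊔ (𝒩(A) ⊓ 𝒞[a])) → O (⊤ : Subgroup X) ⊔ 𝒩(A) = ⊤

/-- the inductive form of `MG` -/
def MGS : Prop := ∀ (X : Type u) [Group X] [Finite X] (A : Subgroup X), IsElementaryAbelian 2 A → SC A →
  (∀ B : Subgroup X, B < A → Good A B ∨
    (∃ u ∈ A, u ∉ B ∧ ∀ n ∈ 𝒩(A) ⊓ 𝒞(B), u⁻¹ * (n * u * n⁻¹) ∈ B) ∨
    (8 * Nat.card B ≤ Nat.card A ∧ ∃ u ∈ A, ∃ v ∈ A, u ∉ B ∧ v ∉ B ∧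
      ∀ n ∈ 𝒩(A) ⊓ 𝒞(B), v⁻¹ * (n * u * n⁻¹) ∉ B)) → O (⊤ : Subgroup X) ⊔ 𝒩(A) = ⊤

variable {G : Type u} [Group G]

/-- `ι` identifies the model with a Sylow 2-subgroup -/
structure TU (ι : T0 →* G) : Prop where
  inj : Function.Injective ι
  odd : Odd ι.range.index

abbrev sT (ι : T0 →* G) : Subgroup G := ι.range
abbrev sA (ι : T0 →* G) : Subgroup G := A0.map ι
abbrev sR (ι : T0 →* G) : Subgroup G := R0.map ι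
abbrev sQ (ι : T0 →* G) : Subgroup G := Q0.map ι
abbrev e (ι : T0 →* G) (i : Fin 5) : G := ι (e0 i)
abbrev z (ι : T0 →* G) : G := ι (e0 4)
abbrev a (ι : T0 →* G) : G := ι (e0 0) * ι (e0 1)

/-- fusion of the central involution (package P2a) -/
structure FA (ι : T0 →* G) : Prop extends TU ι where
  zT : ∀ g x, g * z ι * g⁻¹ = ι x → ∃ i, x = e0 i
  two : ∀ P : Subgroup G, IsPGroup 2 P → sA ι ≤ P → P ≤ 𝒩(sA ι) ∧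
    ∀ g, g * z ι * g⁻¹ ∈ P → ∃ i, g * z ι * g⁻¹ = e ι i
  perm : ∀ n ∈ 𝒩(sA ι), ∀ i, ∃ j, n * e ι i * n⁻¹ = e ι j
  tr3 : ∀ i j k i' j' k' : Fin 5, i ≠ j → i ≠ k → j ≠ k → i' ≠ j' → i' ≠ k' → j' ≠ k' →
    ∃ n ∈ 𝒩(sA ι), n * e ι i * n⁻¹ = e ι i' ∧ n * e ι j * n⁻¹ = e ι j' ∧ n * e ι k * n⁻¹ = e ι k'
  ev : ∀ n ∈ 𝒩(sA ι), ∀ i j k : Fin 5, i ≠ j → i ≠ k → j ≠ k → Commute n (e ι i) → Commute n (e ι j) →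
    Commute n (e ι k) → n ∈ 𝒞(sA ι)

/-- the normalizer of `A` (package P2b) -/
structure FB (ι : T0 →* G) : Prop extends FA ι where
  cA : 𝒞(sA ι) ≤ O 𝒞(sA ι) ⊔ 𝒩(sR ι)
  nA : 𝒩(sA ι) ≤ O 𝒞(sA ι) ⊔ 𝒩(sR ι)
  nT : 𝒩(sA ι) ⊓ 𝒞[z ι] ≤ O 𝒞(sA ι) ⊔ 𝒩(sT ι)

/-- `N(⟨u, z⟩) ∩ C(z)` -/
abbrev NZ (ι : T0 →* G) (u : G) : Subgroup G := 𝒞[z ι] ⊓ 𝒩(zpowers u ⊔ zpowers (z ι))

/-- package P3 -/
structure FC (ι : T0 →* G) : Prop extends FB ι where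
  ca : ∀ i j, i ≠ j → 𝒞[e ι i * e ι j] ≤ O 𝒞[e ι i * e ι j] ⊔ 𝒩(zpowers (e ι i) ⊔ zpowers (e ι j))
  nz : ∀ i j, i ≠ j → i ≠ 4 → j ≠ 4 → NZ ι (e ι i * e ι j) ≤
    O (NZ ι (e ι i * e ι j)) ⊔ (𝒩(sT ι) ⊓ NZ ι (e ι i * e ι j))

/-- package P4 -/
structure FD (ι : T0 →* G) : Prop extends FC ι where
  cz : 𝒞[z ι] ≤ O 𝒞[z ι] ⊔ 𝒩(sQ ι)

/-- package P8 -/
structure FH (ι : T0 →* G) : Prop where
  dih : ∀ d u, IsConj (z ι) d → IsConj (a ι) u →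
    ∃ w, (IsConj (z ι) w ∨ IsConj (a ι) w) ∧ Commute w d ∧ Commute w u
  top : ∀ M : Subgroup G, 𝒞[z ι] ≤ M → 𝒞[a ι] ≤ M → 𝒩(sA ι) ≤ M → M = ⊤

/-- package P5 -/
structure FE (ι : T0 →* G) : Prop extends FA ι where
  cz : 𝒞[z ι] ≤ 𝒩(sQ ι)
  cQ : 𝒞(sQ ι) ≤ sQ ι
  ca : 𝒞[a ι] ≤ 𝒩(sA ι)

theorem realizeEqns_U5_Defs : True := by
  have := @CA.U5.Good.eq_1.{0}
  have := @CA.U5.Good.eq_def.{0}
  have := @CA.U5.Good.congr_simp.{0}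
  have := @CA.U5.O.eq_1.{0}
  have := @CA.U5.O.eq_def.{0}
  have := @CA.U5.O.congr_simp.{0}
  have := @CA.U5.MGS.eq_1.{0}
  have := @CA.U5.MGS.eq_def.{0}
  have := @CA.U5.MGS.congr_simp.{0}
  have := @CA.U5.SC.eq_1.{0}
  have := @CA.U5.SC.eq_def.{0}
  have := @CA.U5.SC.congr_simp.{0}
  have := @CA.U5.NZ.eq_1.{0}
  have := @CA.U5.NZ.eq_def.{0}
  have := @CA.U5.NZ.congr_simp.{0}
  have := @CA.U5.sQ.eq_1.{0}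
  have := @CA.U5.sQ.eq_def.{0}
  have := @CA.U5.sQ.congr_simp.{0}
  have := @CA.U5.sR.eq_1.{0}
  have := @CA.U5.sR.eq_def.{0}
  have := @CA.U5.sR.congr_simp.{0}
  have := @CA.U5.SigTwo.eq_1.{0}
  have := @CA.U5.SigTwo.eq_def.{0}
  have := @CA.U5.SigTwo.congr_simp.{0}
  have := @CA.U5.z.eq_1.{0}
  have := @CA.U5.z.eq_def.{0}
  have := @CA.U5.z.congr_simp.{0}
  have := @CA.U5.e.eq_1.{0}
  have := @CA.U5.e.eq_def.{0}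
  have := @CA.U5.e.congr_simp.{0}
  have := @CA.U5.sA.eq_1.{0}
  have := @CA.U5.sA.eq_def.{0}
  have := @CA.U5.sA.congr_simp.{0}
  have := @CA.U5.a.eq_1.{0}
  have := @CA.U5.a.eq_def.{0}
  have := @CA.U5.a.congr_simp.{0}
  have := @CA.U5.MG.eq_1.{0}
  have := @CA.U5.MG.eq_def.{0}
  have := @CA.U5.MG.congr_simp.{0}
  have := @CA.U5.sT.eq_1.{0}
  have := @CA.U5.sT.eq_def.{0}
  have := @CA.U5.sT.congr_simp.{0}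
  trivial

end CA.U5
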