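/-
Constrained centralizers of involutions: general lemmas for the signalizer step.
Owner: helper9.
-/
import Cfsg.Agent.U5.Defs
import Cfsg.Agent.BG.I01

set_option autoImplicit false
set_option linter.unusedSectionVars false

open Cfsg CA.FG CA.BG Subgroup

namespace CA.U5.Fe

universe u

variable {G : Type u} [Group G] [Finite G]

theorem oO (X : Subgroup G) : IsPiGrp {2}ᶜ (O X) := pcore_piGrp _ _

/-- the factorisation hypothesis, in the form used below -/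
def Fac (X N : Subgroup G) : Prop := X ≤ O X ⊔ (X ⊓ N)

theorem fac_of {X N : Subgroup G} (h : X ≤ O X ⊔ N) (n : N ≤ X) : Fac X N := by
  rwa [Fac, inf_eq_right.2 n]

theorem Fac.core {X N K : Subgroup G} (h : Fac X N) (hK : K ≤ X) (oK : IsPiGrp {2}ᶜ K)
    (n : X ⊓ N ≤ 𝒩(K)) : K ≤ O X :=
  le_sup_right.trans (pcore_max ⟨sup_le (pcore_le _ _) hK, h.trans (sup_le (norm_of_le le_sup_left)
    (norm_sup (inf_le_left.trans (pcore_norm _ _)) n))⟩ ((oO X).sup oK (Or.inr (hK.trans (pcore_norm _ _)))))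

theorem Fac.norm {X N P : Subgroup G} (h : Fac X N) (n : X ⊓ N ≤ 𝒩(P)) : X ≤ 𝒩(O X ⊔ P) :=
  h.trans (sup_le (norm_of_le le_sup_left) (norm_sup (inf_le_left.trans (pcore_norm _ _)) n))

/-- `Y / O(Y)` has the self-centralizing normal `2`-subgroup `P O(Y) / O(Y)` -/
structure CP (Y P : Subgroup G) : Prop where
  le : P ≤ Y
  two : IsPGrp 2 P
  fac : Fac Y 𝒩(P)
  cent : Y ⊓ 𝒞(P) ≤ O Y ⊔ P

theorem CP.conj {Y P : Subgroup G} (h : CP Y P) (g : G) : CP (Y :^ g) (P :^ g) := by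
  refine ⟨conjg_mono g h.le, h.two.conjg g, ?_, ?_⟩
  · have := conjg_mono g h.fac
    rwa [conjg_sup, conjg_inf, conjg_norm, pcore_conjg] at this
  · have := conjg_mono g h.cent
    rwa [conjg_sup, conjg_inf, conjg_cent, pcore_conjg] at this

theorem cp_of {Y P T : Subgroup G} (le : P ≤ Y) (two : IsPGrp 2 P) (fac : Fac Y 𝒩(P))
    (hT : IsSylowOf 2 T ⊤) (nT : T ≤ 𝒩(P)) (cT : T ⊓ 𝒞(P) ≤ P) (cY : 𝒞(P) ≤ Y) : CP Y P := by
  refine ⟨le, two, fac, inf_le_right.trans ?_⟩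
  have s : IsSylowOf 2 (T ⊓ 𝒞(P)) 𝒞(P) :=
    (hT.of_le nT le_top).inf_normal ⟨cent_le_norm _, norm_cent le_rfl⟩
  have b := Burnside_normal_complement Nat.prime_two s (inf_le_left.trans (cent_anti cT))
  exact b.sup_eq.ge.trans (sup_le_sup (fac.core ((pcore_le _ _).trans cY) (oO _)
    (norm_pcore _ (norm_cent inf_le_right))) cT)

theorem two_zp {t : G} (t2 : t * t = 1) : IsPGrp 2 (zpowers t) :=
  piGrp_zpowers_iff.2 (pElt_of_pow_eq_one Nat.prime_two (by rw [sq, t2]))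

theorem CP.bal {Y P X : Subgroup G} (h : CP Y P) {u : G} (hu : u ∈ Y) (u2 : u * u = 1) (hX : X ≤ Y)
    (oX : IsPiGrp {2}ᶜ X) (cX : X ≤ 𝒞[u]) (nX : Y ⊓ 𝒞[u] ≤ 𝒩(X)) : X ≤ O Y := by
  have nO : Y ≤ 𝒩(O Y) := pcore_norm _ _
  have nP : Y ≤ 𝒩(O Y ⊔ P) := h.fac.norm inf_le_right
  have hB : zpowers u ≤ Y := zpowers_le.2 hu
  have e0 : (O Y ⊔ P) /ₛ O Y = P /ₛ O Y := quot_sup_self_left (h.le.trans nO)
  have nPb : Y /ₛ O Y ≤ 𝒩(P /ₛ O Y) := e0 ▸ quot_norm _ nP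
  have e1 := coprime_norm_quotient_cent (M := O Y ⊔ P) (H := O Y) (hB.trans nP) (hB.trans nO)
    ((two_zp u2).coprime (oO Y)).symm (Or.inr (sol_of_abelian (abelian_zpowers u)))
  rw [e0] at e1
  have cXB : X /ₛ O Y ≤ 𝒞(zpowers u /ₛ O Y) := quot_cent _ (by rwa [cent_zpowers])
  have nXP : X /ₛ O Y ≤ 𝒩(P /ₛ O Y) := (quot_mono _ hX).trans nPb
  have n1 : (P /ₛ O Y) ⊓ 𝒞(zpowers u /ₛ O Y) ≤ 𝒩(X /ₛ O Y) := by
    rw [← e1]
    refine quot_norm _ (le_trans ?_ nX)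
    rw [cent_zpowers]
    exact inf_le_inf_right _ (sup_le (pcore_le _ _) h.le)
  have c1 : X /ₛ O Y ≤ 𝒞((P /ₛ O Y) ⊓ 𝒞(zpowers u /ₛ O Y)) := by
    have := coprime_norm_cent n1 (((h.two.quot (O Y)).inf_left _).coprime (oX.quot (O Y))).symm
    exact (le_inf le_rfl (norm_inf nXP (norm_cent (norm_of_cent cXB)))).trans (this.le.trans inf_le_right)
  have c2 := coprime_A_times_B (h.two.quot (O Y)) ((two_zp u2).quot (O Y)) (oX.quot (O Y)) nXP
    ((quot_mono _ hB).trans nPb) cXB c1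
  have e2 := coprime_norm_quotient_cent (M := Y) (H := O Y) (norm_of_le h.le) (h.le.trans nO)
    (h.two.coprime (oO Y)).symm (Or.inr (sol_of_nil h.two.nil))
  have l : X /ₛ O Y ≤ P /ₛ O Y := (le_inf (quot_mono _ hX) c2).trans (e2.ge.trans ((quot_mono _ h.cent).trans e0.le))
  refine (quot_eq_bot_iff (hX.trans nO)).1 (le_bot_iff.1 ?_)
  rw [← (h.two.quot (O Y)).inf_eq_bot (oX.quot (O Y))]
  exact le_inf l le_rfl

/-- balance of the cores of involution centralizers -/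
theorem CP.bal' {P : Subgroup G} {u v : G} (h : CP 𝒞[v] P) (hu : u ∈ 𝒞[v]) (u2 : u * u = 1) :
    O 𝒞[u] ⊓ 𝒞[v] ≤ O 𝒞[v] :=
  h.bal hu u2 inf_le_right ((oO _).inf_left _) (inf_le_left.trans (pcore_le _ _))
    (norm_inf (inf_le_right.trans (pcore_norm _ _)) (inf_le_left.trans le_normalizer))

theorem mem_zp {t x : G} (h : t * t = 1) : x ∈ zpowers t ↔ x = 1 ∨ x = t := by
  refine ⟨fun hx => ?_, by rintro (rfl | rfl); exacts [one_mem _, mem_zpowers _]⟩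
  obtain ⟨n, rfl⟩ := mem_powers_iff_mem_zpowers.2 hx
  rcases Nat.even_or_odd' n with ⟨m, rfl | rfl⟩
  · left; simp only [pow_mul, pow_two, h, one_pow]
  · right; simp only [pow_succ, pow_mul, pow_zero, one_mul, h, one_pow]

/-- an odd group normalized by a four-group is generated by the fixed points of the involutions -/
theorem gen4 {t s : G} (t2 : t * t = 1) (s2 : s * s = 1) (t1 : t ≠ 1) (s1 : s ≠ 1) (ne : t ≠ s)
    (c : t ∈ 𝒞[s]) {H X : Subgroup G} (oH : IsPiGrp {2}ᶜ H) (ht : t ∈ 𝒩(H)) (hs : s ∈ 𝒩(H))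
    (h1 : H ⊓ 𝒞[t] ≤ X) (h2 : H ⊓ 𝒞[s] ≤ X) (h3 : H ⊓ 𝒞[t * s] ≤ X) : H ≤ X := by
  have c' : zpowers t ≤ 𝒞(zpowers s) := by rw [cent_zpowers]; exact zpowers_le.2 c
  have n := norm_of_cent c'
  have mem : ∀ x ∈ zpowers t ⊔ zpowers s, x = 1 ∨ x = t ∨ x = s ∨ x = t * s := fun x hx => by
    obtain ⟨a, ha, b, hb, rfl⟩ := (mem_sup_of_norm (Or.inl n)).1 hx
    rcases (mem_zp t2).1 ha with rfl | rfl <;> rcases (mem_zp s2).1 hb with rfl | rfl <;> simp
  refine coprime_abelian_gen_cent1_le (A := zpowers t ⊔ zpowers s)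
    (abelian_sup (abelian_zpowers t) (abelian_zpowers s) c') (fun cy => ?_)
    (sup_le (zpowers_le.2 ht) (zpowers_le.2 hs))
    (((two_zp t2).sup (two_zp s2) (.inl n)).coprime oH).symm fun a ha a1 => ?_
  · obtain ⟨⟨g, hg⟩, hg'⟩ := cy.exists_generator
    have g2 : g * g = 1 := by
      have cc : s * t = t * s := (mem_centralizer_singleton_iff.1 c).symm
      rcases mem g hg with rfl | rfl | rfl | rfl
      exacts [mul_one 1, t2, s2, by rw [mul_assoc, ← mul_assoc s, cc, mul_assoc, s2, mul_one, t2]]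
    have k : ∀ x ∈ zpowers t ⊔ zpowers s, x ≠ 1 → x = g := fun x hx x1 => by
      obtain ⟨n, hn⟩ := hg' ⟨x, hx⟩
      exact ((mem_zp g2).1 ⟨n, congrArg Subtype.val hn⟩).resolve_left x1
    exact ne ((k t (mem_sup_left (mem_zpowers t)) t1).trans (k s (mem_sup_right (mem_zpowers s)) s1).symm)
  · rcases mem a ha with rfl | rfl | rfl | rfl
    exacts [(a1 rfl).elim, h1, h2, h3]

theorem realizeEqns_U5_Fe1 : True := by
  have := @CA.U5.Fe.Fac.eq_1.{0}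
  have := @CA.U5.Fe.Fac.eq_def.{0}
  have := @CA.U5.Fe.Fac.congr_simp.{0}
  trivial

end CA.U5.Fe
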