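/-
The 2-signalizer functor theorem in the form used for `U₅(2)`.
-/
import Cfsg.Agent.U5.Defs
import Cfsg.Agent.Sg2.Fin

set_option autoImplicit false

namespace CA.U5

universe u

theorem sigTwo : SigTwo.{u} := fun _ _ _ => CA.Sg2.complete

end CA.U5
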