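/-
General lemmas for the package `FB`.
-/
import Cfsg.Agent.U5.Defs
import Cfsg.Agent.BG.I01

set_option autoImplicit false

open Cfsg CA.FG Subgroup

namespace CA.U5

universe u

section gen
variable {G : Type u} [Group G]

theorem burn [Finite G] {H S : Subgroup G} (hS : IsSylowOf 2 S H) (h : H ⊓ 𝒩(S) ≤ 𝒞(S)) : H ≤ O H ⊔ S :=
  (CA.BG.Burnside_normal_complement Nat.prime_two hS h).sup_eq.ge

/-- the stabilizer of the section `V / U` -/
def stab (V U : Subgroup G) : Subgroup G where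
  carrier := {n | n ∈ 𝒩(U) ∧ ∀ x ∈ V, x⁻¹ * (n * x * n⁻¹) ∈ U}
  mul_mem' {n m} hn hm := ⟨mul_mem hn.1 hm.1, fun x hx => by
    have := U.mul_mem (hn.2 x hx) (conj_mem_of_mem_norm hn.1 (hm.2 x hx))
    convert this using 1; group⟩
  one_mem' := ⟨one_mem _, fun x _ => by simp⟩
  inv_mem' {n} hn := ⟨inv_mem hn.1, fun x hx => by
    have := conj_mem_of_mem_norm' hn.1 (U.inv_mem (hn.2 x hx))
    convert this using 1; group⟩

theorem mem_stab {V U : Subgroup G} {n : G} :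
    n ∈ stab V U ↔ n ∈ 𝒩(U) ∧ ∀ x ∈ V, x⁻¹ * (n * x * n⁻¹) ∈ U := Iff.rfl

theorem norm_stab [Finite G] {L V U : Subgroup G} (hV : L ≤ 𝒩(V)) (hU : L ≤ 𝒩(U)) : L ≤ 𝒩(stab V U) :=
  fun g hg => mem_norm_of_forall fun n hn =>
    ⟨mul_mem (mul_mem (hU hg) hn.1) (inv_mem (hU hg)), fun x hx => by
      have := conj_mem_of_mem_norm (hU hg) (hn.2 _ (conj_mem_of_mem_norm' (hV hg) hx))
      convert this using 1; group⟩

theorem stab_odd {V U : Subgroup G} {n : G} (hn : n ∈ stab V U) (ho : Odd (orderOf n))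
    (hU : ∀ u ∈ U, u ^ 4 = 1) (hc : n ∈ 𝒞(U)) : n ∈ 𝒞(V) := by
  rw [mem_centralizer_iff] at hc ⊢
  intro x hx
  have hu := hn.2 x hx
  set u := x⁻¹ * (n * x * n⁻¹) with hud
  have c : u * n = n * u := hc u hu
  have e1 : n * x = x * u * n := by rw [hud]; group
  have k : ∀ k : ℕ, n ^ k * x = x * u ^ k * n ^ k := by
    intro k
    induction k with
    | zero => simp
    | succ k ih =>
      have c' : n ^ k * u = u * n ^ k := ((show Commute u n from c).pow_right k).symm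
      calc n ^ (k + 1) * x = n ^ k * (n * x) := by rw [pow_succ, mul_assoc]
        _ = (n ^ k * x) * u * n := by rw [e1]; simp only [mul_assoc]
        _ = x * u ^ k * (n ^ k * u) * n := by rw [ih]; simp only [mul_assoc]
        _ = x * u ^ (k + 1) * n ^ (k + 1) := by rw [c', pow_succ, pow_succ]; simp only [mul_assoc]
  have h1 : u ^ orderOf n = 1 := by
    have := k (orderOf n)
    rw [pow_orderOf_eq_one, one_mul, mul_one] at this
    exact (mul_eq_left.1 this.symm)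
  have h2 : u ^ Nat.gcd (orderOf n) 4 = 1 := pow_gcd_eq_one.2 ⟨h1, hU u hu⟩
  have h3 : Nat.gcd (orderOf n) 4 = 1 := by
    have : Nat.Coprime (orderOf n) (2 ^ 2) := (Nat.coprime_two_right.2 ho).pow_right 2
    exact this
  rw [h3, pow_one] at h2
  rw [e1, h2, mul_one]

theorem le_sup_of_odd [Finite G] {S T K : Subgroup G} (hT : IsSylowOf 2 T S)
    (h : ∀ n ∈ S, Odd (orderOf n) → n ∈ K) : S ≤ K ⊔ T := by
  have hi : PiNat {2} ((K ⊓ S).relIndex S) := by
    intro p hp hd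
    by_contra h2
    obtain ⟨P, hP⟩ := sylow_exists hp S
    have hPK : P ≤ K ⊓ S := fun x hx => ⟨h x (hP.le hx) (by
      rw [← Nat.not_even_iff_odd, even_iff_two_dvd]
      intro h3
      exact h2 (hP.piGrp 2 Nat.prime_two (h3.trans (orderOf_dvd_card_of_mem hx))).symm), hP.le hx⟩
    exact hP.not_dvd_index hp (hd.trans (relIndex_dvd_of_le_left S hPK))
  rw [← hT.sup_eq_of_index inf_le_right hi]
  exact sup_le_sup_right inf_le_left _

theorem cA_abs [Finite G] (m : MG.{u}) {C R A : Subgroup G} (hAR : A ≤ R) (hC : C ≤ 𝒞(A))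
    (hR : IsSylowOf 2 R C) (h2 : ∀ a ∈ A, a * a = 1) (hsq : ∀ x ∈ R, x * x ∈ A) (hc : 8 ≤ A.relIndex R)
    (huv : ∃ u ∈ R, ∃ v ∈ R, u ∉ A ∧ v ∉ A ∧ u * u ≠ v * v)
    (hw : ∀ n ∈ C, n ∈ 𝒩(R) → ∀ w ∈ R, w ∉ A → w⁻¹ * (n * w * n⁻¹) ∈ A → ∀ x ∈ R, x⁻¹ * (n * x * n⁻¹) ∈ A) :
    C ≤ O C ⊔ 𝒩(R) := by
  have hN : C ≤ 𝒩(A) := hC.trans (centralizer_le_normalizer _)
  have hRC := hR.le
  haveI : (A.subgroupOf C).Normal := normal_subgroupOf_of_le_normalizer hN
  let π : C →* C ⧸ A.subgroupOf C := QuotientGroup.mk' _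
  have heq : ∀ x y : C, π x = π y ↔ (x : G)⁻¹ * y ∈ A := fun x y => QuotientGroup.eq
  have h1 : ∀ x : C, π x = 1 ↔ (x : G) ∈ A := fun x => QuotientGroup.eq_one_iff x
  have hk : pre π ⊥ = A := by
    ext x
    rw [mem_pre]
    exact ⟨fun ⟨h, e⟩ => (h1 _).1 (mem_bot.1 e), fun h => ⟨hRC (hAR h), mem_bot.2 ((h1 _).2 h)⟩⟩
  have hr : π.range = ⊤ := MonoidHom.range_eq_top.2 (QuotientGroup.mk'_surjective _)
  have syl : IsSylowOf 2 (img π R) ⊤ := by
    have := hR.img (f := π) le_rfl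
    rwa [img_dom, hr] at this
  have ex : ∀ y ∈ img π R, y * y = 1 := by
    intro y hy
    obtain ⟨x, hx, rfl⟩ := mem_img.1 hy
    rw [← map_mul, h1]
    exact hsq x hx
  have cm : ∀ y ∈ img π R, ∀ y' ∈ img π R, y * y' = y' * y := by
    intro y hy y' hy'
    have a1 := inv_eq_of_mul_eq_one_right (ex y hy)
    have a2 := inv_eq_of_mul_eq_one_right (ex y' hy')
    have a3 := inv_eq_of_mul_eq_one_right (ex _ (mul_mem hy hy'))
    rw [← a3, mul_inv_rev, a1, a2]
  have el : IsElementaryAbelian 2 (img π R) :=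
    ⟨⟨⟨fun x y => Subtype.ext (cm _ x.2 _ y.2)⟩⟩, fun y hy => by rw [pow_two]; exact ex y hy⟩
  have top := m _ (img π R) el ?_ ?_ ?_ ?_
  · have e : C = pre π (O ⊤) ⊔ pre π 𝒩(img π R) := by
      rw [← pre_sup (le_top.trans hr.ge) (le_top.trans hr.ge), top, pre_top]
    have hY : pre π (O ⊤) ⊲ C := by
      have := pre_normalIn (f := π) (pcore_normal {2}ᶜ ⊤)
      rwa [pre_top] at this
    have sA : IsSylowOf 2 A (pre π (O ⊤)) := by
      have := (pHall_bot (π := {2}) (pcore_piGrp {2}ᶜ ⊤)).pre (f := π) (le_top.trans hr.ge)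
        (by rw [hk]; exact hR.piGrp.of_dvd (card_dvd_of_le hAR))
      rwa [hk] at this
    refine e.le.trans (sup_le ((burn sA (inf_le_left.trans (hY.1.trans hC))).trans
      (sup_le_sup (hY.pcore_le _) (norm_of_le hAR))) (le_sup_of_le_right ?_))
    exact (img_norm_iff (pre_le π _) hRC (hk.le.trans hAR)).1 (img_pre_le _)
  · intro P hP hle a _ g hg
    rwa [syl.eq_of_le (pGrp_iff_isPGroup Nat.prime_two |>.2 hP) hle le_top] at hg
  · rw [card_img_of_le hRC, hk]; exact hc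
  · obtain ⟨u, hu, v, hv, hu', hv', hne⟩ := huv
    refine ⟨π ⟨u, hRC hu⟩, mem_img_of_mem _ hu, π ⟨v, hRC hv⟩, mem_img_of_mem _ hv,
      fun h => hu' ((h1 _).1 h), fun h => hv' ((h1 _).1 h), fun h => hne ?_⟩
    obtain ⟨g, hg⟩ := isConj_iff.1 h
    obtain ⟨g, rfl⟩ := QuotientGroup.mk'_surjective (A.subgroupOf C) g
    have hg' : π (g * ⟨u, hRC hu⟩ * g⁻¹) = π ⟨v, hRC hv⟩ := by rw [map_mul, map_mul, map_inv]; exact hg
    have ha := (heq _ _).1 hg'.symm
    simp only [coe_mul, coe_inv] at ha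
    set b := v⁻¹ * (g * u * (g : G)⁻¹) with hb
    have e1 : (g : G) * u * (g : G)⁻¹ = v * b := by rw [hb]; group
    have c1 : b * v = v * b := mem_centralizer_iff.1 (hC (hRC hv)) b ha
    have c2 : u * u * g = g * (u * u) := mem_centralizer_iff.1 (hC g.2) _ (hsq u hu)
    calc u * u = (g : G) * (u * u) * (g : G)⁻¹ := by rw [← c2]; group
      _ = (g * u * (g : G)⁻¹) * (g * u * (g : G)⁻¹) := by group
      _ = v * (b * v) * b := by rw [e1]; group
      _ = v * v * (b * b) := by rw [c1]; group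
      _ = v * v := by rw [h2 b ha, mul_one]
  · intro w hw' hw1
    have le : img π R ≤ 𝒞[w] := fun y hy => mem_centralizer_iff.2 fun t ht => by
      rw [Set.mem_singleton_iff.1 ht]; exact cm _ hw' _ hy
    refine (burn (syl.of_le le le_top) ?_).trans (sup_le_sup_left (le_inf le_normalizer le) _)
    rintro n ⟨hn1, hn2⟩
    obtain ⟨n, rfl⟩ := QuotientGroup.mk'_surjective (A.subgroupOf C) n
    obtain ⟨w, hwR, rfl⟩ := mem_img.1 hw'
    have hnR : (n : G) ∈ 𝒩(R) := by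
      have := (img_norm_iff (A := zpowers (n : G)) (f := π) (zpowers_le_of_mem n.2) hRC (hk.le.trans hAR)).1
        (by rw [img_zpowers]; exact zpowers_le_of_mem hn2)
      exact this (mem_zpowers _)
    have c : π w * π n = π n * π w := mem_centralizer_iff.1 hn1 _ rfl
    have := hw n n.2 hnR w hwR (fun h => hw1 ((h1 _).2 h)) ((heq w (n * w * n⁻¹)).1 (by
      rw [map_mul, map_mul, map_inv, ← c]; group))
    refine mem_centralizer_iff.2 fun y hy => ?_
    obtain ⟨x, hx, rfl⟩ := mem_img.1 hy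
    have e := (heq x (n * x * n⁻¹)).2 (this x hx)
    rw [map_mul, map_mul, map_inv] at e
    change π x * π n = π n * π x
    conv_lhs => rw [e]
    group

end gen

theorem realizeEqns_U5Fb0 : True := by
  have := @CA.U5.stab.eq_1.{0}
  have := @CA.U5.stab.eq_def.{0}
  have := @CA.U5.stab.congr_simp.{0}
  trivial

end CA.U5
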