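/-
Model facts for the centralizer of the central involution: the quadratic space `Q/⟨z⟩`.
-/
import Cfsg.Agent.U5.T0

set_option autoImplicit false

namespace CA.U5.Fd

open K

/-- equality modulo the central involution -/
def Ez (x y : T0) : Prop := x.a = y.a ∧ x.b = y.b ∧ x.c = y.c ∧ x.d = y.d ∧ x.f = y.f

instance (x y : T0) : Decidable (Ez x y) := by unfold Ez; infer_instance

theorem mul_z : ∀ y : T0, Ez (y * e0 4) y ∧ (y * e0 4).g = y.g + 1 := by decide +kernel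

theorem Ez_iff {x y : T0} : Ez x y ↔ x = y ∨ x = y * e0 4 := by
  constructor
  · rintro ⟨h1, h2, h3, h4, h5⟩
    have hx := x.hg
    have hy := y.hg
    rw [h1, h3, h4] at hx
    obtain ⟨⟨k1, k2, k3, k4, k5⟩, k6⟩ := mul_z y
    rcases (show ∀ g g' t : K, cj g = g + t → cj g' = g' + t → g = g' ∨ g = g' + 1 by decide) _ _ _ hx hy
      with h | h
    · exact Or.inl (T0.ext h1 h2 h3 h4 h5 h)
    · exact Or.inr (T0.ext (h1.trans k1.symm) (h2.trans k2.symm) (h3.trans k3.symm) (h4.trans k4.symm)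
        (h5.trans k5.symm) (h.trans k6.symm))
  · rintro (rfl | rfl)
    · exact ⟨rfl, rfl, rfl, rfl, rfl⟩
    · exact (mul_z y).1

abbrev V6 := K × K × K

def q (x : V6) : K := x.1 * cj x.2.2 + x.2.2 * cj x.1 + x.2.1 * cj x.2.1

def bl (x y : V6) : K := x.1 * cj y.2.2 + y.1 * cj x.2.2 + x.2.2 * cj y.1 + y.2.2 * cj x.1 +
  x.2.1 * cj y.2.1 + y.2.1 * cj x.2.1

theorem q_add (x y : V6) : q (x + y) = q x + q y + bl x y := by
  simp only [q, bl, Prod.fst_add, Prod.snd_add, map_add]; ring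

theorem bl_add (x y w : V6) : bl (x + y) w = bl x w + bl y w := by
  simp only [bl, Prod.fst_add, Prod.snd_add, map_add]; ring

theorem bl_comm (x y : V6) : bl x y = bl y x := by simp only [bl]; ring

theorem bl_add' (x y w : V6) : bl w (x + y) = bl w x + bl w y := by
  rw [bl_comm, bl_add, bl_comm x, bl_comm y]

theorem bl_zero (w : V6) : bl 0 w = 0 := by simp [bl]

theorem bl_self (x : V6) : bl x x = 0 := by obtain ⟨a, c, d⟩ := x; revert a c d; decide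

theorem v_self (x : V6) : x + x = 0 := by obtain ⟨a, c, d⟩ := x; revert a c d; decide

theorem q01 (x : V6) : q x = 0 ∨ q x = 1 := by obtain ⟨a, c, d⟩ := x; revert a c d; decide

theorem bl01 (x y : V6) : bl x y = 0 ∨ bl x y = 1 := by
  have h := q_add x y
  rcases q01 x with a | a <;> rcases q01 y with b | b <;> rcases q01 (x + y) with c | c <;>
    rw [a, b, c] at h <;> revert h <;> generalize bl x y = t <;> revert t <;> decide

/-- the hyperplane orthogonal to `β` -/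
def perp (β : V6) : AddSubgroup V6 where
  carrier := {x | bl x β = 0}
  add_mem' {x y} hx hy := by simp only [Set.mem_setOf_eq] at *; rw [bl_add, hx, hy, add_zero]
  zero_mem' := bl_zero β
  neg_mem' {x} hx := by rwa [neg_eq_of_add_eq_zero_left (v_self x)]

theorem half {M : Type*} [AddGroup M] [Finite M] {H L : AddSubgroup M} (h : H < L) :
    2 * Nat.card H ≤ Nat.card L := by
  obtain ⟨k, hk⟩ := AddSubgroup.card_dvd_of_le h.le
  have h1 : Nat.card H ≠ Nat.card L := fun e => h.ne (AddSubgroup.eq_of_le_of_card_ge h.le e.ge)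
  have h2 : 0 < Nat.card L := Nat.card_pos
  rw [hk] at h1 h2 ⊢
  rcases k with _ | _ | k
  · simp at h2
  · simp at h1
  · nlinarith

theorem d1 : ∀ c d : K, (c ≠ 0 ∨ d ≠ 0) → ∃ a' c' : K, ∀ d' : K, bl (0, c, d) (a', c', d') ≠ 0 := by
  decide +kernel

theorem d2 : ∀ a d0 d1 d2 : K, q (a, 0, d0) = 0 ∨ q ((a, 0, d0) + (0, 1, d1)) = 0 ∨
    q ((a, 0, d0) + (0, K.w, d2)) = 0 ∨ q ((a, 0, d0) + (0, 1, d1) + (0, K.w, d2)) = 0 := by decide +kernel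

theorem d3 : ∀ a c d : K, ∃ d' : K, d' ≠ 0 ∧ bl (0, 0, d') (a, c, d) = 0 := by decide +kernel

theorem d4 : ∀ a c d : K, ((a, c, d) : V6) ≠ 0 → ∃ a' c' d' : K, bl (a', c', d') (a, c, d) ≠ 0 := by
  decide +kernel

theorem d5 : ∀ a c d a' c' d' : K, ∃ x y w : K, ((x, y, w) : V6) ≠ 0 ∧ q (x, y, w) = 0 ∧
    bl (x, y, w) (a, c, d) = 0 ∧ bl (x, y, w) (a', c', d') = 0 := by decide +kernel

theorem d6 : ∀ a c d a' c' d' : K, ∃ x y w : K, q (x, y, w) ≠ 0 ∧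
    bl (x, y, w) (a, c, d) = 0 ∧ bl (x, y, w) (a', c', d') = 0 := by decide +kernel

theorem small (B : AddSubgroup V6) (hB : Nat.card B ≤ 8) (h0 : ∀ β ∈ B, β ≠ 0 → ∃ γ ∈ B, bl γ β ≠ 0) :
    ∃ β₁ β₂ : V6, ∀ x, bl x β₁ = 0 → bl x β₂ = 0 → ∀ β ∈ B, bl x β = 0 := by
  by_cases h : ∀ β ∈ B, β = 0
  · exact ⟨0, 0, fun x _ _ β hβ => by rw [h β hβ, bl_comm, bl_zero]⟩
  push Not at h
  obtain ⟨β₁, m1, n1⟩ := h
  obtain ⟨β₂, m2, n2⟩ := h0 β₁ m1 n1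
  have e21 : bl β₂ β₁ = 1 := (bl01 _ _).resolve_left n2
  have e12 : bl β₁ β₂ = 1 := by rw [bl_comm, e21]
  refine ⟨β₁, β₂, fun x x1 x2 β m3 => ?_⟩
  by_contra x3
  obtain ⟨γ, mγ, g1, g2, g3⟩ : ∃ γ ∈ B, bl γ β₁ = 0 ∧ bl γ β₂ = 0 ∧ bl x γ ≠ 0 := by
    rcases bl01 β β₁ with a | a <;> rcases bl01 β β₂ with b | b
    · exact ⟨β, m3, a, b, x3⟩
    · exact ⟨β + β₁, B.add_mem m3 m1, by rw [bl_add, a, bl_self, add_zero],
        by rw [bl_add, b, e12, add_self], by rwa [bl_add', x1, add_zero]⟩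
    · exact ⟨β + β₂, B.add_mem m3 m2, by rw [bl_add, a, e21, add_self],
        by rw [bl_add, b, bl_self, add_zero], by rwa [bl_add', x2, add_zero]⟩
    · exact ⟨β + β₁ + β₂, B.add_mem (B.add_mem m3 m1) m2, by rw [bl_add, bl_add, a, bl_self, e21, add_zero, add_self],
        by rw [bl_add, bl_add, b, e12, bl_self, add_zero, add_self], by rwa [bl_add', bl_add', x1, x2, add_zero, add_zero]⟩
  have γ0 : γ ≠ 0 := fun e => g3 (by rw [e, bl_comm, bl_zero])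
  obtain ⟨δ, mδ, nδ⟩ := h0 γ mγ γ0
  have p1 : β₁ ∈ perp γ := by change bl _ _ = 0; rw [bl_comm, g1]
  have p2 : β₂ ∈ perp γ := by change bl _ _ = 0; rw [bl_comm, g2]
  have l1 := half (show B ⊓ perp γ < B from lt_of_le_of_ne inf_le_left fun e => nδ (e.ge mδ).2)
  have l2 := half (show B ⊓ perp γ ⊓ perp β₁ < B ⊓ perp γ from
    lt_of_le_of_ne inf_le_left fun e => n2 (e.ge ⟨m2, p2⟩).2)
  have l3 := half (show B ⊓ perp γ ⊓ perp β₁ ⊓ perp β₂ < B ⊓ perp γ ⊓ perp β₁ from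
    lt_of_le_of_ne inf_le_left fun e => by
      have : bl β₁ β₂ = 0 := (e.ge ⟨⟨m1, p1⟩, bl_self _⟩).2
      rw [e12] at this; exact absurd this (by decide))
  have l4 := half (show ⊥ < B ⊓ perp γ ⊓ perp β₁ ⊓ perp β₂ from
    bot_lt_iff_ne_bot.2 fun e => γ0 ((AddSubgroup.mem_bot).1 (e.le ⟨⟨⟨mγ, bl_self _⟩, g1⟩, g2⟩)))
  rw [AddSubgroup.card_bot] at l4
  omega

/-- the flag conditions -/
theorem comb (B : AddSubgroup V6) (S : Set (V6 → V6)) (I : Set V6)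
    (add : ∀ σ ∈ S, ∀ x y, σ (x + y) = σ x + σ y) (hq : ∀ σ ∈ S, ∀ x, q (σ x) = q x)
    (fx : ∀ σ ∈ S, ∀ β ∈ B, σ β = β) (i0 : ∀ d, d ≠ 0 → ((0, 0, d) : V6) ∈ I)
    (iS : ∀ σ ∈ S, ∀ x ∈ I, σ x ∈ I)
    (iT : ∀ x ∈ I, x.1 ≠ 0 → q x = 0 → ∀ y, q y = 0 → y.1 = x.1 → y ∈ I) (dis : ∀ x ∈ I, x ∉ B) :
    (∃ u, u ∉ B ∧ ∀ σ ∈ S, σ u + u ∈ B) ∨
      (Nat.card B ≤ 8 ∧ ∃ u v, u ∉ B ∧ v ∉ B ∧ ∀ σ ∈ S, σ u + v ∉ B) := by
  have hb : ∀ σ ∈ S, ∀ x, ∀ β ∈ B, bl (σ x) β = bl x β := fun σ hσ x β hβ => by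
    have h1 := hq σ hσ (x + β)
    rw [add σ hσ, q_add, q_add, hq σ hσ x, fx σ hσ β hβ] at h1
    exact add_left_cancel h1
  by_cases hc : ∀ a c : K, ∃ d, ((a, c, d) : V6) ∈ B
  · have u0 : ((0, 0, 1) : V6) ∈ I := i0 1 (by decide)
    refine Or.inl ⟨_, dis _ u0, fun σ hσ => ?_⟩
    have hI := iS σ hσ _ u0
    have hq0 : q (σ (0, 0, 1)) = 0 := by rw [hq σ hσ]; decide
    have hw : ∀ β ∈ B, bl (σ (0, 0, 1) + (0, 0, 1)) β = 0 := fun β hβ => by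
      rw [bl_add, hb σ hσ _ β hβ, add_self]
    generalize σ (0, 0, 1) = s at hI hq0 hw
    obtain ⟨a, c, d⟩ := s
    by_cases ha : a = 0
    · subst ha
      by_cases hz : c ≠ 0 ∨ d + 1 ≠ 0
      · obtain ⟨a', c', h⟩ := d1 c (d + 1) hz
        obtain ⟨d', hd⟩ := hc a' c'
        refine absurd ?_ (h d')
        simpa using hw _ hd
      · push Not at hz
        have : ((0, c, d) : V6) + (0, 0, 1) = 0 := by simp [hz.1, hz.2]
        rw [this]; exact B.zero_mem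
    · exfalso
      obtain ⟨d0, h0⟩ := hc a 0
      obtain ⟨d1, h1⟩ := hc 0 1
      obtain ⟨d2', h2⟩ := hc 0 K.w
      rcases d2 a d0 d1 d2' with h | h | h | h
      · exact dis _ (iT _ hI ha hq0 _ h rfl) h0
      · exact dis _ (iT _ hI ha hq0 _ h (by simp)) (B.add_mem h0 h1)
      · exact dis _ (iT _ hI ha hq0 _ h (by simp)) (B.add_mem h0 h2)
      · exact dis _ (iT _ hI ha hq0 _ h (by simp)) (B.add_mem (B.add_mem h0 h1) h2)
  · have hB : Nat.card B ≤ 8 := by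
      let p : V6 →+ K × K := (AddMonoidHom.fst _ _).prod ((AddMonoidHom.fst _ _).comp (AddMonoidHom.snd _ _))
      have l1 := half (show B.map p < ⊤ from lt_top_iff_ne_top.2 fun e => hc fun a c => by
        obtain ⟨⟨a', c', d⟩, hx, e'⟩ := e.ge (AddSubgroup.mem_top (a, c))
        obtain ⟨rfl, rfl⟩ := Prod.ext_iff.1 e'
        exact ⟨d, hx⟩)
      have l2 : Nat.card B ≤ Nat.card (B.map p) := by
        refine Nat.card_le_card_of_injective (fun x : B => (⟨p x, x, x.2, rfl⟩ : B.map p)) ?_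
        rintro ⟨⟨a, c, d⟩, hx⟩ ⟨⟨a', c', d'⟩, hy⟩ e
        obtain ⟨rfl, rfl⟩ : a = a' ∧ c = c' := Prod.ext_iff.1 (congrArg Subtype.val e)
        by_cases hd : d + d' = 0
        · have : d = d' := by rw [← add_zero d, ← add_self d', ← add_assoc, hd, zero_add]
          subst this; rfl
        · refine absurd ?_ (dis _ (i0 _ hd))
          simpa [add_self] using B.add_mem hx hy
      rw [AddSubgroup.card_top] at l1
      have : Nat.card (K × K) = 16 := by simp [K.card]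
      omega
    refine Or.inr ⟨hB, ?_⟩
    by_cases h0 : ∀ β ∈ B, β ≠ 0 → ∃ γ ∈ B, bl γ β ≠ 0
    · obtain ⟨⟨a, c, d⟩, ⟨a', c', d'⟩, h⟩ := small B hB h0
      obtain ⟨x, y, w, n, qu, u1, u2⟩ := d5 a c d a' c' d'
      obtain ⟨x', y', w', qv, v1, v2⟩ := d6 a c d a' c' d'
      have k : ∀ t ∈ B, (∀ β ∈ B, bl t β = 0) → t = 0 := fun t ht h' => by
        by_contra hn
        obtain ⟨γ, m, e⟩ := h0 t ht hn
        exact e (by rw [bl_comm, h' γ m])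
      refine ⟨(x, y, w), (x', y', w'), fun m => n (k _ m (h _ u1 u2)), fun m => qv ?_, fun σ hσ m => qv ?_⟩
      · rw [k _ m (h _ v1 v2)]; decide
      · have e := k _ m fun β hβ => by rw [bl_add, hb σ hσ _ β hβ, h _ u1 u2 β hβ, h _ v1 v2 β hβ, add_zero]
        have e' : ((x', y', w') : V6) = σ (x, y, w) := by
          rw [← zero_add (x', y', w'), ← v_self (σ (x, y, w)), add_assoc, e, add_zero]
        rw [e', hq σ hσ, qu]
    · push Not at h0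
      obtain ⟨⟨a, c, d⟩, m, n, h⟩ := h0
      obtain ⟨d', n', e⟩ := d3 a c d
      obtain ⟨x, y, w, e'⟩ := d4 a c d n
      refine ⟨(0, 0, d'), (x, y, w), dis _ (i0 _ n'), fun m' => e' (h _ m'), fun σ hσ m' => e' ?_⟩
      have := h _ m'
      rwa [bl_add, hb σ hσ _ _ m, e, zero_add] at this

/-- a lift of a vector -/
def lf (x : V6) : T0 := T0.mk' x.1 0 x.2.1 x.2.2 false false

theorem lf_Q (x : V6) : lf x ∈ Q0 := by obtain ⟨a, c, d⟩ := x; revert a c d; decide +kernel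

theorem Q_lf : ∀ y ∈ Q0, Ez y (lf (y.a, y.c, y.d)) := by decide +kernel

theorem lf_add (x y : V6) : Ez (lf (x + y)) (lf x * lf y) := by
  obtain ⟨a, c, d⟩ := x
  obtain ⟨a', c', d'⟩ := y
  revert a c d a' c' d'; decide +kernel

theorem lf_inj {x y : V6} (h : Ez (lf x) (lf y)) : x = y := Prod.ext h.1 (Prod.ext h.2.2.1 h.2.2.2.1)

theorem lf_sq (x : V6) : lf x * lf x = 1 ↔ q x = 0 := by
  obtain ⟨a, c, d⟩ := x; revert a c d; decide +kernel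

theorem lf_V : ∀ d : K, d ≠ 0 → ∃ k : Fin 5, k ≠ 0 ∧ k ≠ 4 ∧ Ez (lf (0, 0, d)) (e0 0 * e0 k) := by
  decide +kernel

theorem lf_T : ∀ a c d c' d' : K, a ≠ 0 → q (a, c, d) = 0 → q (a, c', d') = 0 → ∃ b u,
    Ez (T0.mk' 0 b 0 0 u false * lf (a, c, d) * (T0.mk' 0 b 0 0 u false)⁻¹) (lf (a, c', d')) := by
  decide +kernel

theorem F0 : ∀ t : T0, t ∉ Q0 → Ez (t * t) 1 → (∃ i, i ≠ 4 ∧ Ez t (e0 i)) ∨
    (t * t ≠ 1 ∧ ∃ s : T0, Ez (s * t) (t * s) ∧ s * s * (s * s) ≠ 1) := by decide +kernel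

theorem F2a : ∀ w : T0, w.b = 0 → w * w * (w * w) = 1 := by decide +kernel

theorem F2 {y w : T0} (hy : y ∈ Q0) (h : y * y ≠ 1) (c : Ez (w * y) (y * w)) : w * w * (w * w) = 1 := by
  refine F2a w ?_
  obtain ⟨-, -, c3, c4, -⟩ := c
  rw [T0.mul_c, T0.mul_c, hy.1] at c3
  rw [T0.mul_d, T0.mul_d, hy.1, hy.2] at c4
  have k : ∀ y : T0, y ∈ Q0 → y.a = 0 → y.c = 0 → y * y = 1 := by decide +kernel
  by_contra hb
  have e : ∀ wa wb wc ya yc : K, wb ≠ 0 → wc + wa * 0 + yc = yc + ya * wb + wc → ya = 0 := by decide +kernel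
  have ha := e _ _ _ _ _ hb c3
  rw [ha] at c4
  have e2 : ∀ wd yd wb yc : K, wb ≠ 0 → wd + yd = yd + yc * cj wb + wd → yc = 0 := by decide +kernel
  exact h (k y hy ha (e2 w.d y.d _ _ hb (by simpa using c4)))

theorem F3a : ∀ t : T0, t ∉ Q0 → Ez (t * t) 1 → t.a = 0 ∧ t.b = 0 ∧ t.f = 1 := by decide +kernel

theorem F3b : ∀ w : T0, w * w = 1 → w.b = 0 ∧ (w.a = 0 → w ∈ A0) ∧ (w.f = 0 ∨ w.a = 0) := by decide +kernel

theorem F3 {t w : T0} (ht : t ∉ Q0) (h : Ez (t * t) 1) (hw : w * w = 1) (c : Ez (w * t) (t * w)) :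
    w ∈ A0 := by
  obtain ⟨t1, t2, t3⟩ := F3a t ht h
  obtain ⟨w1, w2, w3 | w3⟩ := F3b w hw
  · refine w2 ?_
    have c4 := c.2.2.2.1
    rw [T0.mul_d, T0.mul_d, t1, t2, t3, w1] at c4
    have e : ∀ wd td wa : K, wd + wa + td = td + wd → wa = 0 := by decide +kernel
    exact e w.d t.d _ (by simpa using c4)
  · exact w2 w3

theorem A_sq {x y : T0} (hx : x ∈ A0) (hy : y ∈ A0) : x * y * (x * y) = 1 :=
  (show ∀ x ∈ A0, x * x = 1 by decide +kernel) _ (A0.mul_mem hx hy)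

theorem Q_comm {x y : T0} (hx : x ∈ Q0) (hy : y ∈ Q0) : Ez (x * y) (y * x) := by
  refine ⟨add_comm _ _, add_comm _ _, ?_, ?_, ?_⟩
  · rw [T0.mul_c, T0.mul_c, hx.1, hy.1]; ring
  · rw [T0.mul_d, T0.mul_d, hx.1, hy.1, hx.2, hy.2, map_zero]; ring
  · rw [T0.mul_f, T0.mul_f, hx.1, hy.1, map_zero]; ring

theorem Q_sq : ∀ x ∈ Q0, Ez (x * x) 1 := by decide +kernel

theorem Q_D8 : ∃ x ∈ Q0, ∃ y ∈ Q0, x * x = 1 ∧ y * y = 1 ∧ x * y * (x * y) ≠ 1 :=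
  ⟨lf (1, 0, 0), lf_Q _, lf (0, 0, K.w), lf_Q _, by decide +kernel⟩

theorem e_Q : ∀ i, e0 i ∈ Q0 → i = 4 := by decide +kernel

end CA.U5.Fd

theorem CA.U5.realizeEqnsFdV : True := by
  have := @CA.U5.Fd.q.eq_1
  have := @CA.U5.Fd.q.eq_def
  have := @CA.U5.Fd.q.congr_simp
  have := @CA.U5.Fd.V6.eq_1
  have := @CA.U5.Fd.V6.eq_def
  have := @CA.U5.Fd.V6.congr_simp
  have := @CA.U5.Fd.perp.eq_1
  have := @CA.U5.Fd.perp.eq_def
  have := @CA.U5.Fd.perp.congr_simp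
  have := @CA.U5.Fd.Ez.eq_1
  have := @CA.U5.Fd.Ez.eq_def
  have := @CA.U5.Fd.Ez.congr_simp
  have := @CA.U5.Fd.lf.eq_1
  have := @CA.U5.Fd.lf.eq_def
  have := @CA.U5.Fd.lf.congr_simp
  have := @CA.U5.Fd.bl.eq_1
  have := @CA.U5.Fd.bl.eq_def
  have := @CA.U5.Fd.bl.congr_simp
  trivial
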