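/-
The quotient `C(z)/⟨z⟩`: the image of `Q` is strongly closed and the flag conditions hold.
-/
import Cfsg.Agent.U5.Defs
import Cfsg.Agent.U5.FdV

set_option autoImplicit false

open Cfsg CA.FG Subgroup

namespace CA.U5.Fd

universe u

variable {X : Type u} [Group X] [Finite X]

theorem good_mono {A B B' : Subgroup X} (hA : IsPGrp 2 A) (hc : A ≤ 𝒞(B')) (hB : B ≤ B') (h : Good A B) :
    Good A B' := by
  have cY : 𝒞(B') ≤ 𝒞(B) := cent_anti hB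
  have aY : A ≤ 𝒞(B) := hc.trans cY
  have nO : A ≤ 𝒩(O 𝒞(B)) := aY.trans (pcore_norm _ _)
  have nK : 𝒞(B) ≤ 𝒩(A ⊔ O 𝒞(B)) := h.trans (sup_le (le_sup_right.trans le_normalizer)
    (norm_sup inf_le_left (inf_le_right.trans (pcore_norm _ _))))
  have syl : IsSylowOf 2 A (𝒞(B') ⊓ (A ⊔ O 𝒞(B))) :=
    (pHall_left_of_sup (Or.inl nO) rfl hA (pcore_piGrp _ _)).of_le (le_inf hc le_sup_left) inf_le_right
  have fr := frattini_arg Nat.prime_two (inf_normalIn_of_norm (cY.trans nK)) syl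
  refine fr.ge.trans (sup_le ?_ (le_sup_of_le_right (le_inf inf_le_right inf_le_left)))
  rw [inf_sup_of_left_le (Or.inl nO) hc]
  exact sup_le (le_sup_of_le_right (le_inf le_normalizer hc)) (le_sup_of_le_left (inf_pcore_le _ cY))

theorem good_conj {A B : Subgroup X} {n : X} (hn : n ∈ 𝒩(A)) (h : Good A B) : Good A (B :^ n) := by
  have := conjg_mono n h
  rwa [conjg_sup, conjg_inf, pcore_conjg, conjg_norm, conjg_cent, conjg_of_mem_norm hn] at this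

/-- the data of the quotient -/
structure Xs (κ : T0 →* X) : Prop where
  ker : ∀ x y, κ x = κ y ↔ Ez x y
  syl : IsSylowOf 2 κ.range ⊤
  sq : ∀ g s w, g * κ s * g⁻¹ = κ w → s * s = 1 → w * w = 1
  nf : ∀ g i x, i ≠ 4 → x ∈ Q0 → g * κ (e0 i) * g⁻¹ ≠ κ x
  gd : ∀ k, k ≠ 0 → k ≠ 4 → 𝒞[κ (e0 0 * e0 k)] ≤ O 𝒞[κ (e0 0 * e0 k)] ⊔ (𝒩(κ.range) ⊓ 𝒞[κ (e0 0 * e0 k)])

variable {κ : T0 →* X}

omit [Finite X] in
theorem Xs.sq' (h : Xs κ) {g : X} {s w : T0} (e : g * κ s * g⁻¹ = κ w) (hw : w * w = 1) : s * s = 1 :=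
  h.sq g⁻¹ w s (by rw [← e]; group) hw

omit [Finite X] in
theorem Xs.comm (h : Xs κ) {x y : X} (hx : x ∈ Q0.map κ) (hy : y ∈ Q0.map κ) : x * y = y * x := by
  obtain ⟨x, hx, rfl⟩ := hx
  obtain ⟨y, hy, rfl⟩ := hy
  rw [← map_mul, ← map_mul, h.ker]
  exact Q_comm hx hy

omit [Finite X] in
theorem Xs.two (h : Xs κ) {x : X} (hx : x ∈ Q0.map κ) : x * x = 1 := by
  obtain ⟨x, hx, rfl⟩ := hx
  rw [← map_mul, ← map_one κ, h.ker]
  exact Q_sq x hx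

theorem Xs.uniq (h : Xs κ) {g : X} (hg : Q0.map κ :^ g ≤ κ.range) : g ∈ 𝒩(Q0.map κ) := by
  refine mem_norm_of_forall ?_
  rintro _ ⟨y, hy, rfl⟩
  have k : ∀ x ∈ Q0, ∃ t, g * κ x * g⁻¹ = κ t := fun x hx => by
    obtain ⟨t, e⟩ := hg (conj_mem_conjg g (mem_map_of_mem κ hx))
    exact ⟨t, e.symm⟩
  obtain ⟨t, e⟩ := k y hy
  rw [e]
  refine mem_map_of_mem κ ?_
  by_contra ht
  have t2 : Ez (t * t) 1 := by
    rw [← h.ker, map_mul, map_one, ← e]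
    calc _ = g * (κ y * κ y) * g⁻¹ := by group
      _ = 1 := by rw [h.two (mem_map_of_mem κ hy)]; group
  have k2 : ∀ x ∈ Q0, x * x = 1 → ∃ s ∈ A0, g * κ x * g⁻¹ = κ s := fun x hx x2 => by
    obtain ⟨s, es⟩ := k x hx
    refine ⟨s, F3 ht t2 (h.sq _ _ _ es x2) ?_, es⟩
    rw [← h.ker, map_mul, map_mul, ← e, ← es]
    calc _ = g * (κ x * κ y) * g⁻¹ := by group
      _ = _ := by rw [h.comm (mem_map_of_mem κ hx) (mem_map_of_mem κ hy)]; group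
  obtain ⟨x, hx, x', hx', a, b, c⟩ := Q_D8
  obtain ⟨s, hs, es⟩ := k2 x hx a
  obtain ⟨s', hs', es'⟩ := k2 x' hx' b
  exact c (h.sq' (g := g) (by rw [map_mul, map_mul, ← es, ← es']; group) (A_sq hs hs'))

theorem Xs.pQ (h : Xs κ) : IsPGrp 2 (Q0.map κ) := h.syl.pGrp.of_le (map_le_range κ Q0)

theorem Xs.toT (h : Xs κ) {P : Subgroup X} (hP : IsPGrp 2 P) (hQ : Q0.map κ ≤ P) :
    ∃ x ∈ 𝒩(Q0.map κ), P :^ x ≤ κ.range := by
  obtain ⟨x, -, hx⟩ := sylow_Jsub Nat.prime_two h.syl hP le_top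
  exact ⟨x, h.uniq ((conjg_mono x hQ).trans hx), hx⟩

theorem Xs.scT (h : Xs κ) {g : X} {y t : T0} (hy : y ∈ Q0) (e : g * κ y * g⁻¹ = κ t) : t ∈ Q0 := by
  by_contra ht
  have t2 : Ez (t * t) 1 := by
    rw [← h.ker, map_mul, map_one, ← e]
    calc _ = g * (κ y * κ y) * g⁻¹ := by group
      _ = 1 := by rw [h.two (mem_map_of_mem κ hy)]; group
  rcases F0 t ht t2 with ⟨i, hi, ei⟩ | ⟨n2, s, cs, s4⟩
  · exact h.nf g⁻¹ i y hi hy (by rw [← (h.ker _ _).2 ei, ← e]; group)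
  have cs' : κ s * κ t = κ t * κ s := by rw [← map_mul, ← map_mul, h.ker]; exact cs
  have QC : Q0.map κ ≤ 𝒞[κ y] := fun x hx =>
    mem_centralizer_singleton_iff.2 (h.comm hx (mem_map_of_mem κ hy))
  obtain ⟨P, hP, QP⟩ := sylow_superset Nat.prime_two h.pQ QC
  have sC : zpowers (g⁻¹ * κ s * g⁻¹⁻¹) ≤ 𝒞[κ y] := zpowers_le.2 (mem_centralizer_singleton_iff.2 (by
    have : κ y = g⁻¹ * κ t * g := by rw [← e]; group
    rw [this]
    calc _ = g⁻¹ * (κ s * κ t) * g := by group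
      _ = _ := by rw [cs']; group))
  have sP : IsPGrp 2 (zpowers (g⁻¹ * κ s * g⁻¹⁻¹)) :=
    piGrp_zpowers_iff.2 ((h.syl.pGrp.piElt ⟨s, rfl⟩).conj _)
  obtain ⟨c, hc, hcP⟩ := sylow_Jsub Nat.prime_two hP sP sC
  obtain ⟨x, hx, hxP⟩ := h.toT hP.pGrp QP
  obtain ⟨w, ew⟩ := hxP (conj_mem_conjg x (hcP (conj_mem_conjg c (mem_zpowers _))))
  obtain ⟨y', hy', ey⟩ := conj_mem_of_mem_norm hx (mem_map_of_mem κ hy)
  have c1 := mem_centralizer_singleton_iff.1 (hP.le (hcP (conj_mem_conjg c (mem_zpowers _))))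
  have w4 := F2 (w := w) hy' (fun e2 => n2 (h.sq g _ _ e (h.sq' ey.symm e2))) (by
    rw [← h.ker, map_mul, map_mul, ew, ey]
    generalize c * (g⁻¹ * κ s * g⁻¹⁻¹) * c⁻¹ = r at c1
    calc _ = x * (r * κ y) * x⁻¹ := by group
      _ = _ := by rw [c1]; group)
  exact s4 (h.sq' (g := x * c * g⁻¹) (by rw [map_mul, map_mul, ew]; group) w4)

theorem Xs.sc (h : Xs κ) : SC (Q0.map κ) := by
  rintro P hP hQ _ ⟨y, hy, rfl⟩ g hg
  obtain ⟨x, hx, hxP⟩ := h.toT (pGrp_of_isPGroup Nat.prime_two hP) hQ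
  obtain ⟨t, et⟩ := hxP (conj_mem_conjg x hg)
  have := conj_mem_of_mem_norm' hx (mem_map_of_mem κ (h.scT (g := x * g) (t := t) hy (by rw [et]; group)))
  rw [et] at this
  convert this using 1; group

/-- coordinates in the image of `Q` -/
def ρ (κ : T0 →* X) (x : V6) : X := κ (lf x)

omit [Finite X] in
theorem Xs.ρ_add (h : Xs κ) (x y : V6) : ρ κ (x + y) = ρ κ x * ρ κ y := by
  rw [ρ, (h.ker _ _).2 (lf_add x y), map_mul]; rfl

omit [Finite X] in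
theorem Xs.ρ_inj (h : Xs κ) {x y : V6} (e : ρ κ x = ρ κ y) : x = y := lf_inj ((h.ker _ _).1 e)

omit [Finite X] in
theorem ρ_mem (x : V6) : ρ κ x ∈ Q0.map κ := mem_map_of_mem κ (lf_Q x)

omit [Finite X] in
theorem Xs.ρ_surj (h : Xs κ) {y : X} (hy : y ∈ Q0.map κ) : ∃ x, ρ κ x = y := by
  obtain ⟨y, hy, rfl⟩ := hy
  exact ⟨_, ((h.ker _ _).2 (Q_lf y hy)).symm⟩

omit [Finite X] in
theorem Xs.ρ_inv (h : Xs κ) (x : V6) : (ρ κ x)⁻¹ = ρ κ x := inv_eq_of_mul_eq_one_right (h.two (ρ_mem x))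

theorem Xs.main (m : MGS.{u}) (h : Xs κ) : O (⊤ : Subgroup X) ⊔ 𝒩(Q0.map κ) = ⊤ := by
  have ab : IsMulCommutative (Q0.map κ) := abelian_iff_forall.2 fun x hx y hy => h.comm hx hy
  refine m X _ ⟨ab, fun a ha => by rw [pow_two, h.two ha]⟩ h.sc fun B hB => ?_
  have TN : 𝒩(κ.range) ≤ 𝒩(Q0.map κ) := fun g hg => h.uniq (conjg_le_of_mem_norm (map_le_range κ Q0) hg)
  let I : Set V6 := {x | ∃ d, d ≠ 0 ∧ ∃ n ∈ 𝒩(Q0.map κ), ρ κ x = n * ρ κ (0, 0, d) * n⁻¹}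
  by_cases dis : ∀ x ∈ I, ρ κ x ∉ B
  swap
  · push Not at dis
    obtain ⟨x, ⟨d, hd, n, hn, e⟩, hx⟩ := dis
    obtain ⟨k, k0, k4, ek⟩ := lf_V d hd
    have g0 : Good (Q0.map κ) (zpowers (ρ κ (0, 0, d))) := by
      rw [Good, cent_zpowers, ρ, (h.ker _ _).2 ek]
      exact (h.gd k k0 k4).trans (sup_le_sup_left (inf_le_inf_right _ TN) _)
    refine Or.inl (good_mono h.pQ ((abelian_iff_le_cent.1 ab).trans (cent_anti hB.le)) ?_ (good_conj hn g0))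
    rw [conjg_zpowers, ← e]
    exact zpowers_le.2 hx
  let Bv : AddSubgroup V6 :=
    { carrier := {x | ρ κ x ∈ B}
      add_mem' := fun {x y} hx hy => by
        change ρ κ (x + y) ∈ B
        rw [h.ρ_add]; exact B.mul_mem hx hy
      zero_mem' := by
        change ρ κ 0 ∈ B
        rw [← v_self 0, h.ρ_add, h.two (ρ_mem _)]; exact B.one_mem
      neg_mem' := fun {x} hx => by rwa [neg_eq_of_add_eq_zero_left (v_self x)] }
  let S : Set (V6 → V6) := {σ | ∃ n ∈ 𝒩(Q0.map κ) ⊓ 𝒞(B), ∀ x, ρ κ (σ x) = n * ρ κ x * n⁻¹}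
  have hS : ∀ n ∈ 𝒩(Q0.map κ) ⊓ 𝒞(B), ∃ σ ∈ S, ∀ x, ρ κ (σ x) = n * ρ κ x * n⁻¹ := fun n hn => by
    choose σ hσ using fun x => h.ρ_surj (conj_mem_of_mem_norm hn.1 (ρ_mem (κ := κ) x))
    exact ⟨σ, ⟨n, hn, hσ⟩, hσ⟩
  rcases comb Bv S I
    (by
      rintro σ ⟨n, -, e⟩ x y
      refine h.ρ_inj ?_
      rw [h.ρ_add, e, e, e, h.ρ_add]; group)
    (by
      rintro σ ⟨n, -, e⟩ x
      have k : q (σ x) = 0 ↔ q x = 0 := by
        rw [← lf_sq, ← lf_sq]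
        exact ⟨h.sq' (e x).symm, h.sq n _ _ (e x).symm⟩
      rcases q01 x with a | a <;> rcases q01 (σ x) with b | b
      · rw [a, b]
      · rw [k.2 a, a]
      · rw [k.1 b, b]
      · rw [a, b])
    (by
      rintro σ ⟨n, hn, e⟩ β hβ
      refine h.ρ_inj ?_
      rw [e, ← hn.2 _ hβ]; group)
    (fun d hd => ⟨d, hd, 1, one_mem _, by group⟩)
    (by
      rintro σ ⟨n, hn, e⟩ x ⟨d, hd, n', hn', e'⟩
      exact ⟨d, hd, n * n', mul_mem hn.1 hn', by rw [e, e']; group⟩)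
    (by
      rintro ⟨a, c, d⟩ ⟨d0, hd, n, hn, e⟩ ha qx ⟨a', c', d'⟩ qy rfl
      obtain ⟨b, s, et⟩ := lf_T a' c d c' d' ha qx qy
      refine ⟨d0, hd, κ (T0.mk' 0 b 0 0 s false) * n, mul_mem (TN (le_normalizer ⟨_, rfl⟩)) hn, ?_⟩
      rw [ρ, ← (h.ker _ _).2 et, map_mul, map_mul, map_inv]
      change _ * ρ κ _ * _ = _
      rw [e]; group)
    dis with ⟨x, hx, k⟩ | ⟨c8, x, y, hx, hy, k⟩
  · refine Or.inr (Or.inl ⟨ρ κ x, ρ_mem x, hx, fun n hn => ?_⟩)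
    obtain ⟨σ, hσ, e⟩ := hS n hn
    rw [← e, h.ρ_inv, ← h.ρ_add, add_comm]
    exact k σ hσ
  · refine Or.inr (Or.inr ⟨?_, ρ κ x, ρ_mem x, ρ κ y, ρ_mem y, hx, hy, fun n hn => ?_⟩)
    · have l1 : Nat.card B ≤ Nat.card Bv := by
        refine Nat.card_le_card_of_surjective (fun x : Bv => (⟨ρ κ x, x.2⟩ : B)) fun b => ?_
        obtain ⟨x, e⟩ := h.ρ_surj (hB.le b.2)
        exact ⟨⟨x, by change ρ κ x ∈ B; rw [e]; exact b.2⟩, Subtype.ext e⟩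
      have l2 : Nat.card V6 ≤ Nat.card (Q0.map κ) :=
        Nat.card_le_card_of_injective (fun x => (⟨ρ κ x, ρ_mem x⟩ : Q0.map κ))
          fun x y e => h.ρ_inj (congrArg Subtype.val e)
      have : Nat.card V6 = 64 := by simp [K.card]
      omega
    · obtain ⟨σ, hσ, e⟩ := hS n hn
      rw [← e, h.ρ_inv, ← h.ρ_add, add_comm]
      exact k σ hσ

end CA.U5.Fd

theorem CA.U5.realizeEqnsFdX : True := by
  have := @CA.U5.Fd.ρ.eq_1.{0}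
  have := @CA.U5.Fd.ρ.eq_def.{0}
  have := @CA.U5.Fd.ρ.congr_simp.{0}
  trivial
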