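/-
The centralizer of the central involution: `C(z) = O(C(z)) N(Q)`.
-/
import Cfsg.Agent.U5.FdX

set_option autoImplicit false

open Cfsg CA.FG Subgroup

namespace CA.U5

universe u

namespace Fd

theorem pre_core {H : Type u} {X : Type u} [Group H] [Group X] [Finite H] [Finite X] (π : H →* X)
    (hk : IsPGrp 2 π.ker) (hc : ∀ k ∈ π.ker, ∀ x, k * x = x * k) :
    (O (⊤ : Subgroup X)).comap π ≤ O (⊤ : Subgroup H) ⊔ π.ker := by
  have nY : (O (⊤ : Subgroup X)).comap π ⊲ ⊤ :=
    ⟨le_top, (le_top.trans (comap_top π).ge).trans (comap_norm π (pcore_norm _ _))⟩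
  have kY : π.ker ≤ (O (⊤ : Subgroup X)).comap π := fun x hx => by
    rw [mem_comap, (MonoidHom.mem_ker).1 hx]; exact one_mem _
  have oi : PiNat ({2}ᶜ : Set ℕ) (π.ker.relIndex ((O (⊤ : Subgroup X)).comap π)) := by
    rw [relIndex_ker]
    exact IsPiGrp.of_le (pcore_piGrp _ _) (map_comap_le _ _)
  obtain ⟨C, hC⟩ := exists_complIn_of_coprime ⟨kY, le_normalizer_of_normal⟩ (PiNat.coprime hk oi)
  have oC : IsPiGrp ({2}ᶜ : Set ℕ) C := by
    change PiNat _ _
    rwa [← hC.complIn.relIndex_left]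
  have nC : C ⊲ (O (⊤ : Subgroup X)).comap π := ⟨hC.right_le, hC.sup_eq.ge.trans
    (sup_le (norm_of_cent (le_cent_iff_forall.2 fun x hx y _ => hc x hx y)) le_normalizer)⟩
  exact hC.sup_eq.ge.trans (sup_le le_sup_right (le_sup_of_le_left
    ((pcore_max nC oC).trans (nY.pcore_le _))))

end Fd

open Fd

variable {G : Type u} [Group G] [Finite G] {ι : T0 →* G}

theorem fd (m : MGS.{u}) (h : FC ι) : FD ι := by
  refine ⟨h, ?_⟩
  have TC : ∀ x, ι x ∈ 𝒞[z ι] := fun x => mem_centralizer_singleton_iff.2 (by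
    rw [← map_mul, ← map_mul, z_central])
  let j : T0 →* 𝒞[z ι] := ι.codRestrict _ TC
  have cen : ∀ x : 𝒞[z ι], x * j (e0 4) = j (e0 4) * x := fun x =>
    Subtype.ext (mem_centralizer_singleton_iff.1 x.2)
  have z2 : j (e0 4) * j (e0 4) = 1 := by rw [← map_mul, e0_sq, map_one]
  have mz : ∀ x, x ∈ zpowers (j (e0 4)) ↔ x = 1 ∨ x = j (e0 4) := fun x => by
    refine ⟨fun hx => ?_, by rintro (rfl | rfl); exacts [one_mem _, mem_zpowers _]⟩
    refine zpowers_le (H := ⟨⟨⟨{x | x = 1 ∨ x = j (e0 4)}, ?_⟩, Or.inl rfl⟩, ?_⟩).2 (Or.inr rfl) hx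
    · rintro _ _ (rfl | rfl) (rfl | rfl) <;> simp [z2]
    · rintro _ (rfl | rfl) <;> simp [inv_eq_of_mul_eq_one_right z2]
  haveI : (zpowers (j (e0 4))).Normal := ⟨fun x hx g => by
    rcases (mz x).1 hx with rfl | rfl
    · simp
    · rw [cen, mul_inv_cancel_right]; exact mem_zpowers _⟩
  let π := QuotientGroup.mk' (zpowers (j (e0 4)))
  have surj : Function.Surjective π := QuotientGroup.mk'_surjective _
  have hker : π.ker = zpowers (j (e0 4)) := QuotientGroup.ker_mk' _
  have jinj : Function.Injective j := fun x y e => h.inj (congrArg Subtype.val e)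
  have eqv : ∀ x y, π x = π y → x = y ∨ x = y * j (e0 4) := fun x y e => by
    have : y⁻¹ * x ∈ π.ker := by rw [MonoidHom.mem_ker, map_mul, map_inv, e, inv_mul_cancel]
    rw [hker, mz] at this
    rcases this with e | e
    · exact Or.inl (inv_mul_eq_one.1 e).symm
    · exact Or.inr (by rw [← e]; group)
  have πz : π (j (e0 4)) = 1 := by rw [← MonoidHom.mem_ker, hker]; exact mem_zpowers _
  have lift : ∀ g s w, g * π.comp j s * g⁻¹ = π.comp j w →
      ∃ x, x * j s * x⁻¹ = j w ∨ x * j s * x⁻¹ = j (w * e0 4) := fun g s w e => by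
    obtain ⟨x, rfl⟩ := surj g
    refine ⟨x, ?_⟩
    rw [map_mul]
    exact eqv _ _ (by rw [map_mul, map_mul, map_inv]; exact e)
  have rT : j.range = (sT ι).subgroupOf 𝒞[z ι] := by
    ext x
    exact ⟨fun ⟨t, e⟩ => ⟨t, congrArg Subtype.val e⟩, fun ⟨t, e⟩ => ⟨t, Subtype.ext e⟩⟩
  have TH : sT ι ≤ 𝒞[z ι] := by rintro _ ⟨t, rfl⟩; exact TC t
  have iT : (π.comp j).range = img π (sT ι) := by rw [MonoidHom.range_comp, rT]; rfl
  have sT2 : IsSylowOf 2 (sT ι) ⊤ := sylow_mk le_top
    (pGrp_of_card_eq_pow Nat.prime_two (k := 10) (by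
      rw [← Nat.card_congr (MonoidHom.ofInjective h.inj).toEquiv, T0.card]; rfl))
    (by rw [relIndex_top_right]; exact h.odd.not_two_dvd_nat)
  have hX : Xs (π.comp j) := by
    refine ⟨fun x y => ?_, ?_, fun g s w e s2 => ?_, fun g i x hi hx e => ?_, fun k k0 k4 => ?_⟩
    · rw [Ez_iff]
      refine ⟨fun e => (eqv _ _ e).imp (fun e => jinj e) fun e => jinj (by rw [e, map_mul]), ?_⟩
      rintro (rfl | rfl)
      · rfl
      · rw [map_mul, MonoidHom.comp_apply π j (e0 4), πz, mul_one]
    · have := IsPiHallOf.img (f := π) (sT2.of_le TH le_top) le_rfl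
      rwa [img_dom, MonoidHom.range_eq_top.2 surj, ← iT] at this
    · obtain ⟨x, e⟩ := lift g s w e
      have k : ∀ t, x * j s * x⁻¹ = j t → t * t = 1 := fun t e => jinj (by
        rw [map_mul, ← e, map_one]
        calc _ = x * j (s * s) * x⁻¹ := by rw [map_mul]; group
          _ = 1 := by rw [s2, map_one]; group)
      rcases e with e | e
      · exact k _ e
      · have := k _ e
        rwa [mul_assoc, ← mul_assoc (e0 4), ← z_central, mul_assoc w, e0_sq, mul_one] at this
    · obtain ⟨y, e⟩ := lift g _ x e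
      obtain ⟨n, hn⟩ : ∃ n, n * z ι * n⁻¹ = U5.e ι i := by
        obtain ⟨a, b, h1, h2, h3⟩ := (show ∀ i : Fin 5, ∃ a b : Fin 5, i ≠ a ∧ i ≠ b ∧ a ≠ b by decide) i
        obtain ⟨n, -, e1, -⟩ := h.tr3 4 0 1 i a b (by decide) (by decide) (by decide) h1 h2 h3
        exact ⟨n, e1⟩
      have k : ∀ t ∈ Q0, y * j (e0 i) * y⁻¹ ≠ j t := fun t ht e => by
        have e' : (y : G) * U5.e ι i * (y : G)⁻¹ = ι t := congrArg Subtype.val e
        obtain ⟨l, rfl⟩ := h.zT (y * n) t (by rw [← e', ← hn]; group)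
        rw [e_Q l ht] at e
        have : j (e0 i) = j (e0 4) := by
          calc _ = y⁻¹ * (y * j (e0 i) * y⁻¹) * y := by group
            _ = _ := by rw [e, cen]; group
        exact hi (e0_inj (jinj this))
      rcases e with e | e
      · exact k _ hx e
      · exact k _ (Q0.mul_mem hx (by decide +kernel)) e
    · have nz := h.nz 0 k k0.symm (by decide) k4
      have ev : U5.e ι 0 * U5.e ι k = (j (e0 0 * e0 k) : G) := (map_mul ι _ _).symm
      rw [ev] at nz
      have NH : NZ ι (j (e0 0 * e0 k)) ≤ 𝒞[z ι] := inf_le_left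
      have e : img π (NZ ι (j (e0 0 * e0 k))) = 𝒞[π.comp j (e0 0 * e0 k)] := by
        refine le_antisymm ?_ fun g hg => ?_
        · have h1 : img π (NZ ι (j (e0 0 * e0 k))) ≤ _ := img_norm (f := π) inf_le_right
          have h0 : img π (zpowers (z ι)) = ⊥ := by
            have := img_zpowers (f := π) (j (e0 4))
            rwa [πz, zpowers_one_eq_bot] at this
          rw [img_sup (zpowers_le.2 (j _).2) (zpowers_le.2 (TC _)), img_zpowers, h0, sup_bot_eq] at h1
          intro g hg
          have h2 := conj_mem_of_mem_norm (h1 hg) (mem_zpowers _)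
          have v2 : π (j (e0 0 * e0 k)) * π (j (e0 0 * e0 k)) = 1 := by
            rw [← map_mul, ← map_mul, A_sq (e0_A 0) (e0_A k), map_one, map_one]
          change g ∈ 𝒞[π (j (e0 0 * e0 k))]
          generalize π (j (e0 0 * e0 k)) = v at h2 v2
          have : g * v * g⁻¹ = 1 ∨ g * v * g⁻¹ = v := by
            refine zpowers_le (H := ⟨⟨⟨{x | x = 1 ∨ x = v}, ?_⟩, Or.inl rfl⟩, ?_⟩).2 (Or.inr rfl) h2
            · rintro _ _ (rfl | rfl) (rfl | rfl) <;> simp [v2]
            · rintro _ (rfl | rfl) <;> simp [inv_eq_of_mul_eq_one_right v2]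
          rw [mem_centralizer_singleton_iff]
          rcases this with e | e
          · have : v = 1 := by simpa using e
            rw [this, mul_one, one_mul]
          · exact mul_inv_eq_iff_eq_mul.1 e
        · obtain ⟨x, rfl⟩ := surj g
          refine mem_img.2 ⟨x, ⟨x.2, mem_norm_of_conjg_le ?_⟩, rfl⟩
          rw [conjg_sup, conjg_zpowers, conjg_zpowers]
          refine sup_le (zpowers_le.2 ?_) (zpowers_le.2 ?_)
          · rcases eqv (x * j (e0 0 * e0 k) * x⁻¹) (j (e0 0 * e0 k)) (by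
              rw [map_mul, map_mul, map_inv]
              exact mul_inv_eq_iff_eq_mul.2 (mem_centralizer_singleton_iff.1 hg)) with e | e
            · rw [show (x : G) * _ * (x : G)⁻¹ = _ from congrArg Subtype.val e]
              exact mem_sup_left (mem_zpowers _)
            · rw [show (x : G) * _ * (x : G)⁻¹ = _ from congrArg Subtype.val e]
              exact mul_mem_sup (mem_zpowers _) (mem_zpowers _)
          · rw [mem_centralizer_singleton_iff.1 x.2, mul_inv_cancel_right]
            exact mem_sup_right (mem_zpowers _)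
      have := img_mono π nz
      rw [img_sup ((pcore_le _ _).trans NH) (inf_le_right.trans NH)] at this
      rw [← e, iT]
      exact this.trans (sup_le_sup (pcore_img_le _ _ _)
        ((img_inf_le _ _).trans (inf_le_inf_right _ (img_norm le_rfl))))
  have top := hX.main m
  have QH : sQ ι ≤ 𝒞[z ι] := by rintro _ ⟨t, -, rfl⟩; exact TC t
  have pk : IsPGrp 2 π.ker := by
    rw [hker]
    exact piGrp_zpowers_iff.2 (pElt_of_pow_eq_one Nat.prime_two (by rw [pow_two, z2]))
  have core := pre_core π pk fun k hk x => by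
    rw [hker, mz] at hk
    rcases hk with rfl | rfl
    · simp
    · exact (cen x).symm
  have kQ : π.ker ≤ Q0.map j := by
    rw [hker]; exact zpowers_le.2 (mem_map_of_mem j (by decide +kernel))
  have e : O (⊤ : Subgroup 𝒞[z ι]) ⊔ 𝒩(Q0.map j) = ⊤ := by
    have := congrArg (comap π) top
    rw [← comap_sup_eq π _ _ surj, comap_top] at this
    refine top_le_iff.1 (this.ge.trans (sup_le (core.trans (sup_le_sup_left (kQ.trans le_normalizer) _))
      (le_sup_of_le_right ?_)))
    rw [← map_map]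
    have := comap_norm π (le_refl 𝒩((Q0.map j).map π))
    rwa [comap_map_eq, sup_eq_left.2 kQ] at this
  have := congrArg (map (𝒞[z ι]).subtype) e
  rw [Subgroup.map_sup, pcore_map_of_inj _ _ (subtype_injective _), map_subtype_top] at this
  refine this.ge.trans (sup_le_sup_left ?_ _)
  have := map_norm (𝒞[z ι]).subtype (le_refl 𝒩(Q0.map j))
  rwa [map_map] at this

end CA.U5
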