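/-
A special case of Goldschmidt's theorem on strongly closed abelian 2-subgroups.
-/
import Cfsg.Agent.U5.Defs
import Cfsg.Agent.BG.I01
import Cfsg.Agent.FG.Rank

set_option autoImplicit false

open Cfsg CA.FG Subgroup

namespace CA.U5

universe u

section
variable {X : Type*} [Group X] [Finite X] {A : Subgroup X}

omit [Finite X] in
theorem mg_odd {H : Subgroup X} : Odd (Nat.card H) ↔ IsPiGrp {2}ᶜ H := by
  rw [piGrp_compl_singleton_iff Nat.prime_two, Nat.odd_iff, Nat.two_dvd_ne_zero]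

theorem mg_Opi (H : Subgroup X) : IsPiGrp {2}ᶜ (O H) := pcore_piGrp _ H

/-- a 2-subgroup of an overgroup `H` of `A` is `H`-conjugate into a 2-group containing `A` -/
theorem mg_over (hA : IsElementaryAbelian 2 A) {H Q : Subgroup X} (hAH : A ≤ H)
    (hQ : IsPGrp 2 Q) (hQH : Q ≤ H) : ∃ c ∈ H, ∃ P : Subgroup X, IsPGroup 2 P ∧ A ≤ P ∧ Q :^ c ≤ P := by
  obtain ⟨P, hP, hAP⟩ := sylow_superset Nat.prime_two (abelem_pGrp Nat.prime_two hA) hAH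
  obtain ⟨c, hc, h⟩ := sylow_Jsub Nat.prime_two hP hQ hQH
  exact ⟨c, hc, P, hP.pGrp.isPGroup Nat.prime_two, hAP, h⟩

/-- a conjugate of an element of `A` lying in an overgroup `H` of `A` is `H`-conjugate into `A` -/
theorem SC.mg_conj (hA : IsElementaryAbelian 2 A) (hS : SC A) {H : Subgroup X} (hAH : A ≤ H)
    {a g : X} (ha : a ∈ A) (hg : g * a * g⁻¹ ∈ H) : ∃ c ∈ H, (c * g) * a * (c * g)⁻¹ ∈ A := by
  have h2 : IsPGrp 2 (zpowers (g * a * g⁻¹)) := by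
    rw [← conjg_zpowers]
    exact ((abelem_pGrp Nat.prime_two hA).of_le (zpowers_le.2 ha)).conjg g
  obtain ⟨c, hc, P, hP, hAP, h⟩ := mg_over hA hAH h2 (zpowers_le.2 hg)
  refine ⟨c, hc, hS P hP hAP a ha _ ?_⟩
  have := h (conj_mem_conjg c (mem_zpowers _))
  simpa [mul_assoc] using this

/-- weak closure -/
theorem SC.mg_wc (hA : IsElementaryAbelian 2 A) (hS : SC A) {H : Subgroup X} (hAH : A ≤ H)
    {g : X} (hg : A :^ g ≤ H) : ∃ c ∈ H, c * g ∈ 𝒩(A) := by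
  obtain ⟨c, hc, P, hP, hAP, h⟩ :=
    mg_over hA hAH ((abelem_pGrp Nat.prime_two hA).conjg g) hg
  refine ⟨c, hc, mem_norm_of_forall fun a ha => hS P hP hAP a ha _ (h ?_)⟩
  rw [← conjg_mul]
  exact conj_mem_conjg _ ha

omit [Finite X] in
theorem mg_cent1 (hA : IsElementaryAbelian 2 A) {a : X} (ha : a ∈ A) : A ≤ 𝒞[a] :=
  (abelian_iff_le_cent.1 hA.1).trans (cent_le_cent_singleton ha)

/-- `N(A)` controls fusion in `A` -/
theorem SC.mg_fuse (hA : IsElementaryAbelian 2 A) (hS : SC A) {a g : X} (ha : a ∈ A)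
    (hg : g * a * g⁻¹ ∈ A) : ∃ c ∈ 𝒞[g * a * g⁻¹], c * g ∈ 𝒩(A) := by
  refine hS.mg_wc hA (mg_cent1 hA hg) ?_
  rw [← conjg_cent1]
  exact conjg_mono g (mg_cent1 hA ha)

theorem SC.mg_fuse' (hA : IsElementaryAbelian 2 A) (hS : SC A) {a g : X} (ha : a ∈ A)
    (hg : g * a * g⁻¹ ∈ A) : ∃ n ∈ 𝒩(A), n * a * n⁻¹ = g * a * g⁻¹ := by
  obtain ⟨c, hc, hn⟩ := hS.mg_fuse hA ha hg
  refine ⟨_, hn, ?_⟩
  have := (mem_centralizer_singleton_iff.1 hc)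
  calc c * g * a * (c * g)⁻¹ = (c * (g * a * g⁻¹)) * c⁻¹ := by group
    _ = g * a * g⁻¹ := by rw [this]; group

/-- an odd subgroup normalized by a supplement of the odd core lies in the odd core -/
theorem mg_le_O {K L V : Subgroup X} (h : K ≤ O K ⊔ L) (hL : L ≤ K) (hV : IsPiGrp {2}ᶜ V)
    (hVK : V ≤ K) (hN : L ≤ 𝒩(V)) : V ≤ O K := by
  have hO : V ≤ 𝒩(O K) := hVK.trans (pcore_norm _ K)
  refine le_sup_left.trans (pcore_max (K := V ⊔ O K) ⟨sup_le hVK (pcore_le _ K), h.trans (sup_le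
    (norm_of_le le_sup_right) (norm_sup hN (hL.trans (pcore_norm _ K))))⟩
    (hV.sup (mg_Opi K) (Or.inl hO)))

/-- balance -/
theorem mg_bal (hA : IsElementaryAbelian 2 A) {a b : X} (ha : a ∈ A) (hb : b ∈ A)
    (h : 𝒞[b] ≤ O 𝒞[b] ⊔ (𝒩(A) ⊓ 𝒞[b])) : O 𝒞[a] ⊓ 𝒞[b] ≤ O 𝒞[b] := by
  have hA2 := abelem_pGrp Nat.prime_two hA
  have hAb := mg_cent1 hA hb
  have hAa := mg_cent1 hA ha
  set U := O 𝒞[a] ⊓ 𝒞[b] with hU
  have hUo : IsPiGrp {2}ᶜ U := (mg_Opi _).inf_left _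
  have hAU : A ≤ 𝒩(U) := norm_inf (hAa.trans (pcore_norm _ _)) (norm_of_le hAb)
  have hAO : A ≤ 𝒩(O 𝒞[b]) := hAb.trans (pcore_norm _ _)
  have hK : 𝒞[b] ≤ 𝒩(O 𝒞[b] ⊔ A) := h.trans (sup_le (norm_of_le le_sup_left)
    (norm_sup (inf_le_right.trans (pcore_norm _ _)) inf_le_left))
  have hH : IsPiHallOf {2}ᶜ (O 𝒞[b]) (O 𝒞[b] ⊔ A) :=
    pHall_left_of_sup (Or.inr hAO) rfl (mg_Opi _) (by rwa [compl_compl])
  have h1 : ⁅U, A⁆ ≤ O 𝒞[b] := by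
    refine hH.le_of_normal (sup_le le_normalizer hAO) (hUo.of_le (comm_le_left hAU)) ?_
    exact (commutator_mono le_rfl le_sup_right).trans (comm_le_right (inf_le_right.trans hK))
  have h2 : U ⊓ 𝒞(A) ≤ O 𝒞(A) := by
    refine le_trans ?_ (inf_pcore_le {2}ᶜ (cent_le_cent_singleton ha))
    exact le_inf inf_le_right (inf_le_left.trans inf_le_left)
  have h3 : O 𝒞(A) ≤ O 𝒞[b] :=
    mg_le_O h inf_le_right (mg_Opi _) ((pcore_le _ _).trans (cent_le_cent_singleton hb))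
      (norm_pcore _ (norm_cent inf_le_left))
  rw [← CA.BG.coprime_cent_prod hAU (IsPiGrp.coprime hA2 hUo).symm
    (Or.inr (sol_of_abelian hA.1))]
  exact sup_le h1 (h2.trans h3)

omit [Finite X] in
/-- two non-conjugate involutions -/
theorem mg_dih [Finite X] {u v : X} (hu : u * u = 1) (hv : v * v = 1) (h : ¬ IsConj u v) :
    ∃ w, w ≠ 1 ∧ Commute w u ∧ Commute w v ∧ ∃ g, u * w = g * u * g⁻¹ ∨ u * w = g * v * g⁻¹ := by
  have hu' : u⁻¹ = u := inv_eq_of_mul_eq_one_right hu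
  have hv' : v⁻¹ = v := inv_eq_of_mul_eq_one_right hv
  set r := u * v with hr
  have e1 : u * r * u⁻¹ = r⁻¹ := by rw [hr, mul_inv_rev, hu', hv', ← mul_assoc, hu, one_mul]
  have e2 : v * r * v⁻¹ = r⁻¹ := by
    rw [hr, mul_inv_rev, hu', hv', mul_assoc, mul_assoc, hv, mul_one]
  have c1 : ∀ k : ℕ, u * r ^ k * u⁻¹ = (r ^ k)⁻¹ := fun k => by rw [← conj_pow, e1, inv_pow]
  have c2 : ∀ k : ℕ, v * r ^ k * v⁻¹ = (r ^ k)⁻¹ := fun k => by rw [← conj_pow, e2, inv_pow]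
  have d1 : ∀ k : ℕ, u * r ^ k = (r ^ k)⁻¹ * u := fun k => by rw [← c1]; group
  have d2 : ∀ k : ℕ, v * r ^ k = (r ^ k)⁻¹ * v := fun k => by rw [← c2]; group
  have hur : u * r = v := by rw [hr, ← mul_assoc, hu, one_mul]
  have ev : ∀ j : ℕ, u * r ^ (j + j) = (r ^ j)⁻¹ * u * (r ^ j)⁻¹⁻¹ := fun j => by
    rw [pow_add, ← mul_assoc, d1, inv_inv]
  have od : ∀ j : ℕ, u * r ^ (2 * j + 1) = (r ^ j)⁻¹ * v * (r ^ j)⁻¹⁻¹ := fun j => by
    rw [show 2 * j + 1 = j + (1 + j) by ring, pow_add, ← mul_assoc, d1, inv_inv, pow_add, pow_one,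
      ← hur]
    group
  rcases Nat.even_or_odd' (orderOf r) with ⟨k, hk | hk⟩
  · have hk0 : 0 < k := by have := orderOf_pos r; omega
    have hw : r ^ k * r ^ k = 1 := by rw [← pow_add, ← two_mul, ← hk, pow_orderOf_eq_one]
    have hw' : (r ^ k)⁻¹ = r ^ k := inv_eq_of_mul_eq_one_right hw
    refine ⟨r ^ k, pow_ne_one_of_lt_orderOf hk0.ne' (by omega), ?_, ?_, ?_⟩
    · show r ^ k * u = u * r ^ k
      rw [d1, hw']
    · show r ^ k * v = v * r ^ k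
      rw [d2, hw']
    · rcases Nat.even_or_odd' k with ⟨j, hj | hj⟩
      · exact ⟨_, Or.inl (by rw [hj, two_mul]; exact ev j)⟩
      · exact ⟨_, Or.inr (by rw [hj]; exact od j)⟩
  · exfalso
    apply h
    have := od k
    rw [← hk, pow_orderOf_eq_one, mul_one] at this
    exact (isConj_iff.2 ⟨_, this.symm⟩).symm

omit [Finite X] in
theorem mg_sq (hA : IsElementaryAbelian 2 A) {a : X} (ha : a ∈ A) : a * a = 1 := by
  rw [← pow_two]; exact hA.2 a ha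

/-- a subgroup containing `N(A)` and the centralizers of the involutions of `A` is everything
when `A` contains two classes of involutions -/
theorem SC.mg_top (hA : IsElementaryAbelian 2 A) (hS : SC A) {M : Subgroup X} (hN : 𝒩(A) ≤ M)
    (hC : ∀ a ∈ A, a ≠ 1 → 𝒞[a] ≤ M) {u v : X} (hu : u ∈ A) (hv : v ∈ A) (hu1 : u ≠ 1)
    (hv1 : v ≠ 1) (h : ¬ IsConj u v) : M = ⊤ := by
  have hAM : A ≤ M := le_normalizer.trans hN
  have key : ∀ a ∈ A, a ≠ 1 → ∀ g, g * a * g⁻¹ ∈ M → g ∈ M := by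
    intro a ha ha1 g hg
    obtain ⟨c, hc, h1⟩ := hS.mg_conj hA hAM ha hg
    obtain ⟨d, hd, h2⟩ := hS.mg_fuse hA ha h1
    have hd' := hC _ h1 (fun h => ha1 (conj_eq_one_iff.1 h)) hd
    have := M.mul_mem (M.inv_mem (M.mul_mem hd' hc)) (hN h2)
    simpa [mul_assoc] using this
  refine eq_top_iff.2 fun g _ => key v hv hv1 g ?_
  have hv2 : g * v * g⁻¹ * (g * v * g⁻¹) = 1 := by
    rw [conj_mul, mg_sq hA hv]; simp
  obtain ⟨w, hw1, hwu, hwv, k, hk⟩ := mg_dih (mg_sq hA hu) hv2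
    (fun h' => h (h'.trans (isConj_iff.2 ⟨g, rfl⟩).symm))
  obtain ⟨x, hx, l, hl⟩ : ∃ x ∈ A, ∃ l, u * w = l * x * l⁻¹ := by
    rcases hk with hk | hk
    · exact ⟨u, hu, k, hk⟩
    · exact ⟨v, hv, k * g, by rw [hk]; group⟩
  have huw : l * x * l⁻¹ ∈ 𝒞[u] := by
    rw [← hl]
    exact mul_mem (mem_cent_singleton_self u) (mem_centralizer_singleton_iff.2 hwu)
  obtain ⟨c, hc, h1⟩ := hS.mg_conj hA (mg_cent1 hA hu) hx huw
  have hcu : c * u = u * c := mem_centralizer_singleton_iff.1 hc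
  have hb : c * w * c⁻¹ ∈ A := by
    have e : c * w * c⁻¹ = u⁻¹ * (c * l * x * (c * l)⁻¹) := by
      calc c * w * c⁻¹ = u⁻¹ * ((u * c) * w * c⁻¹) := by group
        _ = u⁻¹ * (c * (u * w) * c⁻¹) := by rw [← hcu]; group
        _ = _ := by rw [hl]; group
    rw [e]
    exact A.mul_mem (A.inv_mem hu) h1
  have hcM := hC u hu hu1 hc
  have h3 : c * (g * v * g⁻¹) * c⁻¹ ∈ M := by
    refine hC _ hb (by simpa using hw1) ?_
    rw [← conjg_cent1]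
    exact conj_mem_conjg c (mem_centralizer_singleton_iff.2 hwv.symm)
  have := M.mul_mem (M.mul_mem (M.inv_mem hcM) h3) hcM
  simpa [mul_assoc] using this

end

theorem mg_core (sg : SigTwo.{u}) (X : Type u) [Group X] [Finite X] (A : Subgroup X)
    (hA : IsElementaryAbelian 2 A) (hS : SC A) (h8 : 8 ≤ Nat.card A)
    (h2 : ∃ u ∈ A, ∃ v ∈ A, u ≠ 1 ∧ v ≠ 1 ∧ ¬ IsConj u v)
    (hC : ∀ a ∈ A, a ≠ 1 → 𝒞[a] ≤ O 𝒞[a] ⊔ (𝒩(A) ⊓ 𝒞[a])) : O (⊤ : Subgroup X) ⊔ 𝒩(A) = ⊤ := by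
  obtain ⟨W0, hW0, hle⟩ := sg X A (fun a => O 𝒞[a]) hA h8 (fun a _ _ => mg_odd.2 (mg_Opi _))
    (fun a _ _ => pcore_le _ _) (fun a ha _ => (mg_cent1 hA ha).trans (pcore_norm _ _))
    (fun a ha _ b hb hb1 => mg_bal hA ha hb (hC b hb hb1))
  set W : Subgroup X := ⨆ a : {a // a ∈ A ∧ a ≠ 1}, O 𝒞[a.1] with hW
  have hWo : IsPiGrp {2}ᶜ W := (mg_odd.1 hW0).of_le (iSup_le fun a => hle _ a.2.1 a.2.2)
  have hθ : ∀ a ∈ A, a ≠ 1 → O 𝒞[a] ≤ W := fun a ha ha1 =>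
    le_iSup (fun a : {a // a ∈ A ∧ a ≠ 1} => O 𝒞[a.1]) ⟨a, ha, ha1⟩
  have hNW : 𝒩(A) ≤ 𝒩(W) := by
    refine le_norm_of_conjg_le fun n hn => ?_
    rw [hW, conjg_iSup]
    refine iSup_le fun a => ?_
    rw [pcore_conjg, conjg_cent1]
    exact hθ _ (conj_mem_of_mem_norm hn a.2.1) (by simpa using a.2.2)
  obtain ⟨u, hu, v, hv, hu1, hv1, huv⟩ := h2
  have hM : W ⊔ 𝒩(A) = ⊤ := hS.mg_top hA le_sup_right
    (fun a ha ha1 => (hC a ha ha1).trans (sup_le_sup (hθ a ha ha1) inf_le_left)) hu hv hu1 hv1 huv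
  have : W ≤ O ⊤ := pcore_max ⟨le_top, hM ▸ sup_le le_normalizer hNW⟩ hWo
  exact eq_top_iff.2 (hM.ge.trans (sup_le_sup_right this _))

section
variable {X Y : Type*} [Group X] [Finite X] [Group Y] [Finite Y] {A : Subgroup X} {f : X →* Y}

theorem SC.mg_map (hA : IsElementaryAbelian 2 A) (hS : SC A) (hf : Function.Surjective f)
    (hk : f.ker ≤ A) : SC (A.map f) := by
  rintro P hP hAP _ ⟨a, ha, rfl⟩ g hg
  obtain ⟨g, rfl⟩ := hf g
  have h2 : IsPGrp 2 (P.comap f) :=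
    (pGrp_of_isPGroup Nat.prime_two hP).comap ((abelem_pGrp Nat.prime_two hA).of_le hk)
  refine ⟨g * a * g⁻¹, hS _ (h2.isPGroup Nat.prime_two) (map_le_iff_le_comap.1 hAP) a ha g ?_, by simp⟩
  simpa [mem_comap] using hg

omit [Finite Y] in
theorem SC.mg_cent_map (hA : IsElementaryAbelian 2 A) (hS : SC A) (hf : Function.Surjective f)
    (hz : ⊤ ≤ 𝒞(f.ker)) {a : X} (ha : a ∈ A) (h : 𝒞[a] ≤ O 𝒞[a] ⊔ (𝒩(A) ⊓ 𝒞[a])) :
    𝒞[f a] ≤ O 𝒞[f a] ⊔ (𝒩(A.map f) ⊓ 𝒞[f a]) := by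
  have hN : (𝒞[f a]).comap f ≤ 𝒩(𝒞[a]) := by
    intro x hx
    refine mem_norm_of_forall fun y hy => ?_
    have hx' : f x * f a = f a * f x := mem_centralizer_singleton_iff.1 hx
    have hb : a⁻¹ * (x⁻¹ * a * x) ∈ f.ker := by
      rw [MonoidHom.mem_ker]
      simp only [map_mul, map_inv]
      calc (f a)⁻¹ * ((f x)⁻¹ * f a * f x) = (f a)⁻¹ * ((f x)⁻¹ * (f a * f x)) := by group
        _ = 1 := by rw [← hx']; group
    have h1 := comm_of_le_cent hz (mem_top y) hb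
    have h2 : y * a = a * y := mem_centralizer_singleton_iff.1 hy
    rw [mem_centralizer_singleton_iff]
    calc x * y * x⁻¹ * a = x * (y * a) * (a⁻¹ * (x⁻¹ * a * x)) * x⁻¹ := by group
      _ = x * a * (y * (a⁻¹ * (x⁻¹ * a * x))) * x⁻¹ := by rw [h2]; group
      _ = a * (x * y * x⁻¹) := by rw [h1]; group
  have hc : 𝒞[a] ≤ (𝒞[f a]).comap f := map_le_iff_le_comap.1 (map_cent1 f le_rfl)
  have h1 : (O 𝒞[a]).map f ≤ O 𝒞[f a] := by
    refine pcore_max ⟨map_cent1 f (pcore_le _ _), ?_⟩ ((mg_Opi _).map f)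
    have := map_norm f (norm_pcore {2}ᶜ hN)
    rwa [map_comap_eq_self_of_surjective hf] at this
  set T := (O 𝒞[f a] ⊔ (𝒩(A.map f) ⊓ 𝒞[f a])).comap f with hT
  have h2 : 𝒩(A) ⊓ (𝒞[f a]).comap f ≤ T := fun n hn =>
    mem_sup_right ⟨map_norm f le_rfl ⟨n, hn.1, rfl⟩, hn.2⟩
  have h3 : 𝒞[a] ≤ T := h.trans (sup_le (map_le_iff_le_comap.1 (h1.trans le_sup_left))
    ((inf_le_inf_left _ hc).trans h2))
  intro y hy
  obtain ⟨x, rfl⟩ := hf y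
  obtain ⟨c, hc1, hn⟩ := hS.mg_wc hA (mg_cent1 hA ha) (g := x)
    (conjg_le_of_mem_norm (mg_cent1 hA ha) (hN hy))
  have h4 : c * x ∈ T := h2 ⟨hn, mul_mem (hc hc1) hy⟩
  have := T.mul_mem (T.inv_mem (h3 hc1)) h4
  rwa [inv_mul_cancel_left] at this

theorem mg_top_of_map (hA : IsElementaryAbelian 2 A) (hf : Function.Surjective f)
    (hk : f.ker ≤ A) (hz : ⊤ ≤ 𝒞(f.ker)) (h : O (⊤ : Subgroup Y) ⊔ 𝒩(A.map f) = ⊤) :
    O (⊤ : Subgroup X) ⊔ 𝒩(A) = ⊤ := by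
  obtain ⟨L, hL⟩ : ∃ L, L = (O (⊤ : Subgroup Y)).comap f := ⟨_, rfl⟩
  have hH : IsPiHallOf {2} f.ker L := by
    refine pHall_mk (hL ▸ ker_le_comap _ _) ((abelem_pGrp Nat.prime_two hA).of_le hk) ?_
    rw [relIndex_ker]
    have : IsPiGrp {2}ᶜ (L.map f) := (mg_Opi ⊤).of_le (hL ▸ map_comap_le _ _)
    exact this
  obtain ⟨K, hK⟩ := hH.exists_sdprod (norm_of_cent (le_top.trans hz))
  have hK2 := hK.complIn.pHall_compl hH
  have hLK : L ≤ 𝒩(K) := by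
    rw [← hK.sup_eq]
    exact sup_le (norm_of_cent' (le_top.trans hz)) le_normalizer
  have hLn : L ⊲ ⊤ := ⟨le_top, by
    have := comap_norm f (pcore_norm {2}ᶜ (⊤ : Subgroup Y))
    rw [comap_top] at this
    rw [hL]
    exact this⟩
  have hKO : K ≤ O ⊤ := (pcore_max ⟨hK.right_le, hLK⟩ hK2.piGrp).trans (hLn.pcore_le {2}ᶜ)
  have hN : (𝒩(A.map f)).comap f ≤ 𝒩(A) := by
    have := comap_norm f (le_refl 𝒩(A.map f))
    rwa [comap_map_eq_self hk] at this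
  have e : L ⊔ (𝒩(A.map f)).comap f = ⊤ := by
    rw [hL, comap_sup_eq f _ _ hf, h, comap_top]
  refine eq_top_iff.2 (e.ge.trans (sup_le (hK.sup_eq.ge.trans ?_) (hN.trans le_sup_right)))
  exact sup_le ((hk.trans le_normalizer).trans le_sup_right) (hKO.trans le_sup_left)

omit [Finite X] in
theorem SC.mg_sub (hS : SC A) {H : Subgroup X} (hAH : A ≤ H) : SC (A.subgroupOf H) := by
  intro P hP hAP a ha g hg
  refine hS (P.map H.subtype) (hP.map _) ?_ a ha g ⟨_, hg, rfl⟩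
  intro x hx
  exact ⟨⟨x, hAH hx⟩, hAP hx, rfl⟩

theorem mg_tr {H K : Subgroup X} (hAH : A ≤ H) (hK : K ≤ H) :
    (O (K.subgroupOf H) ⊔ (𝒩(A.subgroupOf H) ⊓ K.subgroupOf H)).map H.subtype =
      O K ⊔ (𝒩(A) ⊓ K) := by
  have e : O (K.subgroupOf H) = (O K).subgroupOf H := (pcore_subgroupOf _ hK).symm
  rw [Subgroup.map_sup, e, ← subgroupOf_normalizer_eq hAH]
  change _ ⊔ ((𝒩(A) ⊓ K).subgroupOf H).map H.subtype = _
  rw [subgroupOf_map_subtype, subgroupOf_map_subtype, inf_eq_left.2 ((pcore_le _ _).trans hK),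
    inf_eq_left.2 (inf_le_right.trans hK)]

end

/-- the `Z*` case -/
theorem mg_z {X : Type u} [Group X] [Finite X] {A : Subgroup X} (hA : IsElementaryAbelian 2 A)
    (hS : SC A) {a : X} (ha : a ∈ A) (ha1 : a ≠ 1) (hn : ∀ n ∈ 𝒩(A), n * a * n⁻¹ = a)
    (h : 𝒞[a] ≤ O 𝒞[a] ⊔ (𝒩(A) ⊓ 𝒞[a])) : O (⊤ : Subgroup X) ⊔ 𝒩(A) = ⊤ := by
  have ho : orderOf a = 2 := orderOf_eq_prime (hA.2 a ha) ha1
  have hz := CA.Blk.Zstar_sup ho fun g hg => by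
    obtain ⟨c, hc, h1⟩ := hS.mg_conj hA (mg_cent1 hA ha) ha (g := g)
      (mem_centralizer_singleton_iff.2 hg.symm)
    obtain ⟨n, hn1, h2⟩ := hS.mg_fuse' hA ha h1
    rw [hn n hn1] at h2
    have hc' : c * a = a * c := mem_centralizer_singleton_iff.1 hc
    calc g * a * g⁻¹ = c⁻¹ * (c * g * a * (c * g)⁻¹) * c := by group
      _ = c⁻¹ * (a * c) := by rw [← h2]; group
      _ = a := by rw [← hc']; group
  rw [pPrimeCore_eq_top Nat.prime_two] at hz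
  have h1 : O 𝒞[a] ≤ O ⊤ := mg_le_O hz.ge le_top (mg_Opi _) le_top (pcore_norm _ _)
  exact eq_top_iff.2 (hz.ge.trans (sup_le le_sup_left (h.trans (sup_le_sup h1 inf_le_left))))

theorem mg (sg : SigTwo.{u}) : MG.{u} := mg_core sg

theorem mg_central (m : MG.{u}) {X : Type u} [Group X] [Finite X] {A B : Subgroup X}
    (hA : IsElementaryAbelian 2 A) (hS : SC A) (hB : B ≤ A) (hz : ⊤ ≤ 𝒞(B))
    (hC : ∀ a ∈ A, a ∉ B → 𝒞[a] ≤ O 𝒞[a] ⊔ (𝒩(A) ⊓ 𝒞[a]))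
    (h : (∃ u ∈ A, u ∉ B ∧ ∀ n ∈ 𝒩(A), u⁻¹ * (n * u * n⁻¹) ∈ B) ∨
      (8 * Nat.card B ≤ Nat.card A ∧ ∃ u ∈ A, ∃ v ∈ A, u ∉ B ∧ v ∉ B ∧
        ∀ n ∈ 𝒩(A), v⁻¹ * (n * u * n⁻¹) ∉ B)) : O (⊤ : Subgroup X) ⊔ 𝒩(A) = ⊤ := by
  have : B.Normal := normal_of_top_le_norm (norm_of_cent hz)
  set f := QuotientGroup.mk' B with hfd
  have hf : Function.Surjective f := QuotientGroup.mk'_surjective B
  have hk : f.ker = B := QuotientGroup.ker_mk' B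
  have hk1 : f.ker ≤ A := hk.le.trans hB
  have hz1 : ⊤ ≤ 𝒞(f.ker) := hz.trans (cent_anti hk.le)
  have hA' := abelem_map hA f
  have hS' := hS.mg_map hA hf hk1
  have h1 : ∀ x, f x = 1 ↔ x ∈ B := fun x => QuotientGroup.eq_one_iff x
  have hN : ∀ n ∈ 𝒩(A.map f), ∃ n' ∈ 𝒩(A), f n' = n := by
    intro n hn
    obtain ⟨n, rfl⟩ := hf n
    have := comap_norm f (le_refl 𝒩(A.map f)) hn
    rw [comap_map_eq_self hk1] at this
    exact ⟨n, this, rfl⟩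
  refine mg_top_of_map hA hf hk1 hz1 ?_
  rcases h with ⟨u, hu, huB, h⟩ | ⟨h8, u, hu, v, hv, huB, hvB, h⟩
  · refine mg_z hA' hS' (mem_map_of_mem f hu) (fun e => huB ((h1 u).1 e)) (fun n hn => ?_)
      (hS.mg_cent_map hA hf hz1 hu (hC u hu huB))
    obtain ⟨n, hn', rfl⟩ := hN n hn
    have := (h1 _).2 (h n hn')
    simp only [map_mul, map_inv] at this
    exact (inv_mul_eq_one.1 this).symm
  · refine m _ _ hA' hS' ?_ ⟨_, mem_map_of_mem f hu, _, mem_map_of_mem f hv,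
      fun e => huB ((h1 u).1 e), fun e => hvB ((h1 v).1 e), fun hc => ?_⟩ ?_
    · have := card_map_mul_card_inf_ker A f
      rw [inf_eq_left.2 hk1, hk] at this
      rw [← this] at h8
      exact Nat.le_of_mul_le_mul_right h8 Nat.card_pos
    · obtain ⟨g, hg⟩ := isConj_iff.1 hc
      obtain ⟨n, hn, h2⟩ := hS'.mg_fuse' hA' (mem_map_of_mem f hu) (g := g)
        (hg ▸ mem_map_of_mem f hv)
      obtain ⟨n, hn', rfl⟩ := hN n hn
      refine h n hn' ((h1 _).1 ?_)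
      simp only [map_mul, map_inv]
      rw [h2, hg, inv_mul_cancel]
    · rintro _ ⟨a, ha, rfl⟩ ha1
      exact hS.mg_cent_map hA hf hz1 ha (hC a ha fun e => ha1 ((h1 a).2 e))

theorem mgs_core (m : MG.{u}) (X : Type u) [Group X] [Finite X] (A : Subgroup X)
    (hA : IsElementaryAbelian 2 A) (hS : SC A)
    (h : ∀ B : Subgroup X, B < A → 𝒞(B) ≤ O 𝒞(B) ⊔ (𝒩(A) ⊓ 𝒞(B)) ∨
      (∃ u ∈ A, u ∉ B ∧ ∀ n ∈ 𝒩(A) ⊓ 𝒞(B), u⁻¹ * (n * u * n⁻¹) ∈ B) ∨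
      (8 * Nat.card B ≤ Nat.card A ∧ ∃ u ∈ A, ∃ v ∈ A, u ∉ B ∧ v ∉ B ∧
        ∀ n ∈ 𝒩(A) ⊓ 𝒞(B), v⁻¹ * (n * u * n⁻¹) ∉ B)) (B : Subgroup X) (hB : B ≤ A) :
    𝒞(B) ≤ O 𝒞(B) ⊔ (𝒩(A) ⊓ 𝒞(B)) := by
  induction B using WellFoundedGT.induction with
  | ind B ih =>
  rcases hB.eq_or_lt with rfl | hlt
  · exact (le_inf (cent_le_norm _) le_rfl).trans le_sup_right
  rcases h B hlt with h | h
  · exact h
  have hAH : A ≤ 𝒞(B) := (abelian_iff_le_cent.1 hA.1).trans (cent_anti hB)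
  have hN : ∀ n ∈ 𝒩(A.subgroupOf 𝒞(B)), (n : X) ∈ 𝒩(A) ⊓ 𝒞(B) := fun n hn => by
    rw [← subgroupOf_normalizer_eq hAH] at hn
    exact ⟨hn, n.2⟩
  have := mg_central m (abelem_subgroupOf hA 𝒞(B)) (hS.mg_sub hAH) (B := B.subgroupOf 𝒞(B))
    (comap_mono hB) (fun x _ y hy => Subtype.ext (x.2 y hy)) (fun a ha haB => ?_) ?_
  · rw [← mg_tr hAH le_rfl, subgroupOf_self, inf_top_eq, this, ← MonoidHom.range_eq_map, range_subtype]
  · have h1 := ih (B ⊔ zpowers (a : X)) (lt_of_le_of_ne le_sup_left fun e => haB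
      (e.ge (mem_sup_right (mem_zpowers _)))) (sup_le hB (zpowers_le.2 ha))
    have h2 : (𝒞(B ⊔ zpowers (a : X))).subgroupOf 𝒞(B) = 𝒞[a] := by
      rw [cent_sup, cent_zpowers, ← subgroupOf_cent1_eq]
      ext x; simp [mem_subgroupOf]
    have h3 : 𝒞(B ⊔ zpowers (a : X)) ≤ 𝒞(B) := cent_anti le_sup_left
    rw [← mg_tr hAH h3, h2] at h1
    rw [← map_le_map_iff_of_injective (𝒞(B)).subtype_injective]
    refine le_trans ?_ h1
    rw [← h2, subgroupOf_map_subtype]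
    exact inf_le_left
  · rcases h with ⟨u, hu, huB, h⟩ | ⟨h8, u, hu, v, hv, huB, hvB, h⟩
    · exact Or.inl ⟨⟨u, hAH hu⟩, hu, huB, fun n hn => h n (hN n hn)⟩
    · refine Or.inr ⟨?_, ⟨u, hAH hu⟩, hu, ⟨v, hAH hv⟩, hv, huB, hvB, fun n hn => h n (hN n hn)⟩
      rwa [card_subgroupOf hAH, card_subgroupOf (hB.trans hAH)]

theorem mgs (m : MG.{u}) : MGS.{u} := fun X _ _ A hA hS h => by
  have := mgs_core m X A hA hS h ⊥ bot_le
  rw [cent_bot, inf_top_eq] at this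
  exact eq_top_iff.2 this

end CA.U5
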