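/-
Model facts and Sylow bookkeeping for the fusion of the central involution.
-/
import Cfsg.Agent.U5.Defs

set_option autoImplicit false

open Cfsg CA.FG Subgroup

namespace CA.U5

universe u

theorem A0_comm : ∀ x ∈ A0, ∀ y : T0, x * y = y * x →
    y.a = 0 ∨ (x.f = 0 ∧ x.d * K.cj y.a = y.a * K.cj x.d) := by decide +kernel

theorem A0_cent : ∀ x ∈ A0, ∀ y ∈ R0, x * y = y * x := by decide +kernel

theorem A0_normal : ∀ x ∈ A0, ∀ y : T0, y * x * y⁻¹ ∈ A0 := by decide +kernel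

theorem sq_mem_A0 : ∀ s : T0, s * s * (s * s) = 1 → s * s ∈ A0 := by decide +kernel

theorem e0_root : ∀ i, ∃ r ∈ R0, r * r = e0 i := by decide +kernel

theorem inv_pair : ∀ y : T0, y * y = 1 → y ∉ A0 → ∃ u : T0, (u * u = 1 ∧ u * y = y * u) ∧
    ∃ v : T0, v * v = 1 ∧ v * y = y * v ∧ u * v * (u * v) = e0 4 := by decide +kernel

def bit : K → Bool
  | .o => false | .i => true | .w => false | .v => true

theorem mul_A0 : ∀ n ∈ A0, n.f = 0 → ∀ x : T0, (x * n).d = x.d + n.d ∧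
    (n.d = 0 → bit (x * n).g = bit x.g → n = 1) := by decide +kernel

theorem A0_card : Nat.card A0 = 16 := by
  have e : A0 ≃ K × Bool × Bool := (Equiv.ofBijective
    (fun p : K × Bool × Bool => (⟨T0.mk' 0 0 0 p.1 p.2.1 p.2.2, rfl, rfl, rfl⟩ : A0))
    ⟨by
      rintro ⟨d, s, t⟩ ⟨d', s', t'⟩ h
      have h' : T0.mk' 0 0 0 d s t = T0.mk' 0 0 0 d' s' t' := congrArg Subtype.val h
      revert d s t d' s' t'
      decide +kernel,
    fun ⟨x, hx⟩ => by
      obtain ⟨u, v, e⟩ := T0.mk'_surj x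
      obtain ⟨h1, h2, h3⟩ := hx
      rw [h1, h2, h3] at e
      exact ⟨⟨x.d, u, v⟩, Subtype.ext e.symm⟩⟩).symm
  rw [Nat.card_congr e]; simp [K.card]

/-- `A` is the only elementary abelian subgroup of order `16` -/
theorem A0_uniq (E : Subgroup T0) (h2 : ∀ x ∈ E, x * x = 1) (h : 16 ≤ Nat.card E) : E ≤ A0 := by
  by_contra hn
  obtain ⟨y, hy, yA⟩ := SetLike.not_le_iff_exists.1 hn
  have inA : ∀ x ∈ E, x.a = 0 → x ∈ A0 := fun x hx a0 => by
    rcases R0_sq x a0 with h | ⟨-, i, h⟩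
    · exact h.1
    · exact absurd ((h2 x hx).symm.trans h).symm (e0_ne i)
  have ya : y.a ≠ 0 := fun a0 => yA (inA y hy a0)
  have cm : ∀ x ∈ E, ∀ w ∈ E, x * w = w * x := fun x hx w hw => by
    have h1 := h2 _ (E.mul_mem hx hw)
    have h3 : x⁻¹ = x := inv_eq_of_mul_eq_one_right (h2 x hx)
    have h4 : w⁻¹ = w := inv_eq_of_mul_eq_one_right (h2 w hw)
    have h5 : (x * w)⁻¹ = x * w := inv_eq_of_mul_eq_one_right h1
    rw [← h5, mul_inv_rev, h3, h4]
  have dec : ∀ x ∈ E, ∀ x' ∈ E, x.a = x'.a → ∃ n ∈ E, n ∈ A0 ∧ x' = x * n := fun x hx x' hx' e => by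
    refine ⟨x⁻¹ * x', E.mul_mem (E.inv_mem hx) hx', inA _ (E.mul_mem (E.inv_mem hx) hx') ?_, by group⟩
    rw [T0.mul_a, ← e]; exact K.add_self _
  by_cases hc : ∃ y' ∈ E, y'.a ≠ 0 ∧ y'.a ≠ y.a
  · obtain ⟨y', hy', b0, b1⟩ := hc
    have := Nat.card_le_card_of_injective (fun x : E => ((x : T0).a, bit (x : T0).g)) (by
      rintro ⟨x, hx⟩ ⟨x', hx'⟩ e
      simp only [Prod.mk.injEq] at e
      obtain ⟨n, nE, nA, rfl⟩ := dec x hx x' hx' e.1
      have c1 := (A0_comm n nA y (cm n nE y hy)).resolve_left ya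
      have c2 := (A0_comm n nA y' (cm n nE y' hy')).resolve_left b0
      have d0 : n.d = 0 := (show ∀ a b d : K, a ≠ 0 → b ≠ 0 → b ≠ a → d * K.cj a = a * K.cj d →
        d * K.cj b = b * K.cj d → d = 0 by decide) _ _ _ ya b0 b1 c1.2 c2.2
      simp [(mul_A0 n nA c1.1 x).2 d0 e.2.symm])
    simp [K.card] at this
    omega
  · push Not at hc
    have := Nat.card_le_card_of_injective
      (fun x : E => (decide ((x : T0).a = 0), bit ((x : T0).d * (y.a * y.a)), bit (x : T0).g)) (by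
      rintro ⟨x, hx⟩ ⟨x', hx'⟩ e
      simp only [Prod.mk.injEq, decide_eq_decide] at e
      have ea : x.a = x'.a := by
        by_cases h0 : x.a = 0
        · rw [h0, e.1.1 h0]
        · rw [hc x hx h0, hc x' hx' fun h => h0 (e.1.2 h)]
      obtain ⟨n, nE, nA, rfl⟩ := dec x hx x' hx' ea
      have c1 := (A0_comm n nA y (cm n nE y hy)).resolve_left ya
      have m := mul_A0 n nA c1.1 x
      have e2 := e.2.1
      rw [m.1] at e2
      have d0 : n.d = 0 := (show ∀ a c d : K, a ≠ 0 → d * K.cj a = a * K.cj d →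
        bit (c * (a * a)) = bit ((c + d) * (a * a)) → d = 0 by decide) _ _ _ ya c1.2 e2
      simp [m.2 d0 e.2.2.symm])
    simp at this
    omega

/-- the double transposition fixing `p` and exchanging `i, j` -/
def dt (p i j x : Fin 5) : Fin 5 :=
  if x = p then p else if x = i then j else if x = j then i else -(p + i + j + x)

theorem dt_T : ∀ i j : Fin 5, i ≠ 4 → j ≠ 4 → i ≠ j → ∃ t : T0, ∀ x, t * e0 x * t⁻¹ = e0 (dt 4 i j x) := by
  decide +kernel

theorem dt_conj : ∀ a b c d p : Fin 5, (∀ x y : Fin 5, ![a, b, c, d, p] x = ![a, b, c, d, p] y → x = y) →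
    (∀ y, ∃ x, ![a, b, c, d, p] x = y) ∧ ∀ i j x : Fin 5, i ≠ 4 → j ≠ 4 → i ≠ j →
      dt p (![a, b, c, d, p] i) (![a, b, c, d, p] j) (![a, b, c, d, p] x) = ![a, b, c, d, p] (dt 4 i j x) := by
  decide +kernel

theorem dt_three : ∀ i j k : Fin 5, i ≠ j → i ≠ k → j ≠ k → ∃ p q r : Fin 5, (q ≠ p ∧ r ≠ p ∧ q ≠ r) ∧
    ∃ p' q' r' : Fin 5, (q' ≠ p' ∧ r' ≠ p' ∧ q' ≠ r') ∧ dt p q r (dt p' q' r' 0) = i ∧
      dt p q r (dt p' q' r' 1) = j ∧ dt p q r (dt p' q' r' 2) = k := by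
  decide +kernel

end CA.U5

theorem CA.realizeEqns_U5_Fa0 : True := by
  have := @CA.U5.dt.eq_1
  have := @CA.U5.dt.eq_def
  have := @CA.U5.dt.congr_simp
  have := @CA.U5.bit.eq_1
  have := @CA.U5.bit.eq_2
  have := @CA.U5.bit.eq_3
  have := @CA.U5.bit.eq_4
  have := @CA.U5.bit.eq_def
  have := @CA.U5.bit.congr_simp
  trivial
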