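/-
Fusion of the central involution of the Sylow 2-subgroup.
-/
import Cfsg.Agent.U5.Fa0

set_option autoImplicit false

open Cfsg CA.FG Subgroup

namespace CA.U5

universe u

variable {G : Type u} [Group G] [Finite G] {ι : T0 →* G}

namespace TU

theorem faT (h : TU ι) : IsSylowOf 2 (sT ι) ⊤ := by
  refine sylow_mk le_top (pGrp_of_card_eq_pow (k := 10) Nat.prime_two ?_) ?_
  · rw [← Nat.card_congr (MonoidHom.ofInjective h.inj).toEquiv, T0.card]; norm_num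
  · rw [relIndex_top_right]; exact Nat.two_dvd_ne_zero.2 (Nat.odd_iff.1 h.odd)

theorem sylH (h : TU ι) {H : Subgroup G} (hH : sT ι ≤ H) : IsSylowOf 2 (sT ι) H := h.faT.of_le hH le_top

omit [Finite G] in
theorem cardA (h : TU ι) : Nat.card (sA ι) = 16 := by
  rw [card_map_of_injective h.inj, A0_card]

omit [Finite G] in
theorem AT : sA ι ≤ sT ι := map_le_range _ _

omit [Finite G] in
theorem TnA : sT ι ≤ 𝒩(sA ι) := by
  refine le_norm_of_conjg_le ?_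
  rintro _ ⟨t, rfl⟩ y hy
  obtain ⟨_, ⟨x, hx, rfl⟩, rfl⟩ := mem_conjg'.1 hy
  exact ⟨_, A0_normal x hx t, by simp⟩

omit [Finite G] in
theorem pA (h : TU ι) : IsPGrp 2 (sA ι) := pGrp_of_card_eq_pow (k := 4) Nat.prime_two h.cardA

omit [Finite G] in
theorem RcA : sR ι ≤ 𝒞(sA ι) := by
  refine le_cent_iff_forall.2 ?_
  rintro _ ⟨r, hr, rfl⟩ _ ⟨x, hx, rfl⟩
  rw [← map_mul, ← map_mul, A0_cent x hx r hr]

omit [Finite G] in
theorem AcA : sA ι ≤ 𝒞(sA ι) := (map_mono (show A0 ≤ R0 from fun _ hx => (mem_A0.1 hx).1)).trans RcA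

omit [Finite G] in
theorem eA (i : Fin 5) : e ι i ∈ sA ι := ⟨_, e0_A i, rfl⟩

/-- `A` is weakly closed in `T` -/
theorem wc (h : TU ι) {g : G} (hg : sA ι :^ g ≤ sT ι) : g ∈ 𝒩(sA ι) := by
  have c : Nat.card ((sA ι :^ g).comap ι) = 16 := by
    rw [← card_map_of_injective h.inj, map_comap_eq_self hg, card_conjg, h.cardA]
  have := A0_uniq ((sA ι :^ g).comap ι) (fun x hx => by
    obtain ⟨_, ⟨y, hy, rfl⟩, e⟩ := mem_conjg'.1 (mem_comap.1 hx)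
    have y2 : y * y = 1 := by
      rcases R0_sq y hy.1 with h | h
      · exact h.2
      · exact absurd hy h.1
    apply h.inj
    rw [map_mul, ← e, map_one, conj_mul, ← map_mul, y2]; simp) c.ge
  refine mem_norm_of_conjg_le ?_
  rw [← map_comap_eq_self hg]
  exact map_mono this

/-- a 2-subgroup containing `A` is conjugate into `T` under `N(A)` -/
theorem into (h : TU ι) {P : Subgroup G} (p : IsPGrp 2 P) (hA : sA ι ≤ P) : ∃ g ∈ 𝒩(sA ι), P :^ g ≤ sT ι := by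
  obtain ⟨g, -, hg⟩ := sylow_Jsub Nat.prime_two h.faT p le_top
  exact ⟨g, h.wc ((conjg_mono g hA).trans hg), hg⟩

theorem two_le (h : TU ι) {P : Subgroup G} (p : IsPGrp 2 P) (hA : sA ι ≤ P) : P ≤ 𝒩(sA ι) := by
  obtain ⟨g, gn, hg⟩ := h.into p hA
  exact (conjg_le_iff_of_mem_norm (le_normalizer gn)).1 (hg.trans TnA)

/-- `N(A)` controls fusion in `A` -/
theorem fus (h : TU ι) {x g : G} (hx : x ∈ sA ι) (hg : g * x * g⁻¹ ∈ sA ι) :
    ∃ n ∈ 𝒩(sA ι), n * x * n⁻¹ = g * x * g⁻¹ := by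
  have a1 : sA ι ≤ 𝒞[g * x * g⁻¹] := AcA.trans (cent_le_cent_singleton hg)
  have a2 : sA ι :^ g ≤ 𝒞[g * x * g⁻¹] := by
    rw [← conjg_cent1]; exact conjg_mono g (AcA.trans (cent_le_cent_singleton hx))
  obtain ⟨P, sP, AP⟩ := sylow_superset Nat.prime_two h.pA a1
  obtain ⟨c, hc, cP⟩ := sylow_Jsub Nat.prime_two sP (show IsPGrp 2 (sA ι :^ g) by
    unfold IsPGrp IsPiGrp; rw [card_conjg]; exact h.pA) a2
  obtain ⟨k, kn, hk⟩ := h.into sP.pGrp AP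
  have : k * (c * g) ∈ 𝒩(sA ι) := h.wc (by
    rw [conjg_mul, conjg_mul]; exact (conjg_mono k cP).trans hk)
  refine ⟨c * g, (mul_mem_cancel_left kn).1 this, ?_⟩
  have := mem_centralizer_singleton_iff.1 hc
  calc c * g * x * (c * g)⁻¹ = c * (g * x * g⁻¹) * c⁻¹ := by group
    _ = _ := by rw [this]; group

theorem sylR (h : TU ι) : IsSylowOf 2 (sR ι) 𝒞(sA ι) := by
  have := (h.sylH TnA).inf_normal (K := 𝒞(sA ι)) ⟨cent_le_norm _, norm_cent le_rfl⟩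
  have e : sT ι ⊓ 𝒞(sA ι) = sR ι := by
    refine le_antisymm ?_ (le_inf (map_le_range _ _) RcA)
    rintro _ ⟨⟨t, rfl⟩, hc⟩
    refine ⟨t, (cent_e0 t 0 (by decide)).1 (h.inj ?_), rfl⟩
    rw [map_mul, map_mul]
    exact (mem_centralizer_iff.1 hc _ (eA 0)).symm
  rwa [e] at this

theorem perm (h : TU ι) {n : G} (hn : n ∈ 𝒩(sA ι)) (i : Fin 5) : ∃ j, n * e ι i * n⁻¹ = e ι j := by
  obtain ⟨r, hr, e2⟩ := e0_root i
  have c1 : n * ι r * n⁻¹ ∈ 𝒞(sA ι) := conj_mem_of_mem_norm (norm_cent le_rfl hn) (RcA ⟨r, hr, rfl⟩)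
  have p1 : IsPiElt {2} (n * ι r * n⁻¹) := (h.faT.pGrp.piElt ⟨r, rfl⟩).conj n
  obtain ⟨c, hc, cR⟩ := sylow_Jsub Nat.prime_two h.sylR (piGrp_zpowers_iff.2 p1) (zpowers_le.2 c1)
  obtain ⟨s, hs, es⟩ := cR (conj_mem_conjg c (mem_zpowers _))
  have xA : n * e ι i * n⁻¹ ∈ sA ι := conj_mem_of_mem_norm hn (eA i)
  have e3 : ι (s * s) = n * e ι i * n⁻¹ := by
    have := mem_centralizer_iff.1 hc _ xA
    rw [map_mul, es, conj_mul, conj_mul, ← map_mul, e2, ← this]; group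
  rcases R0_sq s hs with ⟨-, h1⟩ | ⟨-, j, h1⟩
  · rw [h1, map_one, eq_comm, conj_eq_one_iff, map_eq_one_iff _ h.inj] at e3
    exact absurd e3 (e0_ne i)
  · exact ⟨j, by rw [← e3, h1]⟩

theorem zA (h : TU ι) {g : G} (hg : g * z ι * g⁻¹ ∈ sA ι) : ∃ i, g * z ι * g⁻¹ = e ι i := by
  obtain ⟨n, hn, e1⟩ := h.fus (eA 4) hg
  rw [← e1]; exact h.perm hn 4

omit [Finite G] in
theorem Tz : sT ι ≤ 𝒞[z ι] := by
  rintro _ ⟨t, rfl⟩
  rw [mem_centralizer_singleton_iff, ← map_mul, ← map_mul, z_central]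

theorem zT (h : TU ι) (g : G) (y : T0) (hy : g * z ι * g⁻¹ = ι y) : ∃ i, y = e0 i := by
  by_cases yA : y ∈ A0
  · obtain ⟨i, hi⟩ := h.zA (g := g) ⟨y, yA, hy.symm⟩
    exact ⟨i, h.inj (hy.symm.trans hi)⟩
  exfalso
  have y2 : y * y = 1 := h.inj (by rw [map_mul, ← hy, conj_mul, ← map_mul, e0_sq]; simp)
  obtain ⟨u, ⟨u2, uy⟩, v, v2, vy, uv⟩ := inv_pair y y2 yA
  have l1 : (sT ι ⊓ 𝒞[ι y]) :^ g⁻¹ ≤ 𝒞[z ι] := by
    have : z ι = g⁻¹ * ι y * g⁻¹⁻¹ := by rw [← hy]; group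
    rw [this, ← conjg_cent1]; exact conjg_mono _ inf_le_right
  obtain ⟨c, hc, cT⟩ := sylow_Jsub Nat.prime_two (h.sylH Tz) (show IsPGrp 2 ((sT ι ⊓ 𝒞[ι y]) :^ g⁻¹) by
    unfold IsPGrp IsPiGrp; rw [card_conjg]; exact h.faT.pGrp.inf_left _) l1
  rw [← conjg_mul] at cT
  set k := c * g⁻¹ with hk
  have ky : k * ι y * k⁻¹ = z ι := by
    have := mem_centralizer_singleton_iff.1 hc
    rw [← hy, hk]
    calc c * g⁻¹ * (g * z ι * g⁻¹) * (c * g⁻¹)⁻¹ = c * z ι * c⁻¹ := by group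
      _ = _ := by rw [this]; group
  have im : ∀ w : T0, w * y = y * w → ∃ w', ι w' = k * ι w * k⁻¹ := fun w hw =>
    cT (conj_mem_conjg k ⟨⟨w, rfl⟩, mem_centralizer_singleton_iff.2 (by rw [← map_mul, ← map_mul, hw])⟩)
  obtain ⟨u', hu⟩ := im u uy
  obtain ⟨v', hv⟩ := im v vy
  have u2' : u' * u' = 1 := h.inj (by rw [map_mul, hu, conj_mul, ← map_mul, u2]; simp)
  have v2' : v' * v' = 1 := h.inj (by rw [map_mul, hv, conj_mul, ← map_mul, v2]; simp)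
  have t1 : ι (u' * v' * (u' * v')) = k * z ι * k⁻¹ := by
    simp only [map_mul, hu, hv, conj_mul]
    simp only [← map_mul, uv]
  have tA : u' * v' * (u' * v') ∈ A0 := sq_mem_A0 _ (h.inj (by
    rw [map_mul, t1, conj_mul, ← map_mul, e0_sq]; simp))
  obtain ⟨i, hi⟩ := h.zA (g := k) ⟨_, tA, t1⟩
  have i4 : i ≠ 4 := by
    rintro rfl
    have : ι y = z ι := by
      have e1 : k * ι y * k⁻¹ = k * z ι * k⁻¹ := ky.trans hi.symm
      simpa using e1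
    exact yA (h.inj this ▸ e0_A 4)
  have ti : u' * v' * (u' * v') = e0 i := h.inj (t1.trans hi)
  have inA : ∀ w : T0, w * w = 1 → w * e0 i = e0 i * w → w ∈ A0 := fun w w2 c => by
    rcases R0_sq w ((cent_e0 w i i4).1 c) with h | ⟨-, j, h⟩
    · exact h.1
    · exact absurd (w2.symm.trans h).symm (e0_ne j)
  have iu : u'⁻¹ = u' := inv_eq_of_mul_eq_one_right u2'
  have iv : v'⁻¹ = v' := inv_eq_of_mul_eq_one_right v2'
  have cz : ∀ w w' : T0, ι w' = k * ι w * k⁻¹ → w' * e0 i = e0 i * w' := fun w w' hw => h.inj (by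
    rw [map_mul, map_mul, hw, show ι (e0 i) = k * z ι * k⁻¹ from hi.symm, conj_mul, conj_mul, ← map_mul, ← map_mul,
      z_central])
  have c := A0_cent u' (inA u' u2' (cz u u' hu)) v' (inA v' v2' (cz v v' hv)).1
  apply e0_ne i
  rw [← ti]
  calc u' * v' * (u' * v') = u' * (v' * u') * v' := by group
    _ = u' * u' * (v' * v') := by rw [← c]; group
    _ = 1 := by rw [u2', v2', one_mul]

theorem cent_all (h : TU ι) {n : G} (c : ∀ i, Commute n (e ι i)) : n ∈ 𝒞(sA ι) := by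
  refine mem_centralizer_iff.2 ?_
  rintro _ ⟨x, hx, rfl⟩
  rcases A0_elts x hx with rfl | ⟨i, rfl⟩ | ⟨i, j, -, rfl⟩
  · simp
  · exact (c i).symm.eq
  · rw [map_mul]; exact ((c i).mul_right (c j)).symm.eq

theorem e_inj (h : TU ι) {i j : Fin 5} (e1 : e ι i = e ι j) : i = j := e0_inj (h.inj e1)

/-- the permutation induced by an element of `N(A)` -/
theorem permf (h : TU ι) {n : G} (hn : n ∈ 𝒩(sA ι)) :
    ∃ s : Fin 5 → Fin 5, Function.Injective s ∧ ∀ i, n * e ι i * n⁻¹ = e ι (s i) := by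
  choose s hs using h.perm hn
  refine ⟨s, fun i j e1 => h.e_inj ?_, hs⟩
  have : n * e ι i * n⁻¹ = n * e ι j * n⁻¹ := by rw [hs, hs, e1]
  simpa using this

theorem ev (h : TU ι) {n : G} (hn : n ∈ 𝒩(sA ι)) {i j k : Fin 5} (ij : i ≠ j) (ik : i ≠ k) (jk : j ≠ k)
    (ci : Commute n (e ι i)) (cj : Commute n (e ι j)) (ck : Commute n (e ι k)) : n ∈ 𝒞(sA ι) := by
  obtain ⟨s, si, hs⟩ := h.permf hn
  have fx : ∀ {l}, Commute n (e ι l) → s l = l := fun {l} c => h.e_inj (by rw [← hs, c.eq]; group)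
  have s2 : ∀ l, s (s l) = l := by
    have a := fx ci
    have b := fx cj
    have c := fx ck
    have es : s = ![s 0, s 1, s 2, s 3, s 4] := by funext x; fin_cases x <;> rfl
    rw [es] at a b c si ⊢
    exact (show ∀ a b c d p : Fin 5, (∀ x y : Fin 5, ![a, b, c, d, p] x = ![a, b, c, d, p] y → x = y) →
      ∀ i j k : Fin 5, i ≠ j → i ≠ k → j ≠ k → ![a, b, c, d, p] i = i → ![a, b, c, d, p] j = j →
        ![a, b, c, d, p] k = k → ∀ l, ![a, b, c, d, p] (![a, b, c, d, p] l) = l by decide +kernel)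
      _ _ _ _ _ (fun x y => @si x y) i j k ij ik jk a b c
  have n2 : n * n ∈ 𝒞(sA ι) := h.cent_all fun l => by
    have : n * n * e ι l * (n * n)⁻¹ = e ι l := by
      calc n * n * e ι l * (n * n)⁻¹ = n * (n * e ι l * n⁻¹) * n⁻¹ := by group
        _ = _ := by rw [hs, hs, s2]
    exact mul_inv_eq_iff_eq_mul.1 this
  obtain ⟨y, w, hy, hw, py, pw, e1, -⟩ := exists_piPart {2} n
  have yn : y ∈ 𝒩(sA ι) := zpowers_le.2 hn hy
  have cy : ∀ {l}, Commute n (e ι l) → Commute y (e ι l) := fun c => by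
    obtain ⟨m, rfl⟩ := hy
    exact c.zpow_left m
  obtain ⟨g, gn, hg⟩ := sylow_Jsub Nat.prime_two (h.sylH TnA) (piGrp_zpowers_iff.2 py) (zpowers_le.2 yn)
  obtain ⟨t, ht⟩ := hg (conj_mem_conjg g (mem_zpowers _))
  obtain ⟨r, ri, hr⟩ := h.permf gn
  have ct : ∀ {l}, Commute n (e ι l) → t * e0 (r l) = e0 (r l) * t := fun {l} c => h.inj (by
    rw [map_mul, map_mul, ht, show ι (e0 (r l)) = g * e ι l * g⁻¹ from (hr l).symm, conj_mul, conj_mul, (cy c).eq])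
  have tR : t ∈ R0 := by
    by_cases h4 : r i = 4
    · exact (cent_e0 t _ fun h5 => ij (ri (h4.trans h5.symm))).1 (ct cj)
    · exact (cent_e0 t _ h4).1 (ct ci)
  have yc : y ∈ 𝒞(sA ι) := by
    have := conj_mem_of_mem_norm' (norm_cent le_rfl gn) (RcA ⟨t, tR, ht⟩)
    simpa [mul_assoc] using this
  have wc : w ∈ 𝒞(sA ι) := by
    have w2 : w * w ∈ 𝒞(sA ι) := by
      obtain ⟨m, rfl⟩ := hw
      show n ^ m * n ^ m ∈ _
      rw [← (Commute.refl n).mul_zpow]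
      exact zpow_mem n2 m
    have od : Odd (orderOf w) := Nat.coprime_two_right.1 ((piNat_compl_singleton_iff_coprime Nat.prime_two).1 pw)
    obtain ⟨m, hm⟩ := od
    have : w = (w * w) ^ (m + 1) := by
      rw [← pow_two, ← pow_mul, show 2 * (m + 1) = 2 * m + 1 + 1 by ring, pow_succ, ← hm, pow_orderOf_eq_one,
        one_mul]
    rw [this]; exact pow_mem w2 _
  rw [e1]; exact mul_mem yc wc

theorem moved [IsSimpleGroup G] (h : TU ι) : ∃ n ∈ 𝒩(sA ι), ∃ i, i ≠ 4 ∧ n * z ι * n⁻¹ = e ι i := by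
  have nab : ¬ IsMulCommutative G := fun c => by
    obtain ⟨t, ht⟩ := dt_T 0 1 (by decide) (by decide) (by decide)
    have := ht 0
    have e1 : t * e0 0 = e0 0 * t := h.inj (by rw [map_mul, map_mul]; exact c.is_comm.comm _ _)
    rw [e1, mul_inv_cancel_right] at this
    exact absurd (e0_inj this) (by decide)
  have z2 : z ι * z ι = 1 := by rw [← map_mul, e0_sq, map_one]
  have oz : orderOf (z ι) = 2 := orderOf_eq_prime (by rw [pow_two, z2]) fun e1 =>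
    e0_ne 4 ((map_eq_one_iff _ h.inj).1 e1)
  obtain ⟨g, c, ne⟩ := CA.Blk.exists_fused_of_simple nab oz
  have p1 : IsPiElt {2} (g * z ι * g⁻¹) := (h.faT.pGrp.piElt ⟨_, rfl⟩).conj g
  obtain ⟨k, hk, kT⟩ := sylow_Jsub Nat.prime_two (h.sylH Tz) (piGrp_zpowers_iff.2 p1)
    (zpowers_le.2 (mem_centralizer_singleton_iff.2 c.symm.eq))
  obtain ⟨y, hy⟩ := kT (conj_mem_conjg k (mem_zpowers _))
  have e1 : k * g * z ι * (k * g)⁻¹ = ι y := by rw [hy]; group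
  obtain ⟨i, rfl⟩ := h.zT _ _ e1
  obtain ⟨n, hn, e2⟩ := h.fus (eA 4) (g := k * g) (e1 ▸ eA i)
  refine ⟨n, hn, i, ?_, e2.trans e1⟩
  rintro rfl
  have := mem_centralizer_singleton_iff.1 hk
  apply ne
  calc g * z ι * g⁻¹ = k⁻¹ * (k * (g * z ι * g⁻¹) * k⁻¹) * k := by group
    _ = k⁻¹ * (z ι * k) := by rw [← hy]; group
    _ = z ι := by rw [← this]; group

theorem dt_real [IsSimpleGroup G] (h : TU ι) {p i j : Fin 5} (ip : i ≠ p) (jp : j ≠ p) (ij : i ≠ j) :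
    ∃ n ∈ 𝒩(sA ι), ∀ x, n * e ι x * n⁻¹ = e ι (dt p i j x) := by
  have tr : ∃ n ∈ 𝒩(sA ι), n * z ι * n⁻¹ = e ι p := by
    obtain ⟨n, hn, l, l4, e1⟩ := h.moved
    by_cases p4 : p = 4
    · exact ⟨1, one_mem _, by simp [p4]⟩
    by_cases lp : l = p
    · exact ⟨n, hn, lp ▸ e1⟩
    obtain ⟨t, ht⟩ := dt_T l p l4 p4 lp
    refine ⟨ι t * n, mul_mem (TnA ⟨t, rfl⟩) hn, ?_⟩
    calc ι t * n * z ι * (ι t * n)⁻¹ = ι t * (n * z ι * n⁻¹) * (ι t)⁻¹ := by group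
      _ = ι (t * e0 l * t⁻¹) := by rw [e1]; simp
      _ = _ := by rw [ht]; simp [dt, l4]
  obtain ⟨n, hn, e1⟩ := tr
  obtain ⟨s, si, hs⟩ := h.permf hn
  have s4 : s 4 = p := h.e_inj ((hs 4).symm.trans e1)
  have es : s = ![s 0, s 1, s 2, s 3, p] := by funext x; fin_cases x <;> first | rfl | exact s4
  have k := dt_conj (s 0) (s 1) (s 2) (s 3) p (by rw [← es]; exact fun x y => @si x y)
  rw [← es] at k
  obtain ⟨i0, rfl⟩ := k.1 i
  obtain ⟨j0, rfl⟩ := k.1 j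
  have i4 : i0 ≠ 4 := fun e2 => ip (e2 ▸ s4)
  have j4 : j0 ≠ 4 := fun e2 => jp (e2 ▸ s4)
  have ij0 : i0 ≠ j0 := fun e2 => ij (e2 ▸ rfl)
  obtain ⟨t, ht⟩ := dt_T i0 j0 i4 j4 ij0
  refine ⟨n * ι t * n⁻¹, mul_mem (mul_mem hn (TnA ⟨t, rfl⟩)) (inv_mem hn), fun x => ?_⟩
  obtain ⟨x0, rfl⟩ := k.1 x
  rw [k.2 i0 j0 x0 i4 j4 ij0, ← hs, ← hs]
  calc n * ι t * n⁻¹ * (n * e ι x0 * n⁻¹) * (n * ι t * n⁻¹)⁻¹ = n * ι (t * e0 x0 * t⁻¹) * n⁻¹ := by
        simp only [map_mul, map_inv]; group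
    _ = _ := by rw [ht]

theorem three [IsSimpleGroup G] (h : TU ι) {i j k : Fin 5} (ij : i ≠ j) (ik : i ≠ k) (jk : j ≠ k) :
    ∃ n ∈ 𝒩(sA ι), n * e ι 0 * n⁻¹ = e ι i ∧ n * e ι 1 * n⁻¹ = e ι j ∧ n * e ι 2 * n⁻¹ = e ι k := by
  obtain ⟨p, q, r, ⟨a1, a2, a3⟩, p', q', r', ⟨b1, b2, b3⟩, rfl, rfl, rfl⟩ := dt_three i j k ij ik jk
  obtain ⟨n, hn, e1⟩ := h.dt_real a1 a2 a3
  obtain ⟨m, hm, e2⟩ := h.dt_real b1 b2 b3
  have : ∀ x, n * m * e ι x * (n * m)⁻¹ = e ι (dt p q r (dt p' q' r' x)) := fun x => by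
    rw [← e1, ← e2]; group
  exact ⟨n * m, mul_mem hn hm, this 0, this 1, this 2⟩

end TU

theorem fa [IsSimpleGroup G] (h : TU ι) : FA ι where
  toTU := h
  zT := h.zT
  two P p hA := by
    have p' := pGrp_of_isPGroup Nat.prime_two p
    refine ⟨h.two_le p' hA, fun g hg => ?_⟩
    obtain ⟨k, kn, hk⟩ := h.into p' hA
    obtain ⟨y, hy⟩ := hk (conj_mem_conjg k hg)
    obtain ⟨i, rfl⟩ := h.zT (k * g) y (by rw [hy]; group)
    obtain ⟨j, hj⟩ := h.perm (inv_mem kn) i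
    exact ⟨j, by rw [← hj]; simp only [e]; rw [hy]; group⟩
  perm n hn i := h.perm hn i
  tr3 i j k i' j' k' a1 a2 a3 b1 b2 b3 := by
    obtain ⟨n, hn, e1, e2, e3⟩ := h.three a1 a2 a3
    obtain ⟨m, hm, f1, f2, f3⟩ := h.three b1 b2 b3
    refine ⟨m * n⁻¹, mul_mem hm (inv_mem hn), ?_, ?_, ?_⟩
    · rw [← e1, ← f1]; group
    · rw [← e2, ← f2]; group
    · rw [← e3, ← f3]; group
  ev n hn i j k a1 a2 a3 c1 c2 c3 := h.ev hn a1 a2 a3 c1 c2 c3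

end CA.U5

theorem CA.realizeEqns_U5_Fa : True := by

  trivial
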