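/-
Model facts for the package `FB`.
-/
import Cfsg.Agent.U5.T0

set_option autoImplicit false

namespace CA.U5

open K

theorem T0.inv_a (x : T0) : x⁻¹.a = x.a := rfl
theorem T0.inv_b (x : T0) : x⁻¹.b = x.b := rfl
theorem T0.inv_c (x : T0) : x⁻¹.c = x.c + x.a * x.b := rfl
theorem T0.inv_d (x : T0) : x⁻¹.d = x.d + x.a * cj x.f + x.c * cj x.b := rfl
theorem T0.inv_f (x : T0) : x⁻¹.f = cj x.f := rfl
theorem T0.inv_g (x : T0) : x⁻¹.g = cj x.g := rfl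

/-- the square of an element of `R` in coordinates -/
def sqK (b c : K) : K × K × K := (c * cj b, b * cj b, c * cj c)

theorem sq_R0 : ∀ x ∈ R0, ((x * x).d, (x * x).f, (x * x).g) = sqK x.b x.c := by decide +kernel

theorem sqK_key : ∀ β γ b c b' c' : K, ¬ (β = 0 ∧ γ = 0) → sqK β γ ≠ sqK b c → sqK b c = sqK b' c' →
    sqK (b + β) (c + γ) = sqK (b' + β) (c' + γ) → b = b' ∧ c = c' := by decide +kernel

theorem sqK_ex : ∀ β γ b c : K, ∃ p q : K, sqK β γ ≠ sqK p q ∧ sqK β γ ≠ sqK (b + p) (c + q) := by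
  decide +kernel

theorem mul_c_R0 {x : T0} (hx : x ∈ R0) (y : T0) : (x * y).c = x.c + y.c := by
  rw [T0.mul_c, mem_R0.1 hx, zero_mul, add_zero]

theorem K.add_eq_zero' : ∀ x y : K, x + y = 0 ↔ x = y := by decide

theorem mod_A0 {x y : T0} (hx : x ∈ R0) (hy : y ∈ R0) : x⁻¹ * y ∈ A0 ↔ x.b = y.b ∧ x.c = y.c := by
  rw [mem_A0, T0.mul_a, T0.mul_b, mul_c_R0 (inv_mem hx), T0.inv_a, T0.inv_b, T0.inv_c, mem_R0.1 hx, mem_R0.1 hy,
    zero_mul, add_zero, add_zero, K.add_eq_zero', K.add_eq_zero']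
  simp

theorem rel_key (r : T0 → T0 → Prop) (tot : ∀ x ∈ R0, ∃ x' ∈ R0, r x x')
    (mul : ∀ x x' y y', r x x' → r y y' → r (x * y) (x' * y'))
    (sq : ∀ x ∈ R0, ∀ x', r x x' → x * x = x' * x') {w w' : T0} (hw : w ∈ R0) (hw' : w' ∈ R0) (hA : w ∉ A0)
    (rw' : r w w') (e : w⁻¹ * w' ∈ A0) {x x' : T0} (hx : x ∈ R0) (hx' : x' ∈ R0) (rx : r x x') :
    x⁻¹ * x' ∈ A0 := by
  obtain ⟨e1, e2⟩ := (mod_A0 hw hw').1 e
  have s : ∀ x ∈ R0, ∀ x' ∈ R0, r x x' → sqK x.b x.c = sqK x'.b x'.c := fun x hx x' hx' h => by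
    rw [← sq_R0 x hx, ← sq_R0 x' hx', sq x hx x' h]
  have k : ∀ x ∈ R0, ∀ x' ∈ R0, r x x' → sqK w.b w.c ≠ sqK x.b x.c → x.b = x'.b ∧ x.c = x'.c := by
    intro x hx x' hx' h hne
    refine sqK_key w.b w.c _ _ _ _ (fun h => hA (mem_A0.2 ⟨hw, h⟩)) hne (s _ hx _ hx' h) ?_
    have := s _ (mul_mem hx hw) _ (mul_mem hx' hw') (mul _ _ _ _ h rw')
    rwa [T0.mul_b, T0.mul_b, mul_c_R0 hx, mul_c_R0 hx', ← e1, ← e2] at this
  obtain ⟨p, q, h1, h2⟩ := sqK_ex w.b w.c x.b x.c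
  have hy : T0.mk' 0 p q 0 false false ∈ R0 := rfl
  obtain ⟨y', hy', ry⟩ := tot _ hy
  obtain ⟨a1, a2⟩ := k _ hy _ hy' ry h1
  obtain ⟨a3, a4⟩ := k _ (mul_mem hx hy) _ (mul_mem hx' hy') (mul _ _ _ _ rx ry)
    (by rw [T0.mul_b, mul_c_R0 hx]; exact h2)
  rw [T0.mul_b, T0.mul_b, a1] at a3
  rw [mul_c_R0 hx, mul_c_R0 hx', a2] at a4
  exact (mod_A0 hx hx').2 ⟨add_right_cancel a3, add_right_cancel a4⟩

/-- the preimage in `R` of the point of `z` -/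
def Z0 : Subgroup T0 where
  carrier := {x | x.a = 0 ∧ x.b = 0}
  mul_mem' {x y} hx hy := by
    simp only [Set.mem_ofPred_eq, T0.mul_a, T0.mul_b] at *
    simp [hx, hy]
  one_mem' := ⟨rfl, rfl⟩
  inv_mem' h := h

theorem mem_Z0 {x : T0} : x ∈ Z0 ↔ x.a = 0 ∧ x.b = 0 := Iff.rfl

instance (x : T0) : Decidable (x ∈ Z0) := decidable_of_iff _ mem_Z0.symm

/-- the hyperplane of `A` fixed by `T` -/
def B0 : Subgroup T0 := A0 ⊓ Q0

theorem mem_B0 {x : T0} : x ∈ B0 ↔ x ∈ A0 ∧ x ∈ Q0 := Iff.rfl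

instance (x : T0) : Decidable (x ∈ B0) := decidable_of_iff _ mem_B0.symm

theorem Z0_iff : ∀ x : T0, x ∈ Z0 ↔ x ∈ R0 ∧ (x * x = 1 ∨ x * x = e0 4) := by decide +kernel
theorem A0_iff : ∀ x : T0, x ∈ A0 ↔ x ∈ R0 ∧ x * x = 1 := by decide +kernel
theorem B0_iff : ∀ x : T0, x ∈ B0 ↔ x = e0 4 ∨ ∃ i j, i ≠ 4 ∧ j ≠ 4 ∧ x = e0 i * e0 j := by decide +kernel
theorem R0_pow : ∀ x ∈ R0, x * x * (x * x) = 1 := by decide +kernel
theorem R0_sqA : ∀ x ∈ R0, x * x ∈ A0 := by decide +kernel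
theorem z_iff : ∀ x : T0, x.a = 0 → x.b = 0 → x.c = 0 → x.d = 0 → x.f = 0 → x = 1 ∨ x = e0 4 := by decide +kernel

theorem st1 (t : T0) {x : T0} (hx : x ∈ R0) : x⁻¹ * (t * x * t⁻¹) ∈ Z0 := by
  have := two
  rw [mem_R0] at hx
  simp only [mem_Z0, T0.mul_a, T0.mul_b, T0.inv_a, T0.inv_b, hx]
  constructor <;> grind

theorem st2 (t : T0) {x : T0} (hx : x ∈ Z0) : x⁻¹ * (t * x * t⁻¹) ∈ A0 := by
  have := two
  obtain ⟨h1, h2⟩ := hx
  simp only [mem_A0, T0.mul_a, T0.mul_b, T0.mul_c, T0.inv_a, T0.inv_b, T0.inv_c, h1, h2]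
  refine ⟨?_, ?_, ?_⟩ <;> grind

theorem st3 (t : T0) {x : T0} (hx : x ∈ A0) : x⁻¹ * (t * x * t⁻¹) ∈ B0 := by
  have := two
  have := t.hf
  have := x.hf
  obtain ⟨h1, h2, h3⟩ := hx
  simp only [mem_B0, mem_A0, mem_Q0, T0.mul_a, T0.mul_b, T0.mul_c, T0.mul_f, T0.inv_a, T0.inv_b, T0.inv_c,
    T0.inv_f, h1, h2, h3, map_add, map_zero] at *
  refine ⟨⟨?_, ?_, ?_⟩, ?_, ?_⟩ <;> grind

theorem st4 (t : T0) {x : T0} (hx : x ∈ B0) : x⁻¹ * (t * x * t⁻¹) ∈ Subgroup.zpowers (e0 4) := by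
  have := two
  have := t.hf
  obtain ⟨⟨h1, h2, h3⟩, -, h4⟩ := hx
  have : x⁻¹ * (t * x * t⁻¹) = 1 ∨ x⁻¹ * (t * x * t⁻¹) = e0 4 := by
    apply z_iff <;>
    simp only [T0.mul_a, T0.mul_b, T0.mul_c, T0.mul_d, T0.mul_f, T0.inv_a, T0.inv_b, T0.inv_c, T0.inv_d,
      T0.inv_f, h1, h2, h3, h4, map_add, map_zero] <;> grind
  rcases this with h | h <;> rw [h]
  exacts [one_mem _, Subgroup.mem_zpowers _]

theorem R0_cent {x : T0} : x ∈ R0 ↔ ∀ a ∈ A0, a * x = x * a := by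
  refine ⟨fun hx a ha => ?_, fun h => (cent_e0 x 0 (by decide)).1 (h _ (e0_A 0)).symm⟩
  have k : ∀ i, Commute (e0 i) x := fun i => by
    by_cases h : i = 4
    · rw [h]; exact (z_central x).symm
    · exact ((cent_e0 x i h).2 hx).symm
  rcases A0_elts a ha with rfl | ⟨i, rfl⟩ | ⟨i, j, -, rfl⟩
  exacts [by simp, k i, (k i).mul_left (k j)]

theorem A0_relIndex : 8 ≤ A0.relIndex R0 := by
  let f : K × K → R0 ⧸ A0.subgroupOf R0 := fun p => QuotientGroup.mk ⟨T0.mk' 0 p.1 p.2 0 false false, rfl⟩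
  have hf : Function.Injective f := fun p q h => by
    have := (mod_A0 (x := T0.mk' 0 p.1 p.2 0 false false) (y := T0.mk' 0 q.1 q.2 0 false false) rfl rfl).1
      ((QuotientGroup.eq (s := A0.subgroupOf R0)).1 h)
    exact Prod.ext this.1 this.2
  have := Nat.card_le_card_of_injective f hf
  rw [Nat.card_eq_fintype_card, Fintype.card_prod, K.card] at this
  exact le_trans (by norm_num) this

theorem realizeEqns_U5Fb1 : True := by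
  have := @CA.U5.Z0.eq_1
  have := @CA.U5.Z0.eq_def
  have := @CA.U5.Z0.congr_simp
  have := @CA.U5.sqK.eq_1
  have := @CA.U5.sqK.eq_def
  have := @CA.U5.sqK.congr_simp
  have := @CA.U5.B0.eq_1
  have := @CA.U5.B0.eq_def
  have := @CA.U5.B0.congr_simp
  trivial

end CA.U5
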