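/-
The package `FB`: the centralizer and the normalizer of `A`.
-/
import Cfsg.Agent.U5.Fb0
import Cfsg.Agent.U5.Fb1

set_option autoImplicit false

open Cfsg CA.FG Subgroup

namespace CA.U5

universe u

variable {G : Type u} [Group G] [Finite G] {ι : T0 →* G}

theorem TU.sylT (h : TU ι) : IsSylowOf 2 (sT ι) ⊤ := by
  refine sylow_mk le_top ?_ ?_
  · have : Nat.card (sT ι) = 2 ^ 10 := by
      rw [← Nat.card_congr (MonoidHom.ofInjective h.inj).toEquiv, T0.card]; norm_num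
    change PiNat _ _
    rw [this]; exact piNat_self_pow Nat.prime_two 10
  · rw [relIndex_top_right, ← even_iff_two_dvd, Nat.not_even_iff_odd]; exact h.odd

theorem FA.T_normA (h : FA ι) : sT ι ≤ 𝒩(sA ι) :=
  (h.two _ ((pGrp_iff_isPGroup Nat.prime_two).1 h.toTU.sylT.piGrp) (map_le_range _ _)).1

theorem A0_le_R0 : A0 ≤ R0 := fun _ h => h.1

omit [Finite G] in
theorem TU.R_eq (h : TU ι) : sT ι ⊓ 𝒞(sA ι) = sR ι := by
  ext x
  constructor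
  · rintro ⟨⟨x, rfl⟩, hx⟩
    refine mem_map_of_mem _ (R0_cent.2 fun a ha => h.inj ?_)
    rw [map_mul, map_mul]
    exact mem_centralizer_iff.1 hx _ (mem_map_of_mem _ ha)
  · rintro ⟨x, hx, rfl⟩
    refine ⟨⟨x, rfl⟩, mem_centralizer_iff.2 ?_⟩
    rintro _ ⟨a, ha, rfl⟩
    rw [← map_mul, ← map_mul, R0_cent.1 hx a ha]

theorem FA.sylR (h : FA ι) : IsSylowOf 2 (sR ι) 𝒞(sA ι) := by
  rw [← h.toTU.R_eq]
  exact (h.toTU.sylT.of_le h.T_normA le_top).inf_normal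
    ⟨centralizer_le_normalizer _, norm_cent le_rfl⟩

omit [Finite G] in
theorem TU.conj_sq (h : TU ι) {n : G} {x x' y : T0} (e : ι x' = n * ι x * n⁻¹) (c : Commute n (ι y))
    (s : x * x = y) : x' * x' = y := by
  apply h.inj
  rw [map_mul, e]
  calc n * ι x * n⁻¹ * (n * ι x * n⁻¹) = n * ι (x * x) * n⁻¹ := by rw [map_mul]; group
    _ = ι y := by rw [s, c.eq]; group

theorem TU.normR_le (h : TU ι) : 𝒩(sR ι) ≤ 𝒩(sA ι) := fun n hn => mem_norm_of_forall <| by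
  rintro _ ⟨x, hx, rfl⟩
  obtain ⟨x', hx', e⟩ := conj_mem_of_mem_norm hn (mem_map_of_mem ι (A0_le_R0 hx))
  exact ⟨x', (A0_iff x').2 ⟨hx', h.conj_sq e (by simp) ((A0_iff x).1 hx).2⟩, e⟩

theorem FA.cA (m : MG.{u}) (h : FA ι) : 𝒞(sA ι) ≤ O 𝒞(sA ι) ⊔ 𝒩(sR ι) := by
  refine cA_abs m (map_mono A0_le_R0) le_rfl h.sylR ?_ ?_ ?_ ?_ ?_
  · rintro _ ⟨a, ha, rfl⟩
    rw [← map_mul, ((A0_iff a).1 ha).2, map_one]
  · rintro _ ⟨x, hx, rfl⟩
    rw [← map_mul]; exact mem_map_of_mem _ (R0_sqA x hx)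
  · rw [relIndex_map_map_of_injective _ _ h.inj]; exact A0_relIndex
  · refine ⟨ι (T0.mk' 0 1 0 0 false false), mem_map_of_mem _ rfl, ι (T0.mk' 0 0 1 0 false false),
      mem_map_of_mem _ rfl, ?_, ?_, ?_⟩
    · rw [mem_map_iff_mem h.inj]; decide +kernel
    · rw [mem_map_iff_mem h.inj]; decide +kernel
    · rw [← map_mul, ← map_mul, h.inj.ne_iff]; decide +kernel
  · rintro n hC hn _ ⟨w, hw, rfl⟩ hA e _ ⟨x, hx, rfl⟩
    have tot : ∀ x ∈ R0, ∃ x' ∈ R0, ι x' = n * ι x * n⁻¹ := fun x hx =>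
      conj_mem_of_mem_norm hn (mem_map_of_mem ι hx)
    obtain ⟨w', hw', ew⟩ := tot w hw
    obtain ⟨x', hx', ex⟩ := tot x hx
    rw [← ew, ← map_inv, ← map_mul, mem_map_iff_mem h.inj] at e
    rw [mem_map_iff_mem h.inj] at hA
    rw [← ex, ← map_inv, ← map_mul, mem_map_iff_mem h.inj]
    refine rel_key (fun x x' => ι x' = n * ι x * n⁻¹) tot ?_ ?_ hw hw' hA ew e hx hx' ex
    · intro x x' y y' e1 e2
      rw [map_mul, map_mul, e1, e2]; group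
    · intro x hx x' e1
      exact (h.toTU.conj_sq e1 (mem_centralizer_iff.1 hC _ (mem_map_of_mem _ (R0_sqA x hx))).symm rfl).symm

theorem FA.nA (m : MG.{u}) (h : FA ι) : 𝒩(sA ι) ≤ O 𝒞(sA ι) ⊔ 𝒩(sR ι) := by
  rw [← frattini_arg (M := 𝒩(sA ι)) Nat.prime_two ⟨centralizer_le_normalizer _, norm_cent le_rfl⟩ h.sylR]
  exact sup_le (h.cA m) (le_sup_of_le_right inf_le_right)

theorem FA.centR (m : MG.{u}) (h : FA ι) : 𝒞(sR ι) ≤ O 𝒞(sA ι) ⊔ sT ι := by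
  have le : 𝒞(sR ι) ≤ 𝒞(sA ι) := centralizer_le (map_mono A0_le_R0)
  have nR : 𝒩(sR ι) ≤ 𝒩(𝒞(sR ι)) := norm_cent le_rfl
  have s : IsSylowOf 2 (sR ι ⊓ 𝒞(sR ι)) 𝒞(sR ι) := h.sylR.inf_of_norm le (.inl (le_normalizer.trans nR))
  refine (burn s (inf_le_left.trans (centralizer_le inf_le_left))).trans
    (sup_le_sup ?_ (inf_le_left.trans (map_le_range _ _)))
  have n1 : 𝒩(sR ι) ≤ 𝒩(O 𝒞(sA ι)) := norm_pcore _ (norm_cent h.toTU.normR_le)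
  have n2 : 𝒩(sR ι) ≤ 𝒩(O 𝒞(sR ι)) := norm_pcore _ nR
  refine le_sup_right.trans (pcore_max (K := O 𝒞(sA ι) ⊔ O 𝒞(sR ι))
    ⟨sup_le (pcore_le _ _) ((pcore_le _ _).trans le),
      (h.cA m).trans (sup_le (norm_of_le le_sup_left) (norm_sup n1 n2))⟩ ?_)
  exact ((pcore_piGrp _ _).mul (pcore_piGrp _ _)).of_dvd
    (card_sup_dvd (.inr ((pcore_le _ _).trans (le.trans (pcore_norm _ _)))))

theorem FA.nT (m : MG.{u}) (h : FA ι) : 𝒩(sA ι) ⊓ 𝒞[z ι] ≤ O 𝒞(sA ι) ⊔ 𝒩(sT ι) := by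
  have hz : ∀ {n : G}, n ∈ 𝒞[z ι] → Commute n (z ι) := fun hn => (mem_centralizer_iff.1 hn _ rfl).symm
  have oz : O 𝒞(sA ι) ≤ 𝒞[z ι] := (pcore_le _ _).trans
    (centralizer_le (Set.singleton_subset_iff.2 (mem_map_of_mem ι (e0_A 4))))
  have n1 : 𝒩(sR ι) ≤ 𝒩(O 𝒞(sA ι)) := norm_pcore _ (norm_cent h.toTU.normR_le)
  refine (inf_le_inf_right _ (h.nA m)).trans ?_
  rw [inf_comm, inf_sup_of_left_le (.inr n1) oz]
  refine sup_le le_sup_left ?_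
  set L := 𝒞[z ι] ⊓ 𝒩(sR ι) with hL
  have l1 : L ≤ 𝒩(sR ι) := inf_le_right
  have l3 : L ≤ 𝒩(sA ι) := l1.trans h.toTU.normR_le
  have l2 : L ≤ 𝒩(Z0.map ι) := fun n hn => mem_norm_of_forall <| by
    rintro _ ⟨x, hx, rfl⟩
    obtain ⟨h1, h2⟩ := (Z0_iff x).1 hx
    obtain ⟨x', hx', e⟩ := conj_mem_of_mem_norm hn.2 (mem_map_of_mem ι h1)
    exact ⟨x', (Z0_iff x').2 ⟨hx', h2.imp (h.toTU.conj_sq e (by simp)) (h.toTU.conj_sq e (hz hn.1))⟩, e⟩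
  have l4 : L ≤ 𝒩(B0.map ι) := fun n hn => mem_norm_of_forall <| by
    rintro _ ⟨x, hx, rfl⟩
    have c : n * z ι * n⁻¹ = z ι := by rw [(hz hn.1).eq]; group
    have k : ∀ i, i ≠ 4 → ∃ j, j ≠ 4 ∧ n * e ι i * n⁻¹ = e ι j := fun i hi => by
      obtain ⟨j, hj⟩ := h.perm n (l3 hn) i
      refine ⟨j, fun h4 => hi ?_, hj⟩
      rw [h4] at hj
      have : e ι i = z ι := mul_left_cancel (mul_right_cancel (hj.trans c.symm))
      exact e0_inj (h.inj this)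
    rcases (B0_iff x).1 hx with rfl | ⟨i, j, hi, hj, rfl⟩
    · exact ⟨_, hx, c.symm⟩
    · obtain ⟨i', hi', e1⟩ := k i hi
      obtain ⟨j', hj', e2⟩ := k j hj
      refine ⟨e0 i' * e0 j', (B0_iff _).2 (.inr ⟨i', j', hi', hj', rfl⟩), ?_⟩
      rw [map_mul, map_mul]
      change e ι i' * e ι j' = n * (e ι i * e ι j) * n⁻¹
      rw [← e1, ← e2]; group
  have cz : 𝒞[z ι] ≤ 𝒞((zpowers (e0 4)).map ι) := fun n hn => mem_centralizer_iff.2 <| by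
    rintro _ ⟨_, ⟨k, rfl⟩, rfl⟩
    rw [map_zpow]
    exact ((hz hn).zpow_right k).symm
  have l5 : L ≤ 𝒩((zpowers (e0 4)).map ι) := inf_le_left.trans (cz.trans (centralizer_le_normalizer _))
  have TL : sT ι ≤ L := by
    rintro _ ⟨t, rfl⟩
    refine ⟨mem_centralizer_iff.2 ?_, ?_⟩
    · rintro _ rfl
      change ι _ * _ = _ * ι _
      rw [← map_mul, ← map_mul, z_central]
    · rw [← h.toTU.R_eq]
      exact norm_inf le_normalizer (norm_cent h.T_normA) ⟨t, rfl⟩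
  have st : ∀ {V U : Subgroup T0}, L ≤ 𝒩(U.map ι) → (∀ t, ∀ x ∈ V, x⁻¹ * (t * x * t⁻¹) ∈ U) →
      sT ι ≤ stab (V.map ι) (U.map ι) := by
    rintro V U hU hs _ ⟨t, rfl⟩
    refine ⟨hU (TL ⟨t, rfl⟩), ?_⟩
    rintro _ ⟨x, hx, rfl⟩
    exact ⟨_, hs t x hx, by simp⟩
  have p4 : ∀ {U : Subgroup T0}, U ≤ R0 → ∀ u ∈ U.map ι, u ^ 4 = 1 := by
    rintro U hU _ ⟨x, hx, rfl⟩
    rw [← map_pow, show x ^ 4 = x * x * (x * x) by rw [← pow_two, ← pow_two, ← pow_mul], R0_pow x (hU hx),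
      map_one]
  set S := L ⊓ stab (sR ι) (Z0.map ι) ⊓ stab (Z0.map ι) (sA ι) ⊓ stab (sA ι) (B0.map ι) ⊓
    stab (B0.map ι) ((zpowers (e0 4)).map ι) with hS
  have SL : S ≤ L := inf_le_left.trans (inf_le_left.trans (inf_le_left.trans inf_le_left))
  have nS : L ≤ 𝒩(S) := norm_inf (norm_inf (norm_inf (norm_inf le_normalizer (norm_stab l1 l2))
    (norm_stab l2 l3)) (norm_stab l3 l4)) (norm_stab l4 l5)
  have TS : sT ι ≤ S := le_inf (le_inf (le_inf (le_inf TL (st l2 fun t _ => st1 t)) (st l3 fun t _ => st2 t))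
    (st l4 fun t _ => st3 t)) (st l5 fun t _ => st4 t)
  have sS : IsSylowOf 2 (sT ι) S := h.toTU.sylT.of_le TS le_top
  rw [← frattini_arg Nat.prime_two ⟨SL, nS⟩ sS]
  refine sup_le ((le_sup_of_odd (K := 𝒞(sR ι)) sS ?_).trans ?_) (le_sup_of_le_right inf_le_right)
  · rintro n ⟨⟨⟨⟨hn, s1⟩, s2⟩, s3⟩, s4⟩ ho
    exact stab_odd s1 ho (p4 fun _ hx => hx.1) (stab_odd s2 ho (p4 A0_le_R0)
      (stab_odd s3 ho (p4 fun _ hx => hx.1.1) (stab_odd s4 ho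
        (p4 (zpowers_le_of_mem (A0_le_R0 (e0_A 4)))) (cz hn.1))))
  · exact sup_le ((h.centR m).trans (sup_le_sup_left le_normalizer _)) (le_sup_of_le_right le_normalizer)

theorem fb (m : MG.{u}) (h : FA ι) : FB ι := ⟨h, h.cA m, h.nA m, h.nT m⟩

end CA.U5
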