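/-
Z* modulo a central 2-subgroup, and odd cores.
-/
import Cfsg.Agent.U5.Defs

set_option autoImplicit false

open Cfsg CA.FG Subgroup

namespace CA.U5

universe u

variable {G : Type u} [Group G] [Finite G]

omit [Finite G] in
theorem z0_zp2 {t x : G} (h : t * t = 1) : x ∈ zpowers t ↔ x = 1 ∨ x = t := by
  refine ⟨fun hx => CA.Fi.mem_zpowers_of_sq h hx, ?_⟩
  rintro (rfl | rfl)
  exacts [one_mem _, mem_zpowers _]

theorem O_le_of_sup {X Y : Subgroup G} (YX : Y ≤ X) (h : X ≤ O X ⊔ Y) : O Y ≤ O X := by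
  have n1 : Y ≤ 𝒩(O X ⊔ O Y) := norm_sup (YX.trans (pcore_norm _ _)) (pcore_norm _ _)
  have n : X ≤ 𝒩(O X ⊔ O Y) := h.trans (sup_le (norm_of_le le_sup_left) n1)
  refine le_sup_right.trans (pcore_max ⟨sup_le (pcore_le _ _) ((pcore_le _ _).trans YX), n⟩ ?_)
  exact (pcore_piGrp _ _).sup (pcore_piGrp _ _) (Or.inr (((pcore_le _ _).trans YX).trans (pcore_norm _ _)))

/-- Z* modulo a central 2-subgroup -/
theorem zs_mod {B H : Subgroup G} {x : G} (pB : IsPGrp 2 B) (BH : B ≤ H) (HB : H ≤ 𝒞(B)) (xH : x ∈ H)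
    (xB : x ∉ B) (x2 : x * x ∈ B)
    (iso : ∀ g ∈ H, (x * (g * x * g⁻¹))⁻¹ * ((g * x * g⁻¹) * x) ∈ B → x⁻¹ * (g * x * g⁻¹) ∈ B)
    {g : G} (hg : g ∈ H) : ∃ l ∈ O H, ∃ n ∈ H, g = l * n ∧ x⁻¹ * (n * x * n⁻¹) ∈ B := by
  have HN : H ≤ 𝒩(B) := norm_of_cent HB
  have nB : B ⊲ H := ⟨BH, HN⟩
  set t : Coset B := coset B ⟨x, HN xH⟩ with ht
  have t1 : t ≠ 1 := fun e => xB (coset_eq_one_iff.1 e)
  have t2 : t * t = 1 := by
    rw [ht, ← map_mul]; exact coset_eq_one_iff.2 x2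
  have ot : orderOf t = 2 := orderOf_eq_prime (by rw [pow_two, t2]) t1
  obtain ⟨k, hk, e⟩ := CA.Blk.Zstar_of (H := H /ₛ B) ot (mem_quot_of_mem _ xH) (fun y hy hc => by
    obtain ⟨y, yH, rfl⟩ := mem_quot.1 hy
    have hc' := hc.eq
    rw [ht, ← map_inv, ← map_mul, ← map_mul, ← map_mul, ← map_mul, coset_eq_iff] at hc'
    rw [ht, ← map_inv, ← map_mul, ← map_mul, eq_comm, coset_eq_iff]
    exact iso y yH hc') (mem_quot_of_mem (HN hg) hg)
  set K := quotPre B (pPrimeCoreOf 2 (H /ₛ B)) with hK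
  have KH : K ⊲ H := quotPre_normalIn_of nB (pcore_normal _ _)
  have hS : IsPiHallOf {2} B K := pHall_mk (le_quotPre _) pB (by
    rw [hK, relIndex_quotPre_self]; exact pcore_piGrp _ _)
  obtain ⟨L, hL⟩ := hS.exists_sdprod (KH.1.trans HN)
  have hL' := hL.complIn.pHall_compl hS
  have LH : L ≤ H := hL.right_le.trans KH.1
  have BL : B ≤ 𝒩(L) := norm_of_cent' (LH.trans HB)
  have KL : K ≤ 𝒩(L) := by rw [← hL.sup_eq]; exact sup_le BL le_normalizer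
  have LO : L ≤ O H := by rw [← hL'.pcore_eq KL]; exact KH.pcore_le _
  obtain ⟨k, kH, rfl⟩ := mem_quot.1 (pcore_le _ _ hk)
  have kK : (k : G) ∈ B ⊔ L := by rw [hL.sup_eq]; exact coe_mem_quotPre.2 hk
  obtain ⟨l, hl, b, hb, e2⟩ := (mem_sup_of_left_le_norm' BL).1 kK
  rw [ht, ← map_inv, ← map_inv, ← map_mul, ← map_mul, ← map_mul, ← map_mul, eq_comm, coset_eq_iff] at e
  have e' : ((k : G) * x * (k : G)⁻¹)⁻¹ * (g * x * g⁻¹) ∈ B := e
  have cb : b * x * b⁻¹ = x := by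
    have := comm_of_le_cent HB xH hb
    rw [← this]; group
  refine ⟨l, LO hl, l⁻¹ * g, H.mul_mem (H.inv_mem (LH hl)) hg, by group, ?_⟩
  have := conj_mem_of_le_norm' HN (LH hl) e'
  rw [← e2] at this
  convert this using 1
  calc x⁻¹ * (l⁻¹ * g * x * (l⁻¹ * g)⁻¹) = (b * x * b⁻¹)⁻¹ * (l⁻¹ * g * x * (l⁻¹ * g)⁻¹) := by rw [cb]
  _ = _ := by group

omit [Finite G] in
theorem exists_fixmod {B H : Subgroup G} (HB : H ≤ 𝒞(B)) (x : G) :
    ∃ N : Subgroup G, ∀ n, n ∈ N ↔ n ∈ H ∧ x⁻¹ * (n * x * n⁻¹) ∈ B := by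
  have c : ∀ n ∈ H, ∀ b ∈ B, n * b * n⁻¹ = b := fun n hn b hb => by
    rw [comm_of_le_cent HB hn hb]; group
  refine ⟨⟨⟨⟨{n | n ∈ H ∧ x⁻¹ * (n * x * n⁻¹) ∈ B}, ?_⟩, ?_⟩, ?_⟩, fun n => Iff.rfl⟩
  · rintro n m ⟨hn, h1⟩ ⟨hm, h2⟩
    refine ⟨H.mul_mem hn hm, ?_⟩
    have := B.mul_mem h1 h2
    rw [← c n hn _ h2] at this
    convert this using 1; group
  · exact ⟨H.one_mem, by simp⟩
  · rintro n ⟨hn, h1⟩
    refine ⟨H.inv_mem hn, ?_⟩
    have := B.inv_mem h1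
    rw [← c _ (H.inv_mem hn) _ this] at this
    convert this using 1; group

variable {ι : T0 →* G}

omit [Finite G] in
theorem z0_eA (i : Fin 5) : e ι i ∈ sA ι := mem_map_of_mem _ (e0_A i)

omit [Finite G] in
theorem z0_esq (i : Fin 5) : e ι i * e ι i = 1 := by rw [← map_mul, e0_sq, map_one]

omit [Finite G] in
theorem z0_einv (i : Fin 5) : (e ι i)⁻¹ = e ι i := inv_eq_of_mul_eq_one_right (z0_esq i)

theorem z0_A0_comm : ∀ x ∈ A0, ∀ y ∈ A0, x * y = y * x := by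
  have : ∀ x : T0, x ∈ A0 → ∀ y : T0, y ∈ A0 → x * y = y * x := by
    intro x hx y hy
    obtain ⟨h1, h2, h3⟩ := hx
    obtain ⟨k1, k2, k3⟩ := hy
    ext <;> simp [T0.mul_a, T0.mul_b, T0.mul_c, T0.mul_d, T0.mul_f, T0.mul_g, *, add_comm]
  exact this

theorem z0_A0_sq : ∀ x ∈ A0, x * x = 1 := by decide +kernel

omit [Finite G] in
theorem z0_AA : sA ι ≤ 𝒞(sA ι) := by
  rw [le_cent_iff_forall]
  rintro _ ⟨x, hx, rfl⟩ _ ⟨y, hy, rfl⟩
  rw [← map_mul, ← map_mul, z0_A0_comm x hx y hy]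

omit [Finite G] in
theorem z0_Asq {x : G} (hx : x ∈ sA ι) : x * x = 1 := by
  obtain ⟨x, hx, rfl⟩ := hx
  rw [← map_mul, z0_A0_sq x hx, map_one]

theorem z0_pA : IsPGrp 2 (sA ι) :=
  pGrp_of_forall_pow (k := 1) Nat.prime_two fun x hx => by rw [pow_one, pow_two, z0_Asq hx]

omit [Finite G] in
theorem FA.conj_z (h : FA ι) (i : Fin 5) : ∃ s, s * z ι * s⁻¹ = e ι i := by
  obtain ⟨j, k, h1, h2, h3⟩ := (show ∀ i : Fin 5, ∃ j k, i ≠ j ∧ i ≠ k ∧ j ≠ k by decide) i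
  obtain ⟨n, -, e1, -⟩ := h.tr3 4 0 1 i j k (by decide) (by decide) (by decide) h1 h2 h3
  exact ⟨n, e1⟩

/-- a conjugate of a transvection lying in a 2-group containing `A` is one of the `e k` -/
theorem FA.conj_e (h : FA ι) {P : Subgroup G} (pP : IsPGrp 2 P) (AP : sA ι ≤ P) {i : Fin 5} {g : G}
    (hg : g * e ι i * g⁻¹ ∈ P) : ∃ k, g * e ι i * g⁻¹ = e ι k := by
  obtain ⟨s, hs⟩ := h.conj_z i
  have e1 : g * e ι i * g⁻¹ = (g * s) * z ι * (g * s)⁻¹ := by rw [← hs]; group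
  rw [e1] at hg ⊢
  exact (h.two P (pP.isPGroup Nat.prime_two) AP).2 _ hg

/-- Z* for a transvection modulo a central subgroup of `A` -/
theorem FA.zs (h : FA ι) {B H : Subgroup G} (BA : B ≤ sA ι) (AH : sA ι ≤ H) (HB : H ≤ 𝒞(B)) {i : Fin 5}
    (iB : e ι i ∉ B) (hk : ∀ g ∈ H, ∀ k, g * e ι i * g⁻¹ = e ι k → (e ι i)⁻¹ * e ι k ∈ B)
    {g : G} (hg : g ∈ H) : ∃ l ∈ O H, ∃ n ∈ H, g = l * n ∧ ∃ k, n * e ι i * n⁻¹ = e ι k := by
  obtain ⟨l, hl, n, hn, e1, e2⟩ := zs_mod (z0_pA.of_le BA) (BA.trans AH) HB (AH (z0_eA i)) iB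
    (by rw [z0_esq]; exact B.one_mem) (fun g hg hc => by
      obtain ⟨N, hN⟩ := exists_fixmod HB (e ι i)
      have AN : sA ι ≤ N := fun a ha => (hN a).2 ⟨AH ha, by
        rw [comm_of_le_cent z0_AA ha (z0_eA i)]; simp⟩
      set y := g * e ι i * g⁻¹ with hy
      have yH : y ∈ H := H.mul_mem (H.mul_mem hg (AH (z0_eA i))) (H.inv_mem hg)
      have y2 : y * y = 1 := by
        calc _ = g * (e ι i * e ι i) * g⁻¹ := by rw [hy]; group
        _ = 1 := by rw [z0_esq]; group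
      have yi : y⁻¹ = y := inv_eq_of_mul_eq_one_right y2
      have yN : y ∈ N := (hN y).2 ⟨yH, by
        have := B.inv_mem hc
        have e3 : ((e ι i * y)⁻¹ * (y * e ι i))⁻¹ = (e ι i)⁻¹ * (y⁻¹ * e ι i * y) := by group
        rw [e3, yi] at this
        rwa [yi]⟩
      obtain ⟨P, hP, AP⟩ := sylow_superset Nat.prime_two z0_pA AN
      obtain ⟨m, mN, hm⟩ := sylow_Jsub Nat.prime_two hP (Q := zpowers y)
        (pGrp_of_forall_pow (k := 1) Nat.prime_two fun x hx => by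
          rcases (z0_zp2 y2).1 hx with rfl | rfl
          · simp
          · rw [pow_one, pow_two, y2]) (zpowers_le.2 yN)
      rw [conjg_zpowers, zpowers_le] at hm
      have e4 : m * y * m⁻¹ = (m * g) * e ι i * (m * g)⁻¹ := by rw [hy]; group
      rw [e4] at hm
      obtain ⟨k, e5⟩ := h.conj_e hP.piGrp AP hm
      have mH := ((hN m).1 mN).1
      have h1 := hk _ (H.mul_mem mH hg) k e5
      rw [← e5, ← e4] at h1
      have h2 := ((hN _).1 (N.inv_mem mN)).2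
      have h3 := conj_mem_of_le_norm' (norm_of_cent HB) mH h1
      have := B.mul_mem h2 h3
      convert this using 1; group) hg
  refine ⟨l, hl, n, hn, e1, h.conj_e z0_pA le_rfl ?_⟩
  have := (sA ι).mul_mem (z0_eA i) (BA e2)
  simpa using this

end CA.U5
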