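/-
Package P3: the centralizers of the products of two transvections.
-/
import Cfsg.Agent.U5.Z0

set_option autoImplicit false

open Cfsg CA.FG Subgroup

namespace CA.U5

universe u

variable {G : Type u} [Group G] [Finite G] {ι : T0 →* G}

theorem fc_pair : ∀ i j k l : Fin 5, i ≠ j → e0 k * e0 l = e0 i * e0 j → (k = i ∧ l = j) ∨ (k = j ∧ l = i) := by
  decide +kernel

theorem fc_ne : ∀ i j : Fin 5, i ≠ j → e0 i ≠ e0 i * e0 j ∧ ∀ k, e0 i * e0 j ≠ e0 k := by decide +kernel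

theorem fc_five : ∀ i j : Fin 5, i ≠ j → i ≠ 4 → j ≠ 4 → ∃ k l, k ≠ l ∧ k ≠ 4 ∧ l ≠ 4 ∧
    e0 k * e0 l = e0 i * e0 j * e0 4 ∧ (∀ m, m = i ∨ m = j ∨ m = 4 ∨ m = k ∨ m = l) ∧
    k ≠ i ∧ k ≠ j ∧ l ≠ i ∧ l ≠ j ∧ ∀ a b c : Bool,
      e0 k ≠ (bif a then e0 i else 1) * (bif b then e0 j else 1) * (bif c then e0 4 else 1) := by
  decide +kernel

omit [Finite G] in
theorem fc_comm (i j : Fin 5) : e ι i * e ι j = e ι j * e ι i := comm_of_le_cent z0_AA (z0_eA i) (z0_eA j)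

omit [Finite G] in
theorem fc_usq (i j : Fin 5) : (e ι i * e ι j) * (e ι i * e ι j) = 1 :=
  z0_Asq ((sA ι).mul_mem (z0_eA i) (z0_eA j))

theorem FA.swap (h : FA ι) {i j k : Fin 5} (ij : i ≠ j) {g : G} (hg : g ∈ 𝒞[e ι i * e ι j])
    (e1 : g * e ι i * g⁻¹ = e ι k) : (k = i ∧ g * e ι j * g⁻¹ = e ι j) ∨ (k = j ∧ g * e ι j * g⁻¹ = e ι i) := by
  have c : g * (e ι i * e ι j) * g⁻¹ = e ι i * e ι j := by
    rw [mem_centralizer_singleton_iff.1 hg]; group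
  have e2 : g * e ι j * g⁻¹ = (e ι k)⁻¹ * (e ι i * e ι j) := by rw [← e1, ← c]; group
  obtain ⟨l, e3⟩ := h.conj_e z0_pA le_rfl (i := j) (g := g) (by
    rw [e2]; exact (sA ι).mul_mem ((sA ι).inv_mem (z0_eA k)) ((sA ι).mul_mem (z0_eA i) (z0_eA j)))
  have e4 : e0 k * e0 l = e0 i * e0 j := h.inj (by
    rw [map_mul, map_mul]
    change e ι k * e ι l = e ι i * e ι j
    rw [← e3, e2]; group)
  rcases fc_pair i j k l ij e4 with ⟨rfl, rfl⟩ | ⟨rfl, rfl⟩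
  exacts [Or.inl ⟨rfl, e3⟩, Or.inr ⟨rfl, e3⟩]

theorem FA.ca_gen (h : FA ι) {i j : Fin 5} (ij : i ≠ j) {H : Subgroup G} (AH : sA ι ≤ H)
    (Hu : H ≤ 𝒞[e ι i * e ι j]) {g : G} (hg : g ∈ H) : ∃ l ∈ O H, ∃ n ∈ H, g = l * n ∧
      ((n * e ι i * n⁻¹ = e ι i ∧ n * e ι j * n⁻¹ = e ι j) ∨ (n * e ι i * n⁻¹ = e ι j ∧ n * e ι j * n⁻¹ = e ι i)) := by
  obtain ⟨l, hl, n, hn, e1, k, e2⟩ := h.zs (B := zpowers (e ι i * e ι j)) (i := i)
    (zpowers_le.2 ((sA ι).mul_mem (z0_eA i) (z0_eA j))) AH (by rwa [cent_zpowers]) (fun hi => by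
      rcases (z0_zp2 (fc_usq i j)).1 hi with e1 | e1
      · exact e0_ne i (h.inj (by rw [map_one]; exact e1))
      · exact (fc_ne i j ij).1 (h.inj (by rw [map_mul]; exact e1)))
    (fun g hg k e1 => by
      rcases h.swap ij (Hu hg) e1 with ⟨rfl, -⟩ | ⟨rfl, -⟩
      · simp
      · rw [z0_einv]; exact mem_zpowers _) hg
  refine ⟨l, hl, n, hn, e1, ?_⟩
  rcases h.swap ij (Hu hn) e2 with ⟨rfl, e3⟩ | ⟨rfl, e3⟩
  exacts [Or.inl ⟨e2, e3⟩, Or.inr ⟨e2, e3⟩]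

omit [Finite G] in
theorem fc_norm2 {n x y : G} (h : (n * x * n⁻¹ = x ∧ n * y * n⁻¹ = y) ∨ (n * x * n⁻¹ = y ∧ n * y * n⁻¹ = x)) :
    (zpowers x ⊔ zpowers y) :^ n = zpowers x ⊔ zpowers y := by
  rw [conjg_sup, conjg_zpowers, conjg_zpowers]
  rcases h with ⟨h1, h2⟩ | ⟨h1, h2⟩ <;> rw [h1, h2]
  exact sup_comm _ _

omit [Finite G] in
theorem fc_cent {n x : G} : n ∈ 𝒞[x] ↔ n * x * n⁻¹ = x := by
  rw [mem_centralizer_singleton_iff, mul_inv_eq_iff_eq_mul]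

theorem FA.ca' (h : FA ι) {i j : Fin 5} (ij : i ≠ j) :
    𝒞[e ι i * e ι j] ≤ O 𝒞[e ι i * e ι j] ⊔ (𝒩(zpowers (e ι i) ⊔ zpowers (e ι j)) ⊓ 𝒞[e ι i * e ι j]) := by
  intro g hg
  obtain ⟨l, hl, n, hn, rfl, e1⟩ := h.ca_gen ij
    (z0_AA.trans (cent_le_cent_singleton ((sA ι).mul_mem (z0_eA i) (z0_eA j)))) le_rfl hg
  exact mul_mem_sup hl ⟨mem_norm_of_conjg_le (fc_norm2 e1).le, hn⟩

/-- the centralizer of three transvections -/
theorem FA.c3 (h : FA ι) {i j : Fin 5} (ij : i ≠ j) (i4 : i ≠ 4) (j4 : j ≠ 4) :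
    𝒞(zpowers (e ι i) ⊔ zpowers (e ι j) ⊔ zpowers (z ι)) ≤
      O 𝒞(zpowers (e ι i) ⊔ zpowers (e ι j) ⊔ zpowers (z ι)) ⊔ 𝒞(sA ι) := by
  obtain ⟨k, l, kl, k4, l4, p, al, ki, kj, li, lj, nk⟩ := fc_five i j ij i4 j4
  set B := zpowers (e ι i) ⊔ zpowers (e ι j) ⊔ zpowers (z ι) with hB
  have BA : B ≤ sA ι := sup_le (sup_le (zpowers_le.2 (z0_eA i)) (zpowers_le.2 (z0_eA j))) (zpowers_le.2 (z0_eA 4))
  have iB : e ι i ∈ B := mem_sup_left (mem_sup_left (mem_zpowers _))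
  have jB : e ι j ∈ B := mem_sup_left (mem_sup_right (mem_zpowers _))
  have zB : e ι 4 ∈ B := mem_sup_right (mem_zpowers _)
  have nA : ∀ X : Subgroup G, X ≤ sA ι → ∀ Y : Subgroup G, Y ≤ sA ι → X ≤ 𝒩(Y) := fun X hX Y hY =>
    norm_of_cent (hX.trans (z0_AA.trans (cent_anti hY)))
  have fx : ∀ g ∈ 𝒞(B), ∀ x ∈ B, g * x * g⁻¹ = x := fun g hg x hx => fc_cent.1 (cent_le_cent_singleton hx hg)
  have key : ∀ g ∈ 𝒞(B), ∀ m, g * e ι k * g⁻¹ = e ι m → m = k ∨ m = l := fun g hg m e1 => by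
    have : ∀ r, e ι r ∈ B → k ≠ r → m ≠ r := fun r hr kr mr => by
      rw [mr, ← fx g hg _ hr] at e1
      exact kr (e0_inj (h.inj (by simpa using e1)))
    rcases al m with r | r | r | r
    exacts [absurd r (this i iB ki), absurd r (this j jB kj), absurd r (this 4 zB k4), r]
  have pl : e ι k * e ι l = e ι i * e ι j * e ι 4 := by rw [← map_mul, p, map_mul, map_mul]
  intro g hg
  obtain ⟨o, ho, n, hn, rfl, m, e2⟩ := h.zs (i := k) BA (z0_AA.trans (cent_anti BA)) le_rfl (fun hk => by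
      obtain ⟨x, hx, c, hc, e1⟩ := (mem_sup_of_left_le_norm (nA _ (le_sup_left.trans BA) _ (le_sup_right.trans BA))).1 hk
      obtain ⟨a, ha, b, hb, rfl⟩ := (mem_sup_of_left_le_norm
        (nA _ (zpowers_le.2 (z0_eA i)) _ (zpowers_le.2 (z0_eA j)))).1 hx
      have t : ∀ r, ∀ x ∈ zpowers (e ι r), ∃ a : Bool, x = ι (bif a then e0 r else 1) := fun r x hx => by
        rcases (z0_zp2 (z0_esq r)).1 hx with rfl | rfl
        exacts [⟨false, by simp⟩, ⟨true, rfl⟩]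
      obtain ⟨a, rfl⟩ := t i a ha
      obtain ⟨b, rfl⟩ := t j b hb
      obtain ⟨c, rfl⟩ := t 4 c hc
      exact nk a b c (h.inj (by rw [map_mul, map_mul]; exact e1.symm)))
    (fun g hg m e1 => by
      rcases key g hg m e1 with rfl | rfl
      · simp
      · rw [z0_einv, pl]; exact B.mul_mem (B.mul_mem iB jB) zB) hg
  refine mul_mem_sup ho (h.ev n ?_ i j 4 ij i4 j4 ?_ ?_ ?_)
  · have el : e ι l = (e ι k)⁻¹ * (e ι i * e ι j * e ι 4) := by rw [← pl]; group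
    have ce : ∀ r, n * e ι r * n⁻¹ ∈ sA ι := fun r => by
      rcases al r with rfl | rfl | rfl | rfl | rfl
      · rw [fx n hn _ iB]; exact z0_eA _
      · rw [fx n hn _ jB]; exact z0_eA _
      · rw [fx n hn _ zB]; exact z0_eA _
      · rw [e2]; exact z0_eA _
      · have : n * e ι r * n⁻¹ = (n * e ι k * n⁻¹)⁻¹ * (n * (e ι i * e ι j * e ι 4) * n⁻¹) := by
          rw [el]; group
        rw [this, e2, fx n hn _ (B.mul_mem (B.mul_mem iB jB) zB)]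
        exact (sA ι).mul_mem ((sA ι).inv_mem (z0_eA _)) (BA (B.mul_mem (B.mul_mem iB jB) zB))
    refine mem_norm_of_forall ?_
    rintro _ ⟨x, hx, rfl⟩
    rcases A0_elts x hx with rfl | ⟨r, rfl⟩ | ⟨r, s, -, rfl⟩
    · simp
    · exact ce r
    · have := (sA ι).mul_mem (ce r) (ce s)
      rw [map_mul]
      convert this using 1; group
  · exact mem_centralizer_singleton_iff.1 (cent_le_cent_singleton iB hn)
  · exact mem_centralizer_singleton_iff.1 (cent_le_cent_singleton jB hn)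
  · exact mem_centralizer_singleton_iff.1 (cent_le_cent_singleton zB hn)

theorem FA.normA_of_conj (h : FA ι) {n : G} (ce : ∀ r, n * e ι r * n⁻¹ ∈ sA ι) : n ∈ 𝒩(sA ι) := by
  refine mem_norm_of_forall ?_
  rintro _ ⟨x, hx, rfl⟩
  rcases A0_elts x hx with rfl | ⟨r, rfl⟩ | ⟨r, s, -, rfl⟩
  · simp
  · exact ce r
  · have := (sA ι).mul_mem (ce r) (ce s)
    rw [map_mul]
    convert this using 1; group

theorem FA.nTA (h : FA ι) : 𝒩(sT ι) ≤ 𝒩(sA ι) := fun n hn => h.normA_of_conj fun r => by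
  obtain ⟨s, hs⟩ := h.conj_z r
  obtain ⟨x, hx⟩ := conj_mem_of_mem_norm hn (show e ι r ∈ sT ι from ⟨_, rfl⟩)
  obtain ⟨k, rfl⟩ := h.zT (n * s) x (by rw [hx, ← hs]; group)
  rw [← hx]; exact z0_eA k

theorem FA.nz' (h : FA ι) (hT : 𝒩(sA ι) ⊓ 𝒞[z ι] ≤ O 𝒞(sA ι) ⊔ 𝒩(sT ι)) {i j : Fin 5} (ij : i ≠ j)
    (i4 : i ≠ 4) (j4 : j ≠ 4) :
    NZ ι (e ι i * e ι j) ≤ O (NZ ι (e ι i * e ι j)) ⊔ (𝒩(sT ι) ⊓ NZ ι (e ι i * e ι j)) := by
  obtain ⟨k, l, kl, k4, l4, p, -⟩ := fc_five i j ij i4 j4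
  have pl : e ι k * e ι l = e ι i * e ι j * e ι 4 := by rw [← map_mul, p, map_mul, map_mul]
  have h3 := h.c3 ij i4 j4
  set B := zpowers (e ι i) ⊔ zpowers (e ι j) ⊔ zpowers (z ι) with hB
  have BA : B ≤ sA ι := sup_le (sup_le (zpowers_le.2 (z0_eA i)) (zpowers_le.2 (z0_eA j))) (zpowers_le.2 (z0_eA 4))
  have iB : e ι i ∈ B := mem_sup_left (mem_sup_left (mem_zpowers _))
  have jB : e ι j ∈ B := mem_sup_left (mem_sup_right (mem_zpowers _))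
  have zB : e ι 4 ∈ B := mem_sup_right (mem_zpowers _)
  set u := e ι i * e ι j with hu
  set V := zpowers u ⊔ zpowers (z ι) with hV
  have VB : V ≤ B := sup_le (zpowers_le.2 (B.mul_mem iB jB)) le_sup_right
  have mV : ∀ g, g ∈ 𝒞(V) ↔ g ∈ 𝒞[u] ∧ g ∈ 𝒞[z ι] := fun g => by
    rw [hV, cent_sup, cent_zpowers, cent_zpowers]; rfl
  set W := O (NZ ι u) ⊔ (𝒩(sT ι) ⊓ NZ ι u) with hW
  have XN : 𝒞(V) ⊲ NZ ι u := ⟨le_inf (fun g hg => ((mV g).1 hg).2) (cent_le_norm _), norm_cent inf_le_right⟩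
  have dec : ∀ g ∈ 𝒞(V), ∃ l ∈ O 𝒞(V), ∃ n ∈ 𝒞(V), g = l * n ∧ ((n * e ι i * n⁻¹ = e ι i ∧ n * e ι j * n⁻¹ = e ι j) ∨
      (n * e ι i * n⁻¹ = e ι j ∧ n * e ι j * n⁻¹ = e ι i)) := fun g hg =>
    h.ca_gen ij (z0_AA.trans (cent_anti (VB.trans BA))) (fun g hg => ((mV g).1 hg).1) hg
  have o1 : O 𝒞(V) ≤ O (NZ ι u) := XN.pcore_le _
  have o2 : O 𝒞(B) ≤ O 𝒞(V) := by
    have n1 : 𝒞(B) ⊲ 𝒞(V) ⊓ 𝒩(B) := ⟨le_inf (cent_anti VB) (cent_le_norm _), norm_cent inf_le_right⟩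
    refine (n1.pcore_le _).trans (O_le_of_sup inf_le_left fun g hg => ?_)
    obtain ⟨l, hl, n, hn, rfl, e1⟩ := dec g hg
    refine mul_mem_sup hl ⟨hn, mem_norm_of_conjg_le (le_of_eq ?_)⟩
    rw [hB, conjg_sup, fc_norm2 e1, conjg_zpowers, fc_cent.1 ((mV n).1 hn).2]
  have o3 : O 𝒞(sA ι) ≤ O 𝒞(B) := O_le_of_sup (cent_anti BA) h3
  have w1 : 𝒩(sA ι) ⊓ NZ ι u ≤ W := by
    rintro s ⟨sN, sz⟩
    obtain ⟨o, ho, n, hn, rfl⟩ := (mem_sup_of_right_le_norm (h.nTA.trans (norm_pcore _ (norm_cent le_rfl)))).1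
      (hT ⟨sN, sz.1⟩)
    have ho' := o1 (o2 (o3 ho))
    refine mul_mem_sup ho' ⟨hn, ?_⟩
    have := (NZ ι u).mul_mem ((NZ ι u).inv_mem (pcore_le _ _ ho')) sz
    simpa using this
  have w2 : 𝒞(B) ≤ W := h3.trans (sup_le ((o2.trans o1).trans le_sup_left)
    ((le_inf (cent_le_norm _) ((cent_anti (VB.trans BA)).trans XN.1)).trans w1))
  have mB : ∀ n, n * e ι i * n⁻¹ = e ι i → n * e ι j * n⁻¹ = e ι j → n ∈ 𝒞[z ι] → n ∈ 𝒞(B) := fun n a b c => by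
    rw [hB, cent_sup, cent_sup, cent_zpowers, cent_zpowers, cent_zpowers]
    exact ⟨⟨fc_cent.2 a, fc_cent.2 b⟩, c⟩
  have w3 : 𝒞(V) ≤ W := fun g hg => by
    obtain ⟨l, hl, n, hn, rfl, e1⟩ := dec g hg
    refine W.mul_mem (mem_sup_left (o1 hl)) ?_
    have nz := ((mV n).1 hn).2
    rcases e1 with ⟨a, b⟩ | ⟨a, b⟩
    · exact w2 (mB n a b nz)
    · obtain ⟨s, sN, s1, s2, s3⟩ := h.tr3 i j 4 j i 4 ij i4 j4 ij.symm j4 i4
      have sz : s ∈ 𝒞[z ι] := fc_cent.2 s3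
      have su : s ∈ 𝒞[u] := fc_cent.2 (by
        calc _ = (s * e ι i * s⁻¹) * (s * e ι j * s⁻¹) := by rw [hu]; group
        _ = _ := by rw [s1, s2, fc_comm])
      have := W.mul_mem (W.inv_mem (w1 ⟨sN, XN.1 ((mV s).2 ⟨su, sz⟩)⟩)) (w2 (mB (s * n) ?_ ?_ (mul_mem sz nz)))
      · simpa using this
      · calc _ = s * (n * e ι i * n⁻¹) * s⁻¹ := by group
        _ = _ := by rw [a, s2]
      · calc _ = s * (n * e ι j * n⁻¹) * s⁻¹ := by group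
        _ = _ := by rw [b, s1]
  rintro g ⟨gz, gV⟩
  have u2 : u * u = 1 := fc_usq i j
  have uz : zpowers u ≤ 𝒩(zpowers (z ι)) := norm_of_cent
    ((le_sup_left.trans (VB.trans BA)).trans (z0_AA.trans (cent_anti (zpowers_le.2 (z0_eA 4)))))
  obtain ⟨a, ha, b, hb, e1⟩ := (mem_sup_of_left_le_norm uz).1
    (conj_mem_of_mem_norm gV (mem_sup_left (mem_zpowers u)))
  have gz' := fc_cent.1 gz
  rcases (z0_zp2 u2).1 ha with ra | ra
  · exfalso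
    rcases (z0_zp2 (z0_esq 4)).1 hb with rb | rb
    · rw [ra, rb] at e1
      have : u = 1 := by simpa using e1.symm
      refine (fc_ne i j ij).1 (h.inj ?_)
      rw [map_mul]
      change e ι i = u
      have e3 : e ι i = e ι j := by rw [← z0_einv i]; exact inv_eq_of_mul_eq_one_right this
      exact absurd (e0_inj (h.inj e3)) ij
    · rw [ra, rb, one_mul] at e1
      have : u = e ι 4 := by
        have e3 : g * u * g⁻¹ = g * e ι 4 * g⁻¹ := e1.symm.trans gz'.symm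
        simpa using e3
      exact (fc_ne i j ij).2 4 (h.inj (by rw [map_mul]; exact this))
  · rcases (z0_zp2 (z0_esq 4)).1 hb with rb | rb
    · rw [ra, rb, mul_one] at e1
      exact w3 ((mV g).2 ⟨fc_cent.2 e1.symm, gz⟩)
    · rw [ra, rb] at e1
      obtain ⟨s, sN, s1, s2, s3⟩ := h.tr3 i j 4 k l 4 ij i4 j4 kl k4 l4
      have sz : s ∈ 𝒞[z ι] := fc_cent.2 s3
      have su : s * u * s⁻¹ = g * u * g⁻¹ := by
        rw [← e1, hu, ← pl, ← s1, ← s2]; group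
      have m : s⁻¹ * g ∈ 𝒞(V) := (mV (s⁻¹ * g)).2 ⟨fc_cent.2 (by
        calc _ = s⁻¹ * (g * u * g⁻¹) * s := by group
        _ = u := by rw [← su]; group), mul_mem (inv_mem sz) gz⟩
      have m2 := (NZ ι u).mul_mem (show g ∈ NZ ι u from ⟨gz, gV⟩) ((NZ ι u).inv_mem (XN.1 m))
      have := W.mul_mem (w1 ⟨sN, by simpa using m2⟩) (w3 m)
      simpa using this

theorem FB.nT' (h : FB ι) : 𝒩(sA ι) ⊓ 𝒞[z ι] ≤ O 𝒞(sA ι) ⊔ 𝒩(sT ι) :=
  h.nT.trans (sup_le_sup_left (by first | exact le_rfl | exact inf_le_left | exact inf_le_left.trans inf_le_left) _)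

theorem fc (h : FB ι) : FC ι :=
  { h with
    ca := fun _ _ ij => (h.toFA.ca' ij).trans (sup_le_sup_left (by first | exact le_rfl | exact inf_le_left) _)
    nz := fun _ _ ij i4 j4 => (h.toFA.nz' h.nT' ij i4 j4).trans
      (sup_le_sup_left (by first | exact le_rfl | exact inf_le_left) _) }

end CA.U5
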