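/-
Model facts for the signalizer step.
Owner: helper9.
-/
import Cfsg.Agent.U5.Fe1

set_option autoImplicit false

namespace CA.U5.Fe
open K

theorem m_cQ : ∀ x : T0, (∀ y ∈ Q0, y * x = x * y) → x = 1 ∨ x = e0 4 := by decide +kernel
theorem m_cR : ∀ x : T0, (∀ y ∈ R0, y * x = x * y) → x ∈ A0 := by decide +kernel
theorem m_AR : ∀ x ∈ A0, ∀ y ∈ R0, y * x = x * y := by decide +kernel
theorem m_tr : ∀ i, i ≠ 4 → ∃ q ∈ Q0, q * e0 0 * q⁻¹ = e0 i := by decide +kernel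
theorem m_Qe : ∀ q ∈ Q0, q * e0 0 * q⁻¹ ∈ A0 := by decide +kernel
theorem m_nb : ∀ y ∈ Q0, ∃ x ∈ A0, x ∈ Q0 ∧ x ≠ 1 ∧ x ≠ e0 4 ∧ x * y = y * x := by decide +kernel
theorem m_zQ : e0 4 ∈ Q0 := by decide +kernel
theorem m_A2 : ∀ x ∈ A0, x * x = 1 := by decide +kernel
theorem m_A_R : ∀ x ∈ A0, x ∈ R0 := by decide +kernel
theorem m_pr : ∀ i j k, e0 i * e0 j ≠ e0 k := by decide +kernel
theorem m_nQ (x y : T0) (hy : y ∈ Q0) : x * y * x⁻¹ ∈ Q0 := by
  obtain ⟨h1, h2⟩ := hy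
  have := x.hf
  have t := two
  refine ⟨?_, ?_⟩
  · change x.b + y.b + x.b = 0
    grind
  · change x.f + x.b * cj y.b + y.f + (x.b + y.b) * cj x.b + cj x.f = 0
    rw [h1, h2, map_zero]
    grind
theorem m_nR (x y : T0) (hy : y ∈ R0) : x * y * x⁻¹ ∈ R0 := by
  have t := two
  have h : y.a = 0 := hy
  change x.a + y.a + x.a = 0
  grind
theorem m_cardA : 8 ≤ Nat.card A0 := by
  have := Nat.card_le_card_of_injective (fun p : K × Bool => (⟨T0.mk' 0 0 0 p.1 false p.2, rfl, rfl, rfl⟩ : A0))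
    (fun p q h => by
      have h' := congrArg Subtype.val h
      revert p q; decide +kernel)
  simpa [K.card] using this

end CA.U5.Fe
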