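/-
The signalizer step: the cores of the involution centralizers are trivial.
Owner: helper9.
-/
import Cfsg.Agent.U5.Fe2

set_option autoImplicit false
set_option linter.unusedSectionVars false

open Cfsg CA.FG CA.BG Subgroup

namespace CA.U5

universe u

variable {G : Type u} [Group G] [Finite G] {ι : T0 →* G}

namespace Fe

theorem sylT (h : TU ι) : IsSylowOf 2 (sT ι) ⊤ := by
  refine sylow_mk le_top (pGrp_of_card_eq_pow (k := 10) Nat.prime_two ?_) ?_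
  · rw [← Nat.card_congr (MonoidHom.ofInjective h.inj).toEquiv, T0.card]; rfl
  · rw [relIndex_top_right]; exact fun e1 => Nat.not_even_iff_odd.2 h.odd (even_iff_two_dvd.2 e1)

theorem two_map (h : TU ι) (B : Subgroup T0) : IsPGrp 2 (B.map ι) :=
  (sylT h).pGrp.of_le (map_le_range _ _)

theorem eA (i : Fin 5) : e ι i ∈ sA ι := mem_map_of_mem _ (e0_A i)

theorem conjA_le {g : G} {K : Subgroup G} (h : ∀ i, g * e ι i * g⁻¹ ∈ K) : sA ι :^ g ≤ K := by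
  rintro _ ⟨_, ⟨x, hx, rfl⟩, rfl⟩
  change g * ι x * g⁻¹ ∈ K
  rcases A0_elts x hx with rfl | ⟨i, rfl⟩ | ⟨i, j, -, rfl⟩
  · simp
  · exact h i
  · have := mul_mem (h i) (h j)
    rwa [show g * e ι i * g⁻¹ * (g * e ι j * g⁻¹) = g * ι (e0 i * e0 j) * g⁻¹ by rw [map_mul]; group] at this

theorem cent_map {B C : Subgroup T0} (h : ∀ x ∈ B, ∀ y ∈ C, y * x = x * y) : B.map ι ≤ 𝒞(C.map ι) := by
  rintro _ ⟨x, hx, rfl⟩ _ ⟨y, hy, rfl⟩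
  rw [← map_mul, ← map_mul, h x hx y hy]

theorem T_norm {B : Subgroup T0} (h : ∀ x y, y ∈ B → x * y * x⁻¹ ∈ B) : sT ι ≤ 𝒩(B.map ι) := by
  rintro _ ⟨x, rfl⟩
  refine mem_norm_of_forall ?_
  rintro _ ⟨y, hy, rfl⟩
  exact ⟨_, h x y hy, by simp⟩

theorem T_cent (h : TU ι) {B : Subgroup T0} {x : T0} (hx : ι x ∈ 𝒞(B.map ι)) : ∀ y ∈ B, y * x = x * y :=
  fun y hy => h.inj (by rw [map_mul, map_mul]; exact hx _ (mem_map_of_mem _ hy))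

theorem cA : sA ι ≤ 𝒞(sA ι) := cent_map fun x hx y hy => m_AR x hx y (m_A_R y hy)

theorem A_c {u : G} (hu : u ∈ sA ι) : sA ι ≤ 𝒞[u] := cA.trans (cent_le_cent_singleton hu)

theorem A_sq {u : G} (hu : u ∈ sA ι) : u * u = 1 := by
  obtain ⟨x, hx, rfl⟩ := hu
  rw [← map_mul, m_A2 x hx, map_one]

theorem pair (h : FA ι) {i j i' j' : Fin 5} (h1 : i ≠ j) (h2 : i' ≠ j') :
    ∃ n ∈ 𝒩(sA ι), n * e ι i * n⁻¹ = e ι i' ∧ n * e ι j * n⁻¹ = e ι j' := by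
  have k : ∀ i j : Fin 5, ∃ k, i ≠ k ∧ j ≠ k := by decide
  obtain ⟨k1, a1, b1⟩ := k i j
  obtain ⟨k2, a2, b2⟩ := k i' j'
  obtain ⟨n, hn, c1, c2, -⟩ := h.tr3 i j k1 i' j' k2 h1 a1 b1 h2 a2 b2
  exact ⟨n, hn, c1, c2⟩

theorem one (h : FA ι) (i : Fin 5) : ∃ n ∈ 𝒩(sA ι), n * z ι * n⁻¹ = e ι i := by
  obtain ⟨j, hj⟩ := exists_ne i
  obtain ⟨n, hn, c, -⟩ := pair h (show (4 : Fin 5) ≠ 0 by decide) hj.symm
  exact ⟨n, hn, c⟩

/-- Frattini argument for the weakly closed subgroup `A` -/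
theorem frat (h : FA ι) {Y : Subgroup G} (hY : sA ι ≤ Y) {n : G} (hn : n ∈ 𝒩(Y)) :
    ∃ x ∈ Y, x * n ∈ 𝒩(sA ι) := by
  obtain ⟨P, hP, AP⟩ := sylow_superset Nat.prime_two (two_map h.toTU A0) hY
  obtain ⟨x, hx, l⟩ := sylow_Jsub Nat.prime_two hP ((two_map h.toTU A0).conjg n)
    (conjg_le_of_mem_norm hY hn)
  refine ⟨x, hx, mem_norm_of_conjg_le (conjA_le fun i => ?_)⟩
  obtain ⟨m, -, c⟩ := one h i
  rw [← conjg_mul] at l
  have h1 := l (conj_mem_conjg (x * n) (eA i))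
  rw [← c] at h1 ⊢
  have e1 : x * n * (m * z ι * m⁻¹) * (x * n)⁻¹ = x * n * m * z ι * (x * n * m)⁻¹ := by group
  rw [e1] at h1 ⊢
  obtain ⟨j, hj⟩ := (h.two P (hP.pGrp.isPGroup Nat.prime_two) AP).2 _ h1
  rw [hj]
  exact eA j

theorem frat' (h : FA ι) {Y N : Subgroup G} (hY : sA ι ≤ Y) (h1 : Y ≤ N) (h2 : N ≤ 𝒩(Y)) :
    N ≤ Y ⊔ (N ⊓ 𝒩(sA ι)) := fun n hn => by
  obtain ⟨x, hx, l⟩ := frat h hY (h2 hn)
  rw [show n = x⁻¹ * (x * n) by group]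
  exact mul_mem (mem_sup_left (inv_mem hx)) (mem_sup_right ⟨mul_mem (h1 hx) hn, l⟩)

theorem zQ : z ι ∈ sQ ι := mem_map_of_mem _ m_zQ

theorem T_z : sT ι ≤ 𝒞[z ι] := by
  rintro _ ⟨x, rfl⟩
  rw [mem_centralizer_singleton_iff, ← map_mul, ← map_mul, z_central]

theorem NQ (h : TU ι) : 𝒩(sQ ι) ≤ 𝒞[z ι] := fun n hn => by
  obtain ⟨x, hx, e1⟩ := conj_mem_of_mem_norm hn (zQ (ι := ι))
  have c : z ι ∈ 𝒞(sQ ι) := le_cent_symm (by
    rw [cent_zpowers]; exact (map_le_range _ _).trans T_z : sQ ι ≤ 𝒞(zpowers (z ι))) (mem_zpowers _)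
  have c' := conj_mem_of_le_norm (norm_cent le_rfl) hn c
  rw [← e1] at c'
  rcases m_cQ x (T_cent h c') with rfl | rfl
  · rw [map_one, eq_comm, conj_eq_one_iff] at e1
    exact absurd (h.inj (e1.trans (map_one ι).symm)) (e0_ne 4)
  · exact mem_centralizer_singleton_iff.2 (mul_inv_eq_iff_eq_mul.1 e1.symm)

theorem cp_z (h : FD ι) : CP 𝒞[z ι] (sQ ι) := by
  refine cp_of ((map_le_range _ _).trans T_z) (two_map h.toTU _) (fac_of h.cz (NQ h.toTU)) (sylT h.toTU)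
    (T_norm m_nQ) ?_ (cent_le_cent_singleton zQ)
  rintro _ ⟨⟨x, rfl⟩, hx⟩
  rcases m_cQ x (T_cent h.toTU hx) with rfl | rfl
  exacts [mem_map_of_mem _ (one_mem _), zQ]

theorem fac_zt (h : FD ι) : Fac (𝒞[e ι 0] ⊓ 𝒞[z ι]) 𝒩(sA ι) := by
  have cp := cp_z h
  have AY : sA ι ≤ 𝒞[e ι 0] ⊓ 𝒞[z ι] := le_inf (A_c (eA 0)) (A_c (eA 4))
  have nO : 𝒞[z ι] ≤ 𝒩(O 𝒞[z ι]) := pcore_norm _ _
  have nOQ : 𝒞[z ι] ≤ 𝒩(O 𝒞[z ι] ⊔ sQ ι) := cp.fac.norm inf_le_right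
  have n1 : 𝒞[e ι 0] ⊓ 𝒞[z ι] ≤ 𝒩(O 𝒞[z ι] ⊔ sA ι) := fun g hg => by
    refine mem_norm_of_conjg_le ?_
    rw [conjg_sup, conjg_of_mem_norm (nO hg.2)]
    refine sup_le le_sup_left (conjA_le fun i => ?_)
    by_cases i4 : i = 4
    · subst i4
      rw [mem_centralizer_singleton_iff.1 hg.2, mul_inv_cancel_right]
      exact mem_sup_right (eA 4)
    obtain ⟨q, hq, e1⟩ := m_tr i i4
    have h1 := conj_mem_of_le_norm nOQ hg.2 (mem_sup_right (mem_map_of_mem ι hq))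
    obtain ⟨o, ho, _, ⟨q', hq', rfl⟩, e2⟩ := (mem_sup_of_norm (Or.inr (cp.le.trans nO))).1 h1
    have c := mem_centralizer_singleton_iff.1 hg.1
    have e3 : g * e ι i * g⁻¹ = o * ι (q' * e0 0 * q'⁻¹) * o⁻¹ := by
      have : g * e ι i * g⁻¹ = (g * ι q * g⁻¹) * (g * e ι 0 * g⁻¹) * (g * ι q * g⁻¹)⁻¹ := by
        rw [e, ← e1, map_mul, map_mul, map_inv]; group
      rw [this, ← e2, c, map_mul, map_mul, map_inv]; group
    rw [e3]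
    exact mul_mem (mul_mem (mem_sup_left ho) (mem_sup_right (mem_map_of_mem _ (m_Qe q' hq'))))
      (mem_sup_left (inv_mem ho))
  have e4 := inf_sup_of_right_le (H := O 𝒞[z ι]) (Or.inr (AY.trans (inf_le_right.trans nO))) AY
  refine (frat' h.toFA (le_inf AY le_sup_right) inf_le_left (norm_inf le_normalizer n1)).trans
    (sup_le (e4.le.trans (sup_le ((inf_pcore_le _ inf_le_right).trans le_sup_left) ?_)) le_sup_right)
  exact (le_inf AY le_normalizer).trans le_sup_right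

theorem NB (h : FA ι) : 𝒩(zpowers (e ι 0) ⊔ zpowers (e ι 4)) ≤ 𝒞[e ι 0 * e ι 4] := fun n hn => by
  have c : zpowers (e ι 0) ≤ 𝒞(zpowers (e ι 4)) := by
    rw [cent_zpowers]; exact zpowers_le.2 (A_c (eA 4) (eA 0))
  have h1 := conj_mem_of_mem_norm hn (mul_mem (mem_sup_left (mem_zpowers _)) (mem_sup_right (mem_zpowers _)))
  have nz : ∀ i, n * (e ι 0 * e ι 4) * n⁻¹ ≠ e ι i := fun i e1 => by
    obtain ⟨m, -, c⟩ := one h i
    obtain ⟨k, hk⟩ := h.zT (n⁻¹ * m) (e0 0 * e0 4) (by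
      rw [map_mul, show n⁻¹ * m * z ι * (n⁻¹ * m)⁻¹ = n⁻¹ * (m * z ι * m⁻¹) * n by group, c, ← e1]; group)
    exact m_pr _ _ _ hk
  obtain ⟨x, hx, y, hy, e1⟩ := (mem_sup_of_norm (Or.inl (norm_of_cent c))).1 h1
  rcases (mem_zp (A_sq (eA 0))).1 hx with rfl | rfl <;> rcases (mem_zp (A_sq (eA 4))).1 hy with rfl | rfl
  · rw [one_mul, eq_comm, conj_eq_one_iff, ← map_mul] at e1
    exact absurd (h.inj (e1.trans (map_one ι).symm)) (by decide +kernel)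
  · exact absurd (e1.symm.trans (one_mul _)) (nz 4)
  · exact absurd (e1.symm.trans (mul_one _)) (nz 0)
  · exact mem_centralizer_singleton_iff.2 (mul_inv_eq_iff_eq_mul.1 e1.symm)

theorem fac_a (h : FD ι) : Fac 𝒞[e ι 0 * e ι 4] 𝒩(sA ι) := by
  have f := fac_of (h.ca 0 4 (by decide)) (NB h.toFA)
  have eY : 𝒞(zpowers (e ι 0) ⊔ zpowers (e ι 4)) = 𝒞[e ι 0] ⊓ 𝒞[z ι] := by
    rw [cent_sup, cent_zpowers, cent_zpowers]
  have n : 𝒩(zpowers (e ι 0) ⊔ zpowers (e ι 4)) ≤ 𝒩(𝒞[e ι 0] ⊓ 𝒞[z ι]) := eY ▸ norm_cent le_rfl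
  have l : 𝒞[e ι 0] ⊓ 𝒞[z ι] ≤ 𝒩(zpowers (e ι 0) ⊔ zpowers (e ι 4)) := eY ▸ cent_le_norm _
  have l' := l.trans (NB h.toFA)
  refine f.trans (sup_le le_sup_left ((frat' h.toFA (le_inf (A_c (eA 0)) (A_c (eA 4))) (le_inf l' l)
    (inf_le_right.trans n)).trans (sup_le ((fac_zt h).trans (sup_le_sup ?_ (inf_le_inf_right _ l')))
      ((inf_le_inf_right _ inf_le_left).trans le_sup_right))))
  exact f.core ((pcore_le _ _).trans l') (oO _) (norm_pcore _ (inf_le_right.trans n))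

theorem NR (h : TU ι) : 𝒩(sR ι) ≤ 𝒩(sA ι) := by
  have : sA ι = sR ι ⊓ 𝒞(sR ι) := by
    refine le_antisymm (le_inf (map_mono m_A_R) (cent_map m_AR)) ?_
    rintro _ ⟨⟨x, -, rfl⟩, hx⟩
    exact mem_map_of_mem _ (m_cR x (T_cent h hx))
  rw [this]
  exact norm_inf le_rfl (norm_cent le_rfl)

theorem cp_a (h : FD ι) : CP 𝒞[e ι 0 * e ι 4] (sR ι) := by
  have aA : e ι 0 * e ι 4 ∈ sA ι := mul_mem (eA 0) (eA 4)
  have cl : 𝒞(sA ι) ≤ 𝒞[e ι 0 * e ι 4] := cent_le_cent_singleton aA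
  have f := fac_a h
  refine cp_of ((le_cent_symm (cent_map m_AR)).trans cl) (two_map h.toTU _) ?_ (sylT h.toTU)
    (T_norm m_nR) ?_ (cent_le_cent_singleton (map_mono m_A_R aA))
  · refine f.trans (sup_le le_sup_left ?_)
    have e1 := inf_sup_of_left_le (K := 𝒩(sR ι)) (Or.inr (norm_pcore _ (norm_cent (NR h.toTU))))
      ((pcore_le {2}ᶜ _).trans cl)
    exact ((inf_le_inf_left _ h.nA).trans e1.le).trans (sup_le_sup_right
      (f.core ((pcore_le _ _).trans cl) (oO _) (norm_pcore _ (norm_cent inf_le_right))) _)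
  · rintro _ ⟨⟨x, rfl⟩, hx⟩
    exact mem_map_of_mem _ (m_A_R x (m_cR x (T_cent h.toTU hx)))

theorem cp_all (h : FD ι) {u : G} (hu : u ∈ sA ι) (u1 : u ≠ 1) : ∃ P, CP 𝒞[u] P := by
  obtain ⟨x, hx, rfl⟩ := hu
  rcases A0_elts x hx with rfl | ⟨i, rfl⟩ | ⟨i, j, ij, rfl⟩
  · exact (u1 (map_one ι)).elim
  · obtain ⟨n, -, c⟩ := one h.toFA i
    have := (cp_z h).conj n
    rw [conjg_cent1, c] at this
    exact ⟨_, this⟩
  · obtain ⟨n, -, c1, c2⟩ := pair h.toFA (show (0 : Fin 5) ≠ 4 by decide) ij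
    have := (cp_a h).conj n
    rw [conjg_cent1, show n * (e ι 0 * e ι 4) * n⁻¹ = ι (e0 i * e0 j) by
      rw [map_mul, ← e, ← e, ← c1, ← c2]; group] at this
    exact ⟨_, this⟩

/-- generation of a core by the cores belonging to a four-subgroup of `A` -/
theorem core_le (h : FD ι) {y s t : G} (y2 : y * y = 1) (hs : s ∈ sA ι) (ht : t ∈ sA ι) (s1 : s ≠ 1)
    (t1 : t ≠ 1) (ne : t ≠ s) (cs : s ∈ 𝒞[y]) (ct : t ∈ 𝒞[y]) {X : Subgroup G} (h1 : O 𝒞[t] ≤ X)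
    (h2 : O 𝒞[s] ≤ X) (h3 : O 𝒞[t * s] ≤ X) : O 𝒞[y] ≤ X := by
  have b : ∀ v ∈ sA ι, v ≠ 1 → v ∈ 𝒞[y] → O 𝒞[y] ⊓ 𝒞[v] ≤ O 𝒞[v] := fun v hv v1 c =>
    let ⟨_, cp⟩ := cp_all h hv v1
    cp.bal' (mem_cent_singleton_comm.1 c) y2
  refine gen4 (A_sq ht) (A_sq hs) t1 s1 ne (A_c hs ht) (oO _) (pcore_norm _ _ ct) (pcore_norm _ _ cs)
    ((b t ht t1 ct).trans h1) ((b s hs s1 cs).trans h2) ((b _ (mul_mem ht hs) (fun e1 => ne ?_)
      (mul_mem ct cs)).trans h3)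
  rw [eq_inv_of_mul_eq_one_left e1, inv_eq_of_mul_eq_one_right (A_sq hs)]

theorem norm_W {S : Subgroup G} : 𝒩(S) ≤ 𝒩(⨆ (u : G) (_ : u ∈ S ∧ u ≠ 1 ∧ u * u = 1), O 𝒞[u]) := by
  refine le_norm_of_conjg_le fun n hn => ?_
  rw [conjg_iSup]
  refine iSup_le fun u => ?_
  rw [conjg_iSup]
  refine iSup_le fun hu => ?_
  rw [pcore_conjg, conjg_cent1]
  refine le_iSup₂_of_le (f := fun (u : G) (_ : u ∈ S ∧ u ≠ 1 ∧ u * u = 1) => O 𝒞[u]) (n * u * n⁻¹)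
    ⟨conj_mem_of_mem_norm hn hu.1, by simpa using hu.2.1, ?_⟩ le_rfl
  rw [show n * u * n⁻¹ * (n * u * n⁻¹) = n * (u * u) * n⁻¹ by group, hu.2.2]; group

end Fe

open Fe in
theorem fe [IsSimpleGroup G] (sg : SigTwo.{u}) (h : FD ι) (hh : FH ι) : FE ι := by
  have z1 : z ι ≠ 1 := fun e1 => e0_ne 4 (h.inj (e1.trans (map_one ι).symm))
  obtain ⟨W₀, oW, hW⟩ := sg G (sA ι) (fun u => O 𝒞[u])
    ⟨abelian_iff_le_cent.2 cA, fun u hu => by rw [sq, A_sq hu]⟩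
    (by rw [card_map_of_injective h.inj]; exact m_cardA)
    (fun u _ _ => Nat.coprime_two_right.1 ((piNat_compl_singleton_iff_coprime Nat.prime_two).1 (oO _)))
    (fun u _ _ => pcore_le _ _) (fun u hu _ => (A_c hu).trans (pcore_norm _ _))
    (fun u hu _ v hv v1 => let ⟨_, cp⟩ := cp_all h hv v1; cp.bal' (A_c hv hu) (A_sq hu))
  set W := ⨆ (u : G) (_ : u ∈ sA ι ∧ u ≠ 1 ∧ u * u = 1), O 𝒞[u] with hWd
  set W' := ⨆ (u : G) (_ : u ∈ sQ ι ∧ u ≠ 1 ∧ u * u = 1), O 𝒞[u] with hW'd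
  have l : ∀ u ∈ sA ι, u ≠ 1 → O 𝒞[u] ≤ W := fun u hu u1 =>
    le_iSup₂_of_le (f := fun (u : G) (_ : u ∈ sA ι ∧ u ≠ 1 ∧ u * u = 1) => O 𝒞[u]) u ⟨hu, u1, A_sq hu⟩ le_rfl
  have l' : ∀ u ∈ sA ι, u ∈ sQ ι → u ≠ 1 → O 𝒞[u] ≤ W' := fun u hu hq u1 =>
    le_iSup₂_of_le (f := fun (u : G) (_ : u ∈ sQ ι ∧ u ≠ 1 ∧ u * u = 1) => O 𝒞[u]) u ⟨hq, u1, A_sq hu⟩ le_rfl
  have mul1 : ∀ t ∈ sA ι, t ≠ z ι → t * z ι ≠ 1 := fun t _ ne e1 => ne (by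
    rw [eq_inv_of_mul_eq_one_left e1, inv_eq_of_mul_eq_one_right (A_sq (eA 4))])
  have eW : W = W' := by
    refine le_antisymm (iSup₂_le fun u hu => ?_) (iSup₂_le ?_)
    · obtain ⟨x, xA, xQ, x1, xz, -⟩ := m_nb 1 (one_mem _)
      have tA := mem_map_of_mem ι xA
      have tQ := mem_map_of_mem ι xQ
      have t1 : ι x ≠ 1 := fun e1 => x1 (h.inj (e1.trans (map_one ι).symm))
      have tz : ι x ≠ z ι := fun e1 => xz (h.inj e1)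
      exact core_le h hu.2.2 (eA 4) tA z1 t1 tz (A_c hu.1 (eA 4)) (A_c hu.1 tA) (l' _ tA tQ t1)
        (l' _ (eA 4) zQ z1) (l' _ (mul_mem tA (eA 4)) (mul_mem tQ zQ) (mul1 _ tA tz))
    · rintro _ ⟨⟨y, hy, rfl⟩, -, y2⟩
      obtain ⟨x, xA, -, x1, xz, c⟩ := m_nb y hy
      have tA := mem_map_of_mem ι xA
      have t1 : ι x ≠ 1 := fun e1 => x1 (h.inj (e1.trans (map_one ι).symm))
      have tz : ι x ≠ z ι := fun e1 => xz (h.inj e1)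
      exact core_le h y2 (eA 4) tA z1 t1 tz (mem_cent_singleton_comm.1 (T_z ⟨y, rfl⟩))
        (by rw [mem_centralizer_singleton_iff, ← map_mul, ← map_mul, c]) (l _ tA t1) (l _ (eA 4) z1)
        (l _ (mul_mem tA (eA 4)) (mul1 _ tA tz))
  have nA : 𝒩(sA ι) ≤ 𝒩(W) := norm_W
  have nQ : 𝒩(sQ ι) ≤ 𝒩(W) := eW ▸ norm_W
  obtain ⟨n, hn, c1, c2⟩ := pair h.toFA (show (0 : Fin 5) ≠ 4 by decide) (show (0 : Fin 5) ≠ 1 by decide)
  have aA : a ι ∈ sA ι := mul_mem (eA 0) (eA 1)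
  have a1 : a ι ≠ 1 := fun e1 => absurd (h.inj (((map_mul ι _ _).trans e1).trans (map_one ι).symm))
    (by decide +kernel)
  have fa : 𝒞[a ι] ≤ O 𝒞[a ι] ⊔ 𝒩(sA ι) := by
    have := conjg_mono n ((fac_a h).trans (sup_le_sup_left inf_le_right _))
    rwa [conjg_sup, conjg_norm, pcore_conjg, conjg_of_mem_norm hn, conjg_cent1,
      show n * (e ι 0 * e ι 4) * n⁻¹ = a ι by rw [a, ← e, ← e, ← c2]; nth_rw 2 [← c1]; group] at this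
  have top := hh.top 𝒩(W) (h.cz.trans (sup_le (norm_of_le (l _ (eA 4) z1)) nQ))
    (fa.trans (sup_le (norm_of_le (l _ aA a1)) nA)) nA
  have W0 : W = ⊥ := by
    refine (Subgroup.Normal.eq_bot_or_eq_top (normalizer_eq_top_iff.1 top)).resolve_right fun e1 => ?_
    have h1 : W ≤ W₀ := iSup₂_le fun u hu => hW u hu.1 hu.2.1
    have h2 : z ι ∈ W₀ := h1 (e1 ▸ mem_top _)
    have h3 := orderOf_dvd_iff_pow_eq_one.2 (show z ι ^ 2 = 1 by rw [sq, A_sq (eA 4)])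
    have h4 := Nat.eq_one_of_dvd_coprimes (Nat.coprime_two_right.2 oW) (W₀.orderOf_dvd_natCard h2) h3
    exact z1 (orderOf_eq_one_iff.1 h4)
  have b : ∀ u ∈ sA ι, u ≠ 1 → O 𝒞[u] = ⊥ := fun u hu u1 => le_bot_iff.1 (W0 ▸ l u hu u1)
  refine ⟨h.toFA, ?_, ?_, ?_⟩
  · have := h.cz
    rwa [b _ (eA 4) z1, bot_sup_eq] at this
  · have := (cp_z h).cent
    rw [b _ (eA 4) z1, bot_sup_eq] at this
    exact (le_inf (cent_le_cent_singleton zQ) le_rfl).trans this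
  · rwa [b _ aA a1, bot_sup_eq] at fa

end CA.U5
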