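/-
The two classes of involutions: dihedral subgroups and a generation criterion.
-/
import Cfsg.Agent.U5.Defs
import Cfsg.Agent.Fi.Dihedral

set_option autoImplicit false
set_option linter.unusedSectionVars false

open Cfsg CA.FG Subgroup

namespace CA.U5

universe u

variable {G : Type u} [Group G] [Finite G] {ι : T0 →* G}

theorem fh_mulz : ∀ x : T0, x * x = 1 → x ≠ e0 4 → x * e0 4 ∈ A0 ∧ x * e0 4 ≠ 1 ∨
    ∃ a c : K, T0.mk' a 0 c 0 false false * x * (T0.mk' a 0 c 0 false false)⁻¹ = x * e0 4 ∨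
      T0.mk' 0 0 c a false false * x * (T0.mk' 0 0 c a false false)⁻¹ = x * e0 4 := by decide +kernel

theorem fh_third : ∀ i j : Fin 5, ∃ k, i ≠ k ∧ j ≠ k := by decide

theorem TU.fh_syl (h : TU ι) {M : Subgroup G} (hM : sT ι ≤ M) {P : Subgroup G} (hP : IsPGroup 2 P) (le : P ≤ M) :
    ∃ m ∈ M, ∀ x ∈ P, ∃ y, ι y = m * x * m⁻¹ := by
  have s : IsSylowOf 2 (sT ι) M := sylow_mk hM
    (pGrp_of_card_eq_pow (k := 10) Nat.prime_two (by
      rw [← Nat.card_congr (MonoidHom.ofInjective h.inj).toEquiv, T0.card]; rfl))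
    fun d => (Nat.not_even_iff_odd.2 h.odd) (even_iff_two_dvd.2 (d.trans (relIndex_dvd_index_of_le hM)))
  obtain ⟨m, hm, e⟩ := sylow_Jsub Nat.prime_two s (pGrp_of_isPGroup Nat.prime_two hP) le
  exact ⟨m, hm, fun x hx => e (conj_mem_conjg m hx)⟩

theorem fh_TC : sT ι ≤ 𝒞[z ι] := by
  rintro _ ⟨x, rfl⟩
  exact mem_centralizer_singleton_iff.2 (by rw [← map_mul, z_central, map_mul])

theorem fh_two {x : G} (e : x * x = 1) : IsPGroup 2 (zpowers x) := by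
  rintro ⟨_, n, rfl⟩
  refine ⟨1, Subtype.ext ?_⟩
  show (x ^ n) ^ 2 ^ 1 = 1
  rw [pow_one, pow_two, ← (Commute.refl x).mul_zpow, e, one_zpow]

theorem fh_sq {x y : G} (c : IsConj x y) (e : x * x = 1) : y * y = 1 := by
  obtain ⟨g, rfl⟩ := isConj_iff.1 c
  rw [conj_mul, e, mul_one, mul_inv_cancel]

theorem fh_esq (i : Fin 5) : e ι i * e ι i = 1 := by rw [← map_mul, e0_sq, map_one]

theorem fh_ecomm (i j : Fin 5) : Commute (e ι i) (e ι j) :=
  Commute.map (show Commute (e0 i) (e0 j) from (by revert i j; decide +kernel : e0 i * e0 j = e0 j * e0 i)) ι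

theorem fh_asq : a ι * a ι = 1 := by rw [a, ← map_mul, ← map_mul, show e0 0 * e0 1 * (e0 0 * e0 1) = 1 by
  decide +kernel, map_one]

namespace FA
variable (h : FA ι)
include h

theorem fh_e2 {i j i' j' : Fin 5} (n : i ≠ j) (n' : i' ≠ j') :
    ∃ g ∈ 𝒩(sA ι), g * e ι i * g⁻¹ = e ι i' ∧ g * e ι j * g⁻¹ = e ι j' := by
  obtain ⟨k, a, b⟩ := fh_third i j
  obtain ⟨k', a', b'⟩ := fh_third i' j'
  obtain ⟨g, hg, e1, e2, -⟩ := h.tr3 i j k i' j' k' n a b n' a' b'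
  exact ⟨g, hg, e1, e2⟩

theorem fh_e1 (i i' : Fin 5) : ∃ g ∈ 𝒩(sA ι), g * e ι i * g⁻¹ = e ι i' := by
  obtain ⟨k, a, -⟩ := fh_third i i
  obtain ⟨k', a', -⟩ := fh_third i' i'
  obtain ⟨g, hg, e1, -⟩ := h.fh_e2 a a'
  exact ⟨g, hg, e1⟩

theorem fh_ze (i : Fin 5) : IsConj (z ι) (e ι i) := by
  obtain ⟨g, -, e⟩ := h.fh_e1 4 i
  exact isConj_iff.2 ⟨g, e⟩

theorem fh_ae {i j : Fin 5} (n : i ≠ j) : IsConj (a ι) (e ι i * e ι j) := by
  obtain ⟨g, -, e1, e2⟩ := h.fh_e2 (i := 0) (j := 1) (by decide) n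
  exact isConj_iff.2 ⟨g, by rw [← e1, ← e2, conj_mul]⟩

theorem fh_za : ¬ IsConj (z ι) (a ι) := fun c => by
  obtain ⟨g, e⟩ := isConj_iff.1 c
  obtain ⟨i, e⟩ := h.zT g _ (e.trans (map_mul ι _ _).symm)
  revert i; decide +kernel

/-- move a commuting pair `d ∼ z`, `x` into `T` -/
theorem fh_pair {d x : G} (hd : IsConj (z ι) d) (x2 : x * x = 1) (c : Commute d x) :
    ∃ g y, g * d * g⁻¹ = z ι ∧ ι y = g * x * g⁻¹ := by
  obtain ⟨g, rfl⟩ := isConj_iff.1 hd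
  obtain ⟨m, hm, e⟩ := h.toTU.fh_syl fh_TC (fh_two (fh_sq (isConj_iff.2 ⟨g⁻¹, rfl⟩) x2)) (zpowers_le.2
    (mem_centralizer_singleton_iff.2 (by simpa [mul_assoc] using ((Commute.conj_iff g⁻¹).2 c).eq.symm)))
  obtain ⟨y, hy⟩ := e _ (mem_zpowers _)
  refine ⟨m * g⁻¹, y, ?_, by rw [hy]; group⟩
  calc _ = m * z ι * m⁻¹ := by group
    _ = _ := by rw [mem_centralizer_singleton_iff.1 hm, mul_inv_cancel_right]

theorem fh_dd {d x : G} (hd : IsConj (z ι) d) (hx : IsConj (z ι) x) (c : Commute d x) (n : x ≠ d) :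
    IsConj (a ι) (x * d) := by
  obtain ⟨g, y, e1, e2⟩ := h.fh_pair hd (fh_sq hx (fh_esq 4)) c
  obtain ⟨k, rfl⟩ := isConj_iff.1 hx
  obtain ⟨i, rfl⟩ := h.zT (g * k) y (by rw [e2]; group)
  refine (h.fh_ae (i := i) (j := 4) fun e => n (conj_injective (x := g) (by
    subst e; exact e2.symm.trans e1.symm))).trans (isConj_iff.2 ⟨g⁻¹, ?_⟩)
  rw [e, e2, e, ← z, ← e1]; group

theorem fh_cls {d x : G} (hd : IsConj (z ι) d) (hx : IsConj (a ι) x) (c : Commute d x) :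
    IsConj (z ι) (x * d) ∨ IsConj (a ι) (x * d) := by
  have x2 := fh_sq hx fh_asq
  obtain ⟨g, y, e1, e2⟩ := h.fh_pair hd x2 c
  have k : IsConj (ι (y * e0 4)) (x * d) := isConj_iff.2 ⟨g⁻¹, by rw [map_mul, e2, ← z, ← e1]; group⟩
  have k' : IsConj x (ι y) := isConj_iff.2 ⟨g, e2.symm⟩
  rcases fh_mulz y (h.inj (by rw [map_mul, map_one]; exact fh_sq k' x2)) (fun e => h.fh_za (by
    subst e; exact (hx.trans k').symm)) with ⟨m, n⟩ | ⟨s, t, e | e⟩
  · rcases A0_elts _ m with e | ⟨i, e⟩ | ⟨i, j, n, e⟩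
    · exact absurd e n
    · exact .inl ((h.fh_ze i).trans (by rwa [e] at k))
    · exact .inr ((h.fh_ae n).trans (by rwa [e, map_mul] at k))
  all_goals exact .inr ((hx.trans k').trans ((ι.map_isConj (isConj_iff.2 ⟨_, e⟩)).trans k))

theorem fh_dih (d u : G) (hd : IsConj (z ι) d) (hu : IsConj (a ι) u) :
    ∃ w, (IsConj (z ι) w ∨ IsConj (a ι) w) ∧ Commute w d ∧ Commute w u := by
  have d2 := fh_sq hd (fh_esq 4)
  have u2 := fh_sq hu fh_asq
  obtain ⟨k, k2, k1⟩ := Fi.dih_exists_of_even (Fi.dih_even_of_not_isConj d2 u2 fun c =>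
    h.fh_za (hd.trans (c.trans hu.symm)))
  obtain ⟨c1, c2⟩ := Fi.dih_commute d2 u2 k2
  have e : d * (d * u) ^ k * d = (d * u) ^ k := by rw [c1.eq, mul_assoc, d2, mul_one]
  refine ⟨_, ?_, c1.symm, c2.symm⟩
  rw [← e]
  rcases Fi.dih_isConj_or d2 u2 k with c | c
  · exact .inr (h.fh_dd hd (hd.trans c) ((Commute.refl d).mul_right c1) fun e => k1 (by simpa using e))
  · exact h.fh_cls hd (hu.trans c) ((Commute.refl d).mul_right c1)

theorem fh_gen [IsSimpleGroup G] {M : Subgroup G} (k : ∀ d, IsConj (z ι) d → d ∈ M) : M = ⊤ := by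
  have le : normalClosure {z ι} ≤ M := (closure_le _).2 fun d hd => by
    obtain ⟨_, rfl, c⟩ := Group.mem_conjugatesOfSet_iff.1 hd
    exact k d c
  rcases (normalClosure_normal (s := {z ι})).eq_bot_or_eq_top with e | e
  · exact absurd (h.inj ((mem_bot.1 (e ▸ subset_normalClosure rfl)).trans (map_one ι).symm)) (e0_ne 4)
  · exact top_le_iff.1 (e ▸ le)

end FA

theorem fh [IsSimpleGroup G] (h : FA ι) : FH ι where
  dih := h.fh_dih
  top M cz ca nA := by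
    have mv : ∀ x ∈ M, x * x = 1 → ∃ m ∈ M, ∃ y, ι y = m * x * m⁻¹ := fun x hx x2 => by
      obtain ⟨m, hm, e⟩ := h.toTU.fh_syl (fh_TC.trans cz) (fh_two x2) (zpowers_le.2 hx)
      exact ⟨m, hm, e _ (mem_zpowers _)⟩
    have uz : ∀ g, g * z ι * g⁻¹ ∈ M → g ∈ M := fun g hg => by
      obtain ⟨m, hm, y, e1⟩ := mv _ hg (fh_sq (isConj_iff.2 ⟨g, rfl⟩) (fh_esq 4))
      obtain ⟨i, rfl⟩ := h.zT (m * g) y (by rw [e1]; group)
      obtain ⟨n, hn, e2⟩ := h.fh_e1 i 4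
      have : n * m * g ∈ M := cz (mem_centralizer_singleton_iff.2 (by
        rw [← mul_inv_eq_iff_eq_mul]; refine Eq.trans ?_ e2; rw [e, e1]; group))
      exact (mul_mem_cancel_left (mul_mem (nA hn) hm)).1 this
    have ua : ∀ g, g * a ι * g⁻¹ ∈ M → g ∈ M := fun g hg => by
      obtain ⟨m, hm, y, e1⟩ := mv _ hg (fh_sq (isConj_iff.2 ⟨g, rfl⟩) fh_asq)
      have c : Commute (z ι) (ι y) := Commute.map (show Commute (e0 4) y from (z_central y).symm) ι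
      have := uz (m * g)⁻¹ (ca (mem_centralizer_singleton_iff.2 (by
        simpa [e1, mul_assoc] using ((Commute.conj_iff (m * g)⁻¹).2 c).eq)))
      exact (mul_mem_cancel_left hm).1 (inv_mem_iff.1 this)
    refine h.fh_gen fun d hd => ?_
    obtain ⟨w, hw, c1, c2⟩ := h.fh_dih d _ hd (IsConj.refl _)
    have wM : w ∈ M := ca (mem_centralizer_singleton_iff.2 c2)
    rcases hw with hw | hw <;> obtain ⟨g, rfl⟩ := isConj_iff.1 hw
    · refine (mul_mem_cancel_right (uz g wM)).1 (uz _ ?_)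
      rwa [show d * g * z ι * (d * g)⁻¹ = d * (g * z ι * g⁻¹) * d⁻¹ by group, ← c1.eq, mul_inv_cancel_right]
    · refine (mul_mem_cancel_right (ua g wM)).1 (ua _ ?_)
      rwa [show d * g * a ι * (d * g)⁻¹ = d * (g * a ι * g⁻¹) * d⁻¹ by group, ← c1.eq, mul_inv_cancel_right]

end CA.U5
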