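/-
Identification of `U₅(2)` through its class of 3-transpositions.
-/
import Cfsg.Agent.U5.Defs
import Cfsg.Agent.Th.Polar
import Cfsg.Agent.Th.Fin
import Cfsg.Agent.Unit.Six

set_option autoImplicit false

open Cfsg CA.FG Subgroup

namespace CA.U5

open CA.Th CA.QP Cfsg.Agent Cfsg.Agent.Unit CA.U6

universe u
variable {G : Type u} [Group G] [Finite G] {ι : T0 →* G}

theorem isU_four {D : Set G} (h : Prim D) {n : ℕ} (hU : IsU D n) : 4 ≤ n := by
  have hD := h.toFS
  obtain ⟨a, ha, c, hc, n1, hac⟩ := h.wid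
  have h2 : 2 ≤ n := by
    obtain ⟨φ, hφ⟩ := hU
    obtain ⟨_, ⟨v, h1, h2, -⟩, -⟩ := hφ.surj ha
    by_contra H1
    refine h1 (funext fun i => ?_)
    obtain rfl : n = 1 := by have := i.2; omega
    rw [Subsingleton.elim i 0]
    simpa [std_apply] using h2
  obtain ⟨ψ, hψ⟩ := hU.uv h2
  obtain ⟨y, hy, y1, y2⟩ := hD.exists_sep h.con h.tau ha hc n1
  obtain ⟨z, hz, z1, z2⟩ := hD.exists_sep h.con h.tau hc ha n1.symm
  obtain ⟨a, ia, rfl⟩ := hψ.surj a ha
  obtain ⟨c, ic, rfl⟩ := hψ.surj c hc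
  obtain ⟨y, iy, rfl⟩ := hψ.surj y hy
  obtain ⟨z, iz, rfl⟩ := hψ.surj z hz
  rw [hψ.comm hD ia ic] at hac
  rw [hψ.comm hD ia iy] at y1
  rw [hψ.comm hD ic iy] at y2
  rw [hψ.comm hD ic iz] at z1
  rw [hψ.comm hD ia iz] at z2
  have := LinearIndependent.fintype_card_le_finrank ((Fintype.linearIndependent_iff (R := F4)
    (v := (![a, c, y, z] : Fin 4 → _))).2 fun g hg => by
      simp only [Fin.sum_univ_four, Matrix.cons_val] at hg
      have e2 : g 2 = 0 := by simpa [ia.2, hac, y1, z2] using congrArg (std F4 n a) hg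
      have e3 : g 3 = 0 := by simpa [ic.2, Herm.eq_zero_comm hac, y2, z1] using congrArg (std F4 n c) hg
      have e0 : g 0 = 0 := by simpa [e2, e3, y1, y2] using congrArg (std F4 n · y) hg
      have e1 : g 1 = 0 := by simpa [e2, e3, e0, ic.1] using hg
      intro i; fin_cases i; exacts [e0, e1, e2, e3])
  simpa using this

omit [Finite G] in
theorem symp_par {D : Set G} (hD : FS D) (hs : Symp D) {a b w : G} (ha : a ∈ D) (hb : b ∈ D) (hw : w ∈ D)
    (n : ¬ Commute a b) : Commute w (tw a b) ↔ (Commute w a ↔ Commute w b) := by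
  by_cases c2 : Commute w b
  · rw [comm_tw_iff (hD.sq b hb) c2]; tauto
  by_cases c1 : Commute w a
  · have := hD.nc_third ha hb n c1 c2; tauto
  have := hs a ha b hb w hw n
  tauto

omit [Finite G] in
theorem fis_comm (i j : Fin 5) : Commute (e ι i) (e ι j) :=
  Commute.map ((show ∀ i j, e0 i * e0 j = e0 j * e0 i by decide +kernel) i j) ι

theorem FE.fis_line (h : FE ι) {x : G} (hx : IsConj (z ι) x) {i j : Fin 5} (ij : i ≠ j) (c1 : Commute x (e ι i))
    (c2 : Commute x (e ι j)) : ∃ k, x = e ι k := by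
  obtain ⟨k, ik, jk⟩ := (show ∀ i j : Fin 5, ∃ k, i ≠ k ∧ j ≠ k by decide) i j
  obtain ⟨n, hn, n1, n2, -⟩ := h.tr3 i j k 0 1 2 ij ik jk (by decide) (by decide) (by decide)
  have m : x ∈ 𝒩(sA ι) := by
    have : n * x * n⁻¹ ∈ 𝒩(sA ι) := h.ca (mem_centralizer_singleton_iff.2 (by
      rw [a, ← show _ = ι (e0 0) from n1, ← show _ = ι (e0 1) from n2, conj_mul]
      exact (comm_conj.2 (c1.mul_right c2)).eq))
    simpa [mul_assoc] using mul_mem (mul_mem (inv_mem hn) this) hn
  obtain ⟨g, rfl⟩ := isConj_iff.1 hx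
  have pA : IsPGroup 2 (sA ι) := (IsPGroup.of_card (n := 10) T0.card).to_subgroup _ |>.map ι
  have px : IsPGroup 2 (zpowers (g * z ι * g⁻¹)) := IsPGroup.iff_card.2 (by
    rw [Nat.card_zpowers]
    exact (Nat.dvd_prime_pow Nat.prime_two (m := 1)).1 (orderOf_dvd_of_pow_eq_one (by
      rw [conj_pow, pow_one, pow_two, ← map_mul, e0_sq]; simp)) |>.imp fun _ h => h.2)
  exact (h.two _ (px.to_sup_of_normal_right' pA (zpowers_le.2 m)) le_sup_right).2 g (mem_sup_left (mem_zpowers _))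

theorem fis [IsSimpleGroup G] (h : FE ι) (h3 : IsThreeTranspositionClass (conjugatesOf (z ι))) {F : Type*} [Field F]
    [Fintype F] (hF : Fintype.card F = 4) : Nonempty (G ≃* PSU 5 F 2) := by
  have hD := fs_of_group (CA.Fi.class_group h3)
  have ne : ∀ i j, i ≠ j → e ι i ≠ e ι j := fun i j ij e => ij (e0_inj (h.inj e))
  have eD : ∀ i, e ι i ∈ conjugatesOf (z ι) := fun i => by
    obtain ⟨j, k, a1, a2, a3⟩ := (show ∀ i : Fin 5, ∃ j k, i ≠ j ∧ i ≠ k ∧ j ≠ k by decide) i
    obtain ⟨n, -, n1, -⟩ := h.tr3 4 0 1 i j k (by decide) (by decide) (by decide) a1 a2 a3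
    exact isConj_iff.2 ⟨n, n1⟩
  have nab : ¬ ∀ x y : G, x * y = y * x := fun c => ne 4 0 (by decide) (by
    obtain ⟨g, hg⟩ := isConj_iff.1 (eD 0)
    rw [← hg, c g, mul_inv_cancel_right])
  have hZ : center G = ⊥ := (inferInstance : (center G).Normal).eq_bot_or_eq_top.resolve_right fun e =>
    nab fun x y => mem_center_iff.1 (e ▸ mem_top y) x
  have hs : IsSimpleGroup (commutator G) := by
    rw [(inferInstance : (commutator G).Normal).eq_bot_or_eq_top.resolve_left fun e => nab fun x y =>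
      commutatorElement_eq_one_iff_mul_comm.1 (mem_bot.1 (e ▸ commutator_mem_commutator (mem_top x) (mem_top y)))]
    exact topEquiv.isSimpleGroup
  have hP := prim_of_simple h3 hZ hs ⟨_, eD 0, _, eD 1, ne 0 1 (by decide), fis_comm 0 1⟩
  have one : ∀ x ∈ conjugatesOf (z ι), ∀ i j k, j ≠ k → ¬ Commute (e ι i) x → Commute x (e ι j) → ¬ Commute x (e ι k) :=
    fun x hx i j k jk n c1 c2 => by
      obtain ⟨l, rfl⟩ := h.fis_line hx jk c1 c2
      exact n (fis_comm i l)
  rcases polar hP (eD 4) (fun t => ne 0 1 (by decide) (t _ ⟨eD 0, ne 0 4 (by decide), fis_comm 4 0⟩ _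
    ⟨eD 1, ne 1 4 (by decide), fis_comm 4 1⟩ fun y hy => ⟨fun c => by
      obtain ⟨l, rfl⟩ := h.fis_line hy.1 (i := 4) (j := 0) (by decide) hy.2.2.symm c.symm
      exact fis_comm _ _, fun c => by
      obtain ⟨l, rfl⟩ := h.fis_line hy.1 (i := 4) (j := 1) (by decide) hy.2.2.symm c.symm
      exact fis_comm _ _⟩)) with hs | ⟨n, hU⟩
  · exfalso
    obtain ⟨x, hx, x0, x1⟩ := hD.exists_sep hP.con hP.tau (eD 0) (eD 1) (ne 0 1 (by decide))
    obtain ⟨y, hy, y0, y2⟩ := hD.exists_sep hP.con hP.tau (eD 0) (eD 2) (ne 0 2 (by decide))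
    have nx := fun k hk => one x hx 0 1 k hk x0 x1.symm
    have ny := fun k hk => one y hy 0 2 k hk y0 y2.symm
    have st : ∀ i j, 1 ≠ i → 1 ≠ j → (Commute y (tw (tw x (e ι i)) (e ι j)) ↔
        ((Commute y x ↔ Commute y (e ι i)) ↔ Commute y (e ι j))) := fun i j hi hj => by
      rw [symp_par hD hs (hD.cl _ hx _ (eD i)) (eD j) hy (fun c => nx j hj
        ((comm_tw_iff (hD.sq _ (eD i)) (fis_comm j i)).1 c.symm).symm), symp_par hD hs hx (eD i) hy (nx i hi)]
    have eq : tw (tw x (e ι 0)) (e ι 2) = tw (tw x (e ι 3)) (e ι 4) := by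
      have r1 : e ι 2 * e ι 0 = e ι 4 * e ι 3 * e ι 1 := by
        simp only [← map_mul]; exact congrArg ι (by decide +kernel)
      have r2 : e ι 0 * e ι 2 = e ι 1 * (e ι 3 * e ι 4) := by
        simp only [← map_mul]; exact congrArg ι (by decide +kernel)
      have r3 : e ι 1 * x * e ι 1 = x := by rw [x1.eq, mul_assoc, hD.sq _ (eD 1), mul_one]
      calc _ = e ι 2 * e ι 0 * x * (e ι 0 * e ι 2) := by simp only [tw, mul_assoc]
        _ = e ι 4 * e ι 3 * (e ι 1 * x * e ι 1) * (e ι 3 * e ι 4) := by rw [r1, r2]; simp only [mul_assoc]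
        _ = _ := by rw [r3]; simp only [tw, mul_assoc]
    have s1 := st 0 2 (by decide) (by decide)
    rw [eq, st 3 4 (by decide) (by decide)] at s1
    have := ny 0 (by decide)
    have := ny 3 (by decide)
    have := ny 4 (by decide)
    have := y2.symm
    tauto
  have n4 := isU_four hP hU
  obtain ⟨φ, -⟩ := fin_u hP h3.2.2 hZ hU n4
  have c := fq4.card_PSU (n := n) (by omega)
  rw [← Nat.card_congr φ.toEquiv, ← ι.range.card_mul_index, ← Nat.card_congr (MonoidHom.ofInjective h.inj).toEquiv,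
    T0.card] at c
  have o1 : Odd (Nat.gcd n (2 + 1) * ((2 + 1) * ι.range.index)) :=
    (Odd.of_dvd_nat (by decide) (Nat.gcd_dvd_right _ _)).mul ((by decide : Odd (2 + 1)).mul h.odd)
  have o2 : Odd (∏ i ∈ Finset.range n, (if Even i then 2 ^ (i + 1) + 1 else 2 ^ (i + 1) - 1)) :=
    Finset.prod_induction _ _ (fun _ _ => Odd.mul) odd_one fun i _ => by
      have : Even (2 ^ (i + 1)) := by simp [Nat.even_pow]
      split_ifs
      · exact this.add_one
      · exact Nat.Even.sub_odd Nat.one_le_two_pow this odd_one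
  have e10 : 10 = n * (n - 1) / 2 := by
    have := congrArg (padicValNat 2) (show 2 ^ 10 * (Nat.gcd n (2 + 1) * ((2 + 1) * ι.range.index)) = _ from
      Eq.trans (by ring) c)
    rwa [padicValNat.mul (by positivity) o1.pos.ne', padicValNat.mul (by positivity) o2.pos.ne', padicValNat.prime_pow,
      padicValNat.prime_pow, padicValNat.eq_zero_of_not_dvd o1.not_two_dvd_nat,
      padicValNat.eq_zero_of_not_dvd o2.not_two_dvd_nat] at this
  obtain rfl : n = 5 := by
    by_contra n5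
    rcases (show n = 4 ∨ 6 ≤ n by omega) with rfl | n6
    · omega
    · have := Nat.mul_le_mul n6 (show 5 ≤ n - 1 by omega); omega
  exact ⟨φ.trans (Lin.quotCenterCongr (suCongr (FiniteField.ringEquivOfCardEq (card_F4.trans hF.symm)) 5 2))⟩

end CA.U5
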