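/-
The model `T0` is a Sylow 2-subgroup of `U₅(2)`.
-/
import Cfsg.Agent.U5.Defs
import Cfsg.Agent.S0280

set_option autoImplicit false

open Cfsg Subgroup Matrix

namespace CA.U5

open K

def mM (x : T0) : Matrix (Fin 5) (Fin 5) K :=
  !![1, x.a, x.c, x.d, x.g;
     0, 1, x.b, x.f, cj x.d + cj x.a * x.f + x.b * cj x.c;
     0, 0, 1, cj x.b, cj x.c + cj x.a * cj x.b;
     0, 0, 0, 1, cj x.a;
     0, 0, 0, 0, 1]

def mJ : Matrix (Fin 5) (Fin 5) K := !![0,0,0,0,1; 0,0,0,1,0; 0,0,1,0,0; 0,1,0,0,0; 1,0,0,0,0]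

def mP : Matrix (Fin 5) (Fin 5) K := !![1,0,0,0,K.w; 0,1,0,K.w,0; 0,0,1,0,0; 0,1,0,K.v,0; 1,0,0,0,K.v]

def mP' : Matrix (Fin 5) (Fin 5) K := !![K.v,0,0,0,K.w; 0,K.v,0,K.w,0; 0,0,1,0,0; 0,1,0,1,0; 1,0,0,0,1]

theorem PP' : mP * mP' = 1 := by decide +kernel
theorem P'P : mP' * mP = 1 := by decide +kernel
theorem PJ : mPᵀ * mP.map cj = mJ := by decide +kernel
theorem P'J : mP'ᵀ * mJ * mP'.map cj = 1 := by decide +kernel

theorem mM_mul (x y : T0) : mM (x * y) = mM x * mM y := by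
  have := two
  ext i j
  fin_cases i <;> fin_cases j <;>
    simp [mM, Matrix.mul_apply, Fin.sum_univ_five, T0.mul_a, T0.mul_b, T0.mul_c, T0.mul_d, T0.mul_f, T0.mul_g,
      cj_cj, y.hf] <;> grind

theorem mM_one : mM 1 = 1 := by decide +kernel

theorem mM_J (x : T0) : (mM x)ᵀ * mJ * (mM x).map cj = mJ := by
  have := two
  ext i j
  fin_cases i <;> fin_cases j <;>
    simp [mM, mJ, Matrix.mul_apply, Fin.sum_univ_five, cj_cj, x.hf, x.hg] <;> grind

theorem mM_det (x : T0) : (mM x).det = 1 := by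
  rw [Matrix.det_of_upperTriangular]
  · simp [mM, Fin.prod_univ_five]
  · intro i j h
    fin_cases i <;> fin_cases j <;> simp_all [mM]

theorem mM_inj {x : T0} (h : mM x = 1) : x = 1 := by
  have k := fun i j => congrFun (congrFun h i) j
  exact T0.ext (k 0 1) (k 1 2) (k 0 2) (k 0 3) (k 1 3) (k 0 4)

def mN (x : T0) : Matrix (Fin 5) (Fin 5) K := mP * mM x * mP'

theorem mN_mul (x y : T0) : mN (x * y) = mN x * mN y := by
  rw [mN, mN, mN, mM_mul]
  calc _ = mP * mM x * 1 * mM y * mP' := by simp only [Matrix.mul_assoc, Matrix.one_mul]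
    _ = _ := by rw [← P'P]; simp only [Matrix.mul_assoc]

theorem mN_one : mN 1 = 1 := by rw [mN, mM_one, Matrix.mul_one, PP']

theorem mN_det (x : T0) : (mN x).det = 1 := by
  rw [mN, det_mul, det_mul, mM_det, mul_one, ← det_mul, PP', det_one]

theorem mN_U (x : T0) : (mN x)ᵀ * (mN x).map cj = 1 := by
  rw [mN, transpose_mul, transpose_mul, Matrix.map_mul, Matrix.map_mul, ← P'J, ← mM_J x, ← PJ]
  simp only [Matrix.mul_assoc]

theorem mN_inj {x : T0} (h : mN x = 1) : x = 1 := by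
  refine mM_inj ?_
  calc mM x = (mP' * mP) * mM x * (mP' * mP) := by rw [P'P, Matrix.one_mul, Matrix.mul_one]
    _ = mP' * mN x * mP := by simp only [mN, Matrix.mul_assoc]
    _ = 1 := by rw [h, Matrix.mul_one, P'P]

universe u v

theorem exists_hom {F : Type v} [Field F] [Fintype F] (hF : Fintype.card F = 4) :
    ∃ ψ : T0 →* SU 5 F 2, Function.Injective ψ := by
  haveI : Nontrivial K := ⟨⟨0, 1, by decide⟩⟩
  haveI : NoZeroDivisors K := ⟨by decide⟩
  haveI : IsDomain K := NoZeroDivisors.to_isDomain K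
  letI := Fintype.fieldOfDomain K
  let φ : K ≃+* F := FiniteField.ringEquivOfCardEq (K.card.trans hF.symm)
  have h2 : (2 : F) = 0 := by rw [← map_ofNat φ 2]; exact (congrArg φ two).trans (map_zero φ)
  haveI : CharP F 2 := CharTwo.of_one_ne_zero_of_two_eq_zero one_ne_zero h2
  let σ : F →+* F := frobenius F 2
  have hσ : ∀ x, φ (cj x) = σ (φ x) := fun x => by rw [cj_eq, map_pow]; rfl
  let f : T0 → SpecialLinearGroup (Fin 5) F := fun x => ⟨(mN x).map φ, by
    rw [show (mN x).map φ = (φ : K →+* F).mapMatrix (mN x) from rfl, ← RingHom.map_det, mN_det, map_one]⟩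
  have m : ∀ x, f x ∈ SU 5 F 2 := fun x u v => by
    have k : ((mN x).map φ)ᵀ * ((mN x).map φ).map σ = 1 := by
      have := congrArg (fun M : Matrix (Fin 5) (Fin 5) K => M.map φ) (mN_U x)
      simp only [Matrix.map_mul] at this
      rw [Matrix.map_one _ (map_zero φ) (map_one φ)] at this
      rw [← this]
      congr 1
      ext i j
      exact (hσ _).symm
    have e : ∀ u v : Fin 5 → F, hermForm 5 F 2 u v = u ⬝ᵥ (σ ∘ v) := fun u v => rfl
    show hermForm 5 F 2 (((mN x).map φ) *ᵥ u) (((mN x).map φ) *ᵥ v) = _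
    rw [e, e, show σ ∘ (((mN x).map φ) *ᵥ v) = (((mN x).map φ).map σ) *ᵥ (σ ∘ v) from
      funext fun i => RingHom.map_mulVec σ _ _ i, dotProduct_mulVec, vecMul_mulVec, k, vecMul_one]
  refine ⟨MonoidHom.mk' (fun x => ⟨f x, m x⟩) fun x y => Subtype.ext (Subtype.ext ?_), ?_⟩
  · show (mN (x * y)).map φ = (mN x).map φ * (mN y).map φ
    rw [mN_mul, Matrix.map_mul]
  · refine (injective_iff_map_eq_one _).2 fun x hx => mN_inj ?_
    have k : (mN x).map φ = 1 := congrArg (fun g : SU 5 F 2 => g.1.1) hx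
    refine Matrix.map_injective φ.injective ?_
    show (mN x).map φ = (1 : Matrix (Fin 5) (Fin 5) K).map φ
    rw [k, Matrix.map_one _ (map_zero φ) (map_one φ)]

theorem exists_TU {G : Type u} [Group G] [Finite G] {F : Type v} [Field F] [Fintype F] (hF : Fintype.card F = 4)
    (S : Sylow 2 G) (P : Sylow 2 (PSU 5 F 2)) (hS : Nonempty ((S : Subgroup G) ≃* (P : Subgroup (PSU 5 F 2)))) :
    ∃ ι : T0 →* G, TU ι := by
  obtain ⟨e⟩ := hS
  letI := Cfsg.Agent.Unit.frobStar (q := 2) hF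
  have hq := Cfsg.Agent.Unit.fq_frobStar (q := 2) hF
  have h1 := hq.card_PSU (n := 5) (by norm_num)
  have h2 : Nat.card (PSU 5 F 2) = 13685760 := by
    generalize Nat.card (PSU 5 F 2) = N at h1
    norm_num [Finset.prod_range_succ] at h1
    omega
  haveI : Finite (PSU 5 F 2) := Nat.finite_of_card_ne_zero (by rw [h2]; norm_num)
  obtain ⟨ψ, hψ⟩ := exists_hom hF
  let f : T0 →* PSU 5 F 2 := (QuotientGroup.mk' _).comp ψ
  have hf : Function.Injective f := ((MonoidHom.ker_eq_bot_iff (QuotientGroup.mk' _)).1 (by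
    rw [QuotientGroup.ker_mk', ← card_eq_one, hq.card_center_SU (by norm_num)]; rfl)).comp hψ
  have c : Nat.card f.range = 2 ^ 10 := (Nat.card_congr (MonoidHom.ofInjective hf).toEquiv).symm.trans T0.card
  have fa : Nat.factorization 13685760 2 = 10 := by
    rw [show 13685760 = 2 ^ 10 * 13365 by norm_num, Nat.factorization_mul (by norm_num) (by norm_num),
      Nat.prime_two.factorization_pow]
    simp [Nat.factorization_eq_zero_of_not_dvd]
  let Q : Sylow 2 (PSU 5 F 2) := Sylow.ofCard f.range (by rw [c, h2, fa])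
  let E : T0 ≃* (S : Subgroup G) := (MonoidHom.ofInjective hf).trans ((Q.equiv P).trans e.symm)
  refine ⟨(S : Subgroup G).subtype.comp E.toMonoidHom, Subtype.val_injective.comp E.injective, ?_⟩
  have : ((S : Subgroup G).subtype.comp E.toMonoidHom).range = S := by
    rw [MonoidHom.range_comp, MonoidHom.range_eq_top.2 E.surjective, ← MonoidHom.range_eq_map, range_subtype]
  rw [this, ← Nat.not_even_iff_odd, even_iff_two_dvd]
  exact S.not_dvd_index

theorem realizeEqns_U5_Syl : True := by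
  have := @CA.U5.mP'.eq_1
  have := @CA.U5.mP'.eq_def
  have := @CA.U5.mP'.congr_simp
  have := @CA.U5.mM.eq_1
  have := @CA.U5.mM.eq_def
  have := @CA.U5.mM.congr_simp
  have := @CA.U5.mJ.eq_1
  have := @CA.U5.mJ.eq_def
  have := @CA.U5.mJ.congr_simp
  have := @CA.U5.mN.eq_1
  have := @CA.U5.mN.eq_def
  have := @CA.U5.mN.congr_simp
  have := @CA.U5.mP.eq_1
  have := @CA.U5.mP.eq_def
  have := @CA.U5.mP.congr_simp
  trivial

end CA.U5
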