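/-
The conjugates of the central involution form a class of 3-transpositions.
-/
import Cfsg.Agent.U5.Fh
import Cfsg.Agent.BG.P03a

set_option autoImplicit false
set_option linter.unusedSectionVars false

open Cfsg CA.FG Subgroup

namespace CA.U5

universe u

variable {G : Type u} [Group G] [Finite G] {ι : T0 →* G}

theorem tt_card (p : T0 → Prop) [DecidablePred p] : Nat.card {x // p x} = (Finset.univ.filter
    fun q : K × K × K × K × Bool × Bool => p (T0.mk' q.1 q.2.1 q.2.2.1 q.2.2.2.1 q.2.2.2.2.1 q.2.2.2.2.2)).card := by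
  rw [← Fintype.card_subtype, ← Nat.card_eq_fintype_card]
  exact Nat.card_congr (T0.equiv.symm.subtypeEquiv fun _ => Iff.rfl).symm

theorem tt_cQ : Nat.card Q0 = 128 := (tt_card (· ∈ Q0)).trans (by decide +kernel)

theorem tt_cQR : Nat.card (Q0 ⊓ R0 : Subgroup T0) = 32 := (tt_card fun x => x ∈ Q0 ∧ x ∈ R0).trans (by decide +kernel)

theorem tt_cX : Nat.card {x : T0 // x ∈ Q0 ∧ x * x = 1 ∧ x ≠ 1 ∧ x ≠ e0 4} = 54 :=
  (tt_card _).trans (by decide +kernel)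

theorem tt_inv : ∀ y ∈ Q0, y * y = 1 → y ≠ 1 → y ≠ e0 4 → y * e0 0 * y⁻¹ = e0 0 → ∃ i j, i ≠ j ∧ y = e0 i * e0 j := by
  decide +kernel

theorem tt_free (Γ : Subgroup G) (X : Set G) (inv : ∀ γ ∈ Γ, ∀ y ∈ X, γ * y * γ⁻¹ ∈ X)
    (fr : ∀ γ ∈ Γ, ∀ y ∈ X, γ * y * γ⁻¹ = y → γ = 1) : Nat.card Γ ∣ Nat.card X :=
  letI : MulAction Γ G := MulAction.compHom G ((MulAut.conj (G := G)).comp Γ.subtype)
  BG.P03.card_dvd_of_free (R := Γ) X (fun x t ht => inv x x.2 t ht) fun x t ht e => Subtype.ext (fr x x.2 t ht e)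

theorem tt_uncj {g x w : G} (c : Commute x (g * w * g⁻¹)) : g⁻¹ * x * g ∈ 𝒞[w] :=
  mem_centralizer_singleton_iff.2 (by simpa [mul_assoc] using ((Commute.conj_iff g⁻¹).2 c).eq)

theorem tt_cj {d : G} (hd : IsConj (z ι) d) (g : G) : IsConj (z ι) (g⁻¹ * d * g) :=
  hd.trans (isConj_iff.2 ⟨g⁻¹, by rw [inv_inv]⟩)

namespace FE
variable (h : FE ι)
include h

theorem tt_a {d : G} (hd : IsConj (z ι) d) (c : d ∈ 𝒞[a ι]) : ∃ i, d = e ι i := by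
  have p : IsPGroup 2 T0 := IsPGroup.of_card (n := 10) (T0.card.trans rfl)
  have := (h.two (sA ι ⊔ zpowers d) (((p.to_subgroup A0).map ι).to_sup_of_normal_left'
    (fh_two (fh_sq hd (fh_esq 4))) (zpowers_le.2 (h.ca c))) le_sup_left).2
  obtain ⟨g, rfl⟩ := isConj_iff.1 hd
  exact this g (mem_sup_right (mem_zpowers _))

theorem tt_comm {w d x : G} (hw : IsConj (a ι) w) (hd : IsConj (z ι) d) (hx : IsConj (z ι) x) (cd : Commute d w)
    (cx : Commute x w) : Commute d x := by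
  obtain ⟨g, rfl⟩ := isConj_iff.1 hw
  obtain ⟨i, ei⟩ := h.tt_a (tt_cj hd g) (tt_uncj cd)
  obtain ⟨j, ej⟩ := h.tt_a (tt_cj hx g) (tt_uncj cx)
  have := fh_ecomm (ι := ι) i j
  rw [← ei, ← ej] at this
  simpa [mul_assoc] using (Commute.conj_iff g).2 this

theorem tt_nb (hh : FH ι) {x : G} (hx : IsConj (z ι) x) : ∃ i, Commute x (e ι i) := by
  obtain ⟨w, hw | hw, c1, c2⟩ := hh.dih x _ hx (IsConj.refl _)
  · obtain ⟨i, rfl⟩ := h.tt_a hw (mem_centralizer_singleton_iff.2 c2)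
    exact ⟨i, c1.symm⟩
  obtain ⟨g, rfl⟩ := isConj_iff.1 hw
  obtain ⟨j, ej⟩ := h.tt_a (tt_cj hx g) (tt_uncj c1.symm)
  choose σ hσ using h.perm _ (h.ca (tt_uncj c2.symm))
  have n2 : g⁻¹ * a ι * g * (g⁻¹ * a ι * g) = 1 := fh_sq (isConj_iff.2 ⟨g⁻¹, by rw [inv_inv]⟩) fh_asq
  have iv : Function.Involutive σ := fun i => e0_inj (h.inj (by
    rw [← e, ← hσ, ← hσ, ← mul_assoc, ← mul_assoc, n2, mul_assoc, ← mul_inv_rev, n2]; simp))
  obtain ⟨i, ei⟩ := Equiv.Perm.exists_fixed_point_of_prime (p := 2) (n := 1) (by decide) (σ := iv.toPerm σ)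
    (Equiv.ext fun i => iv i)
  have k := hσ i
  rw [show σ i = i from ei, mul_inv_eq_iff_eq_mul] at k
  obtain ⟨l, el⟩ := h.tt_a (d := g * e ι i * g⁻¹) ((h.fh_ze i).trans (isConj_iff.2 ⟨g, rfl⟩))
    (mem_centralizer_singleton_iff.2 (by simpa [mul_assoc] using ((Commute.conj_iff g).2 k).eq.symm))
  refine ⟨l, ?_⟩
  have := fh_ecomm (ι := ι) j i
  rw [← ej] at this
  simpa [← el, mul_assoc] using (Commute.conj_iff g).2 this

theorem tt_mv {x : G} (hx : IsConj (z ι) x) (c : x ∈ 𝒞[z ι]) : ∃ m ∈ 𝒞[z ι], ∃ j, e ι j = m * x * m⁻¹ := by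
  obtain ⟨m, hm, k⟩ := h.toTU.fh_syl fh_TC (fh_two (fh_sq hx (fh_esq 4))) (zpowers_le.2 c)
  obtain ⟨y, ey⟩ := k _ (mem_zpowers _)
  obtain ⟨g, rfl⟩ := isConj_iff.1 hx
  obtain ⟨j, rfl⟩ := h.zT (m * g) y (by rw [ey]; group)
  exact ⟨m, hm, j, ey⟩

theorem tt_Qc {x y : G} (hx : IsConj (z ι) x) (c : x ∈ 𝒞[z ι]) (hy : y ∈ sQ ι) : Commute x (y * x * y⁻¹) := by
  obtain ⟨m, hm, j, ej⟩ := h.tt_mv hx c
  obtain ⟨y0, -, ey⟩ := (mem_normalizer_iff.1 (h.cz hm) y).1 hy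
  obtain ⟨k, ek⟩ := conj_e0 y0 j
  have := fh_ecomm (ι := ι) j k
  rw [e, e, ← ek, map_mul, map_mul, map_inv, ey, ← e, ej] at this
  simpa [mul_assoc] using (Commute.conj_iff m⁻¹).2 this

theorem tt_N {x : G} (hx : IsConj (z ι) x) (c : x ∈ 𝒞[z ι]) {y : T0} (hy : y ∈ Q0 ∧ y * y = 1 ∧ y ≠ 1 ∧ y ≠ e0 4)
    (k : ι y * (e ι 0 * x) * (ι y)⁻¹ = e ι 0 * x) : Commute (e ι 0) x := by
  obtain ⟨j, ej⟩ := conj_e0 y 0
  have e1 : ι y * e ι 0 * (ι y)⁻¹ = e ι j := by rw [e, e, ← ej, map_mul, map_mul, map_inv]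
  rw [← conj_mul, e1] at k
  by_cases j0 : j = 0
  · subst j0
    obtain ⟨i, j, n, ey⟩ := tt_inv y hy.1 hy.2.1 hy.2.2.1 hy.2.2.2 ej
    exact h.tt_comm (w := ι y) (by rw [ey, map_mul]; exact h.fh_ae n) (h.fh_ze 0) hx (mul_inv_eq_iff_eq_mul.1 e1).symm
      (mul_inv_eq_iff_eq_mul.1 (mul_left_cancel k)).symm
  refine h.tt_comm (h.fh_ae (Ne.symm j0)) (h.fh_ze 0) hx ((Commute.refl _).mul_right (fh_ecomm 0 j)) ?_
  rw [show e ι 0 * e ι j = x * (ι y * x * (ι y)⁻¹)⁻¹ by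
    rw [eq_mul_inv_iff_mul_eq, mul_assoc, k, ← mul_assoc, fh_esq, one_mul]]
  exact (Commute.refl _).mul_right (h.tt_Qc hx c ⟨y, hy.1, rfl⟩).inv_right

theorem tt_core {x : G} (hx : IsConj (z ι) x) (c : x ∈ 𝒞[z ι]) (n : ¬ Commute (e ι 0) x) : (e ι 0 * x) ^ 3 = 1 := by
  have d2 := fh_esq (ι := ι) 0
  have x2 := fh_sq hx (fh_esq 4)
  have dC : e ι 0 ∈ 𝒞[z ι] := fh_TC ⟨_, rfl⟩
  have cj : ∀ k : ℕ, IsConj (z ι) (e ι 0 * (e ι 0 * x) ^ k) := fun k =>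
    (Fi.dih_isConj_or d2 x2 k).elim (h.fh_ze 0).trans hx.trans
  have o : ∀ k : ℕ, (e ι 0 * x) ^ k * (e ι 0 * x) ^ k = 1 → (e ι 0 * x) ^ k = 1 := fun k k2 => by
    by_contra k1
    obtain ⟨c1, c2⟩ := Fi.dih_commute d2 x2 k2
    have := h.fh_dd (h.fh_ze 0) (cj k) ((Commute.refl _).mul_right c1) fun e => k1 (by simpa using e)
    rw [c1.eq, mul_assoc, d2, mul_one] at this
    exact n (h.tt_comm this (h.fh_ze 0) hx c1 c2)
  have od : ¬ Even (orderOf (e ι 0 * x)) := fun ev => by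
    obtain ⟨k, k2, k1⟩ := Fi.dih_exists_of_even ev
    exact k1 (o k k2)
  set g := e ι 0 * x with hg
  have gC : zpowers g ≤ 𝒞[z ι] := zpowers_le.2 (mul_mem dC c)
  have fr : ∀ γ ∈ zpowers g, ∀ y : T0, y ∈ Q0 ∧ y * y = 1 ∧ y ≠ 1 ∧ y ≠ e0 4 → γ * ι y * γ⁻¹ = ι y → γ = 1 := by
    intro γ hγ y hy k
    obtain ⟨m, rfl⟩ := mem_powers_iff_mem_zpowers.2 hγ
    have := h.tt_N (cj m) (mul_mem dC (gC hγ)) hy (by
      rw [← mul_assoc (e ι 0), d2, one_mul, mul_inv_eq_iff_eq_mul]; exact (mul_inv_eq_iff_eq_mul.1 k).symm)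
    have c1 : Commute (e ι 0) (g ^ m) := by simpa [← mul_assoc, d2] using (Commute.refl _).mul_right this
    have := Fi.dih_sq d2 x2 m
    rw [mul_assoc, ← mul_assoc (g ^ m), ← c1.eq, ← mul_assoc, ← mul_assoc, d2, one_mul] at this
    exact o m this
  have d54 := tt_free (zpowers g) (ι '' {y | y ∈ Q0 ∧ y * y = 1 ∧ y ≠ 1 ∧ y ≠ e0 4}) (by
      rintro γ hγ _ ⟨y, ⟨a, b, c, d⟩, rfl⟩
      obtain ⟨y', m, ey⟩ := (mem_normalizer_iff.1 (h.cz (gC hγ)) _).1 ⟨y, a, rfl⟩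
      refine ⟨y', ⟨m, h.inj ?_, fun e => c (h.inj ?_), fun e => d (h.inj ?_)⟩, ey⟩
      · rw [map_mul, ey, conj_mul, ← map_mul, b, map_one, mul_one, mul_inv_cancel]
      · rw [e, map_one, eq_comm, conj_eq_one_iff] at ey
        rw [ey, map_one]
      · rw [e, eq_comm, mul_inv_eq_iff_eq_mul, ← mem_centralizer_singleton_iff.1 (gC hγ)] at ey
        exact mul_left_cancel ey)
    (by rintro γ hγ _ ⟨y, hy, rfl⟩; exact fr γ hγ y hy)
  rw [Nat.card_zpowers, Nat.card_image_of_injective h.inj] at d54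
  replace d54 : orderOf g ∣ 54 := d54.trans tt_cX.dvd
  have g27 : g ^ 27 = 1 := orderOf_dvd_iff_pow_eq_one.1
    ((Nat.coprime_two_right.2 (Nat.not_even_iff_odd.1 od)).dvd_of_dvd_mul_left (d54.trans (by norm_num)))
  by_contra g3
  obtain ⟨k, hk, k9, k3⟩ : ∃ k ∈ zpowers g, k ^ 9 = 1 ∧ k ^ 3 ≠ 1 := by
    by_cases g9 : g ^ 9 = 1
    · exact ⟨g, mem_zpowers g, g9, g3⟩
    · exact ⟨g ^ 3, pow_mem (mem_zpowers g) 3, by rwa [← pow_mul], by rwa [← pow_mul]⟩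
  have kg := zpowers_le.2 hk
  have cQ : Nat.card (sQ ι) = 128 := (card_map_of_injective h.inj).trans tt_cQ
  have d9 := tt_free (zpowers k) ((sQ ι : Set G) \ (sQ ι ⊓ 𝒞[k ^ 3] : Subgroup G)) (fun γ hγ y hy => by
      have gk : γ ∈ 𝒞[k ^ 3] := zpowers_le.2 (mem_centralizer_singleton_iff.2 ((Commute.refl k).pow_right 3)) hγ
      refine ⟨(mem_normalizer_iff.1 (h.cz (gC (kg hγ))) _).1 hy.1, fun e => hy.2 ⟨hy.1, ?_⟩⟩
      simpa [mul_assoc] using mul_mem (mul_mem (inv_mem gk) e.2) gk)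
    fun γ hγ y hy e => by
      obtain ⟨m, rfl⟩ := mem_powers_iff_mem_zpowers.2 hγ
      by_contra m1
      obtain ⟨l, el⟩ := (by decide : ∀ m < 9, m ≠ 0 → ∃ l < 9, m * l % 9 = 3) (m % 9) (Nat.mod_lt _ (by norm_num))
        fun e => m1 (by change k ^ m = 1; rw [pow_eq_pow_mod m k9, e, pow_zero])
      refine hy.2 ⟨hy.1, mem_centralizer_singleton_iff.2 ?_⟩
      rw [← el.2, ← pow_eq_pow_mod _ k9, pow_mul, ← pow_eq_pow_mod _ k9]
      exact (Commute.pow_right (mul_inv_eq_iff_eq_mul.1 e).symm l).eq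
  haveI := Fact.mk Nat.prime_three
  rw [Nat.card_zpowers, orderOf_eq_prime_pow (p := 3) (n := 1) k3 k9, Nat.card_coe_set_eq,
    Set.ncard_diff (SetLike.coe_subset_coe.2 inf_le_left), ← Nat.card_coe_set_eq, ← Nat.card_coe_set_eq] at d9
  change 3 ^ 2 ∣ Nat.card (sQ ι) - Nat.card (sQ ι ⊓ 𝒞[k ^ 3] : Subgroup G) at d9
  obtain ⟨i, i7, ei⟩ := (Nat.dvd_prime_pow Nat.prime_two (m := 7)).1
    ((card_dvd_of_le (inf_le_left : sQ ι ⊓ 𝒞[k ^ 3] ≤ _)).trans (cQ.trans rfl).dvd)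
  obtain ⟨m, hm, j, ej⟩ := h.tt_mv hx c
  have j4 : j ≠ 4 := by
    rintro rfl
    rw [eq_mul_inv_iff_mul_eq, ← mem_centralizer_singleton_iff.1 hm] at ej
    exact n (mul_left_cancel ej ▸ fh_ecomm 0 4)
  set B : Subgroup G := (Q0 ⊓ R0).map ι
  have cB : Nat.card B = 32 := (card_map_of_injective h.inj).trans tt_cQR
  have BQ : B ≤ sQ ι := map_mono inf_le_left
  have BQ' : B :^ m⁻¹ ≤ sQ ι := by
    rintro _ ⟨y, hy, rfl⟩
    exact (mem_normalizer_iff.1 (h.cz (inv_mem hm)) _).1 (BQ hy)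
  have Be : ∀ j ≠ 4, ∀ y ∈ B, Commute y (e ι j) := by
    rintro j j4 _ ⟨y, hy, rfl⟩
    exact Commute.map ((cent_e0 y j j4).2 hy.2) ι
  have le : B :^ m⁻¹ ⊓ B ≤ sQ ι ⊓ 𝒞[k ^ 3] := fun y hy => by
    have c1 := Be j j4 _ (mem_conjg.1 hy.1)
    rw [ej, inv_inv, Commute.conj_iff] at c1
    obtain ⟨l, rfl⟩ := hk
    exact ⟨BQ hy.2, mem_centralizer_singleton_iff.2 ((((Be 0 (by decide) y hy.2).mul_right c1).zpow_right l).pow_right 3)⟩
  have h1 := card_inf_mul_relIndex (B :^ m⁻¹) B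
  have h2 := card_mul_relIndex BQ'
  have h3 := relIndex_le_of_le_right (H := B :^ m⁻¹) BQ (by rw [card_conjg, cB, cQ] at h2; omega)
  have h4 := card_le_of_le le
  rw [card_conjg, cB, cQ] at h2
  rw [show (B :^ m⁻¹).relIndex (sQ ι) = 4 by omega] at h3
  rw [cB] at h1
  rw [cQ, ei] at d9
  rw [ei] at h4
  have : i = 7 := by
    have := Nat.mul_le_mul h4 h3
    rw [h1] at this
    interval_cases i <;> omega
  subst this
  have e := eq_of_le_of_card_ge (inf_le_left : sQ ι ⊓ 𝒞[k ^ 3] ≤ _) (by rw [ei, cQ]; rfl)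
  exact k3 (fr _ (pow_mem hk 3) (e0 0 * e0 1) (by decide +kernel) (mul_inv_eq_iff_eq_mul.2
    (mem_centralizer_singleton_iff.1 (e.ge ⟨_, (by decide +kernel : e0 0 * e0 1 ∈ Q0), rfl⟩).2).symm))

end FE

theorem tt [IsSimpleGroup G] (h : FE ι) (hh : FH ι) : IsThreeTranspositionClass (conjugatesOf (z ι)) := by
  refine ⟨⟨fun d hd => orderOf_eq_prime (by rw [pow_two]; exact fh_sq hd (fh_esq 4)) fun e => ?_, fun d hd x hx => ?_⟩,
    ⟨_, mem_conjugatesOf_self, rfl⟩, h.fh_gen fun d hd => subset_closure hd⟩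
  · exact e0_ne 4 (h.inj ((isConj_one_left.1 (e ▸ hd)).trans (map_one ι).symm))
  by_cases c : Commute d x
  · exact .inl (by rw [c.mul_pow, pow_two, pow_two, fh_sq hd (fh_esq 4), fh_sq hx (fh_esq 4), one_mul])
  obtain ⟨g, e1⟩ := isConj_iff.1 (IsConj.trans (IsConj.symm hd) (h.fh_ze 0))
  obtain ⟨i, ci⟩ := h.tt_nb hh (x := g * x * g⁻¹) (IsConj.trans hx (isConj_iff.2 ⟨g, rfl⟩))
  obtain ⟨n, -, e2, e3⟩ := h.fh_e2 (i := 0) (j := i) (i' := 0) (j' := 4) (by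
    rintro rfl; exact c ((Commute.conj_iff g).1 (e1 ▸ ci.symm))) (by decide)
  have e4 : n * g * d * (n * g)⁻¹ = e ι 0 := by rw [← e2, ← e1]; group
  have := h.tt_core (x := n * g * x * (n * g)⁻¹) (IsConj.trans hx (isConj_iff.2 ⟨_, rfl⟩))
    (mem_centralizer_singleton_iff.2 (by
      have := (Commute.conj_iff n).2 ci
      rw [e3] at this
      simpa [mul_assoc] using this.eq)) fun k => c ((Commute.conj_iff (n * g)).1 (e4 ▸ k))
  rw [← e4, conj_mul, conj_pow, conj_eq_one_iff] at this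
  exact .inr this

end CA.U5
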